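import Cfsg.Agent.H48.C6Three.Fields

/-!
Commutators of elements normalising the quaternion group fix each of its three cyclic subgroups
of order `4`.
-/

set_option autoImplicit false
set_option linter.unusedSimpArgs false
set_option linter.unusedSectionVars false

namespace Cfsg.Agent.H48.C6Three

open Matrix

variable {F : Type*} [Field F]

/-- `matF` on the axis of the involution, up to the normalising factor. -/
def axF : Matrix (Fin 2) (Fin 2) F := !![1, 2; 1, -1]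

/-- `matG` on the axis of the involution, up to the normalising factor. -/
def axG (ω : F) : Matrix (Fin 2) (Fin 2) F := !![1, 2 * ω ^ 2; ω, -1]

/-- `matH` on the axis of the involution, up to the normalising factor. -/
def axH (ω : F) : Matrix (Fin 2) (Fin 2) F := !![1, 2 * ω; ω ^ 2, -1]

/-- `matE` on the axis of the involution. -/
def axE (ω : F) : Matrix (Fin 2) (Fin 2) F := !![1, 0; 0, ω]

variable {ω : F}

theorem scalar_of_commute (hr : CubeRoot ω) {C : Matrix (Fin 2) (Fin 2) F}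
    (h1 : C * axF = axF * C) (h2 : C * axG ω = axG ω * C) : ∃ κ : F, C = κ • 1 := by
  have e00 := congrFun (congrFun h1 0) 0
  have e01 := congrFun (congrFun h1 0) 1
  have g00 := congrFun (congrFun h2 0) 0
  simp [axF, axG, Matrix.mul_apply, Fin.sum_univ_two] at e00 e01 g00
  have ht := hr.two
  have hw : ω ≠ 0 := hr.ne_zero
  have hb : C 0 1 = 2 * C 1 0 := by linear_combination e00
  have hc : C 1 0 = 0 := by
    have e : (2 * ω * (1 - ω)) * C 1 0 = 0 := by linear_combination g00 - ω * hb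
    refine (mul_eq_zero.1 e).resolve_left (mul_ne_zero (mul_ne_zero ht hw) ?_)
    exact sub_ne_zero.2 (Ne.symm hr.ne_one)
  have hb0 : C 0 1 = 0 := by rw [hb, hc, mul_zero]
  have hd : C 0 0 = C 1 1 := by
    have e : (2 : F) * (C 0 0 - C 1 1) = 0 := by linear_combination e01 + 2 * hb0
    exact sub_eq_zero.1 ((mul_eq_zero.1 e).resolve_left ht)
  refine ⟨C 0 0, ?_⟩
  ext i j
  fin_cases i <;> fin_cases j <;> simp [hb0, hc, hd]

theorem axF_sq : (axF : Matrix (Fin 2) (Fin 2) F) * axF = (3 : F) • 1 := by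
  ext i j
  fin_cases i <;> fin_cases j <;> simp [axF, Matrix.mul_apply, Fin.sum_univ_two] <;> grind

theorem axG_sq (hr : CubeRoot ω) : axG ω * axG ω = (3 : F) • 1 := by
  have := hr.pow_three
  ext i j
  fin_cases i <;> fin_cases j <;> simp [axG, Matrix.mul_apply, Fin.sum_univ_two] <;> grind

theorem axF_axG (hr : CubeRoot ω) : axF * axG ω = (1 + 2 * ω) • axH ω := by
  have := hr.pow_three
  have := hr.eq
  ext i j
  fin_cases i <;> fin_cases j <;> simp [axF, axG, axH, Matrix.mul_apply, Fin.sum_univ_two] <;> grind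

theorem axG_axF (hr : CubeRoot ω) : axG ω * axF = -((1 + 2 * ω) • axH ω) := by
  have := hr.pow_three
  have := hr.eq
  ext i j
  fin_cases i <;> fin_cases j <;> simp [axF, axG, axH, Matrix.mul_apply, Fin.sum_univ_two] <;> grind

theorem axE_cycle (hr : CubeRoot ω) :
    axG ω * axE ω = axE ω * axF ∧ axH ω * axE ω = axE ω * axG ω := by
  have := hr.pow_three
  constructor <;> ext i j <;>
    fin_cases i <;> fin_cases j <;> simp [axE, axF, axG, axH, Matrix.mul_apply, Fin.sum_univ_two] <;> grind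

theorem axE_inv (hr : CubeRoot ω) :
    axE (ω ^ 2) * axE ω = 1 ∧ axE ω * axE (ω ^ 2) = 1 := by
  have := hr.pow_three
  constructor <;> ext i j <;>
    fin_cases i <;> fin_cases j <;> simp [axE, Matrix.mul_apply, Fin.sum_univ_two] <;> grind

/-- A matrix moving the three axis classes cyclically is `matE` times one of the classes. -/
theorem exists_axE_mul (hr : CubeRoot ω) {A : Matrix (Fin 2) (Fin 2) F} (hA : A ≠ 0) {l m : F}
    (hf : A * axF = l • (axG ω * A)) (hg : A * axG ω = m • (axH ω * A)) :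
    ∃ W : Matrix (Fin 2) (Fin 2) F, (W = 1 ∨ W = axF ∨ W = axG ω ∨ W = axH ω) ∧
      ∃ κ : F, A * W = κ • axE ω := by
  obtain ⟨hi, hi'⟩ := axE_inv hr
  obtain ⟨hc1, hc2⟩ := axE_cycle hr
  set C := axE (ω ^ 2) * A with hC
  have hAC : A = axE ω * C := by rw [hC, ← mul_assoc, hi', one_mul]
  have hC0 : C ≠ 0 := fun e => hA (by rw [hAC, e, mul_zero])
  have conj : ∀ {X Y : Matrix (Fin 2) (Fin 2) F} {c : F}, A * X = c • (Y * A) →
      ∀ Z, Y * axE ω = axE ω * Z → C * X = c • (Z * C) := by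
    intro X Y c h Z hY
    rw [show C * X = axE (ω ^ 2) * (A * X) from mul_assoc _ _ _, h, mul_smul_comm, hAC,
      ← mul_assoc Y, hY, mul_assoc (axE ω), ← mul_assoc (axE (ω ^ 2)) (axE ω), hi, one_mul]
  have hF := conj hf _ hc1
  have hG := conj hg _ hc2
  have sign : ∀ {X : Matrix (Fin 2) (Fin 2) F} {c : F}, X * X = (3 : F) • 1 → C * X = c • (X * C) →
      c = 1 ∨ c = -1 := by
    intro X c hX h
    have e : (3 : F) • C = ((c * c) * 3) • C := by
      calc (3 : F) • C = C * X * X := by rw [mul_assoc, hX, mul_smul_comm, mul_one]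
        _ = (c * c) • (X * X * C) := by
          rw [h, smul_mul_assoc, mul_assoc X, h, mul_smul_comm, smul_smul, ← mul_assoc]
        _ = ((c * c) * 3) • C := by rw [hX, smul_mul_assoc, one_mul, smul_smul]
    have e' : (3 : F) = c * c * 3 := smul_left_injective F hC0 e
    refine mul_self_eq_one_iff.1 (mul_right_cancel₀ hr.three ?_)
    rw [← e', one_mul]
  have fin : ∀ W : Matrix (Fin 2) (Fin 2) F, (C * W) * axF = axF * (C * W) →
      (C * W) * axG ω = axG ω * (C * W) → ∃ κ : F, A * W = κ • axE ω := by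
    intro W h1 h2
    obtain ⟨κ, hκ⟩ := scalar_of_commute hr h1 h2
    exact ⟨κ, by rw [hAC, mul_assoc, hκ, mul_smul_comm, mul_one]⟩
  have anti : axG ω * axF = -(axF * axG ω) := by rw [axG_axF hr, axF_axG hr]
  rcases sign axF_sq hF with rfl | rfl <;> rcases sign (axG_sq hr) hG with rfl | rfl <;>
    simp only [one_smul, neg_smul] at hF hG
  · refine ⟨1, Or.inl rfl, fin _ ?_ ?_⟩ <;> simp [hF, hG]
  · refine ⟨axF, Or.inr (Or.inl rfl), fin _ ?_ ?_⟩
    · rw [← mul_assoc axF C, ← hF]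
    · rw [mul_assoc, show axF * axG ω = -(axG ω * axF) by rw [anti, neg_neg], mul_neg, ← mul_assoc,
        hG, neg_mul, neg_neg, mul_assoc]
  · refine ⟨axG ω, Or.inr (Or.inr (Or.inl rfl)), fin _ ?_ ?_⟩
    · rw [mul_assoc, anti, mul_neg, ← mul_assoc, hF, neg_mul, neg_neg, mul_assoc]
    · rw [← mul_assoc (axG ω) C, ← hG]
  · have hW : (1 + 2 * ω) • (C * axH ω) = C * (axF * axG ω) := by rw [axF_axG hr, mul_smul_comm]
    refine ⟨axH ω, Or.inr (Or.inr (Or.inr rfl)), fin _ ?_ ?_⟩ <;>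
      apply smul_right_injective (Matrix (Fin 2) (Fin 2) F) hr.sqrt_ne <;>
      show (1 + 2 * ω) • _ = (1 + 2 * ω) • _ <;>
      rw [← smul_mul_assoc, hW, ← mul_smul_comm, hW]
    · calc C * (axF * axG ω) * axF = C * (axF * (axG ω * axF)) := by simp only [mul_assoc]
        _ = -((C * axF) * (axF * axG ω)) := by rw [anti, mul_neg, mul_neg, ← mul_assoc C axF]
        _ = axF * (C * (axF * axG ω)) := by rw [hF, neg_mul, neg_neg, mul_assoc]
    · calc C * (axF * axG ω) * axG ω = -(C * ((axG ω * axF) * axG ω)) := by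
            rw [anti, neg_mul, mul_neg, neg_neg, mul_assoc]
        _ = -((C * axG ω) * (axF * axG ω)) := by simp only [mul_assoc]
        _ = axG ω * (C * (axF * axG ω)) := by rw [hG, neg_mul, neg_neg, mul_assoc]

/-- The final plane contradiction in standard coordinates. -/
theorem Overgroup.no_diag {M : Subgroup (GL (Fin 3) F)} [Finite F] (h : Overgroup ω M) {d : ↥M}
    (hd : matB' * mat d * matB = !![1, 0, 0; 0, ω, 0; 0, 0, ω ^ 2]) : False := by
  have hB := matB_mul (F := F) h.two_ne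
  have hB' : (matB' : Matrix (Fin 3) (Fin 3) F) * matB = 1 := mul_eq_one_comm.1 hB
  have h2 := h.two_ne
  have h22 : (2 : F)⁻¹ * 2 = 1 := inv_mul_cancel₀ h2
  set u : F := (ω ^ 2 + 1) * 2⁻¹ with hu
  set v : F := (ω ^ 2 - 1) * 2⁻¹ with hv
  have hmd : mat d = !![ω, 0, 0; 0, u, v; 0, v, u] := by
    have e : mat d = matB * (matB' * mat d * matB) * matB' := by
      simp only [← mul_assoc, hB, one_mul]; rw [mul_assoc, hB, mul_one]
    rw [e, hd]
    ext i j
    fin_cases i <;> fin_cases j <;>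
      simp [hu, hv, matB, matB', Matrix.mul_apply, Fin.sum_univ_three, Matrix.vecMul, dotProduct] <;> grind
  have hd3 : d ^ 3 = 1 := by
    apply mat_injective
    have hN : (!![1, 0, 0; 0, ω, 0; 0, 0, ω ^ 2] : Matrix (Fin 3) (Fin 3) F) = matD ω := rfl
    have e : mat d = matB * matD ω * matB' := by
      rw [← hN, ← hd]; simp only [← mul_assoc, hB, one_mul]; rw [mul_assoc, hB, mul_one]
    rw [mat_pow, mat_one, e, pow_succ, pow_two]
    calc matB * matD ω * matB' * (matB * matD ω * matB') * (matB * matD ω * matB')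
        = matB * (matD ω * (matB' * matB) * matD ω * (matB' * matB) * matD ω) * matB' := by
          simp only [mul_assoc]
      _ = matB * (matD ω ^ 3) * matB' := by rw [hB', mul_one, mul_one, pow_succ, pow_two]
      _ = 1 := by rw [h.root.matD_cube, mul_one, hB]
  let Dd : ↥(blkGroup F) := ⟨(h.eD : GL (Fin 3) F), by
    show IsBlk (mat h.eD); rw [h.mat_D]; exact ⟨rfl, rfl, rfl, rfl⟩⟩
  let E : ↥(blkGroup F) := ⟨(d : GL (Fin 3) F), by
    show IsBlk (mat d); rw [hmd]; exact ⟨rfl, rfl, rfl, rfl⟩⟩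
  have hDH : pimg Dd ∈ (M.subgroupOf (blkGroup F)).map pimg := Subgroup.mem_map_of_mem _ h.eD.2
  have hEH : pimg E ∈ (M.subgroupOf (blkGroup F)).map pimg := Subgroup.mem_map_of_mem _ d.2
  have hD3 : pimg Dd ^ 3 = 1 := by
    rw [← map_pow, show Dd ^ 3 = 1 from Subtype.ext (by
      rw [Subgroup.coe_pow]; exact congrArg Subtype.val h.eD_cube), map_one]
  have hE3 : pimg E ^ 3 = 1 := by
    rw [← map_pow, show E ^ 3 = 1 from Subtype.ext (by
      rw [Subgroup.coe_pow]; exact congrArg Subtype.val hd3), map_one]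
  set X : Matrix (Fin 2) (Fin 2) F := !![ω * u, ω * v; ω ^ 2 * v, ω ^ 2 * u] with hX
  have hsX : sub2Hom (Dd * E) = X := by
    rw [map_mul]
    show sub2 (mat h.eD) * sub2 (mat d) = X
    rw [h.mat_D, hmd, hX]
    ext i j
    fin_cases i <;> fin_cases j <;> simp [sub2, matD, Matrix.mul_apply, Fin.sum_univ_two]
  have hp3 := h.root.pow_three
  have hw := h.root.ne_zero
  have hne : v ≠ 0 := by
    rw [hv]
    exact mul_ne_zero (sub_ne_zero.2 h.root.sq_ne_one) (inv_ne_zero h2)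
  have hu' : u = -(ω * 2⁻¹) := by
    rw [hu]; linear_combination 2⁻¹ * h.root.eq
  have hu0 : u ≠ 0 := by
    rw [hu']; exact neg_ne_zero.2 (mul_ne_zero hw (inv_ne_zero h2))
  have hdet : u * u - v * v = ω ^ 2 := by
    rw [hu, hv]; linear_combination (ω ^ 2) * (2 * 2⁻¹ + 1) * h22
  have htr : ω * u + ω ^ 2 * u = ω * 2⁻¹ := by
    rw [hu']; linear_combination -(ω * 2⁻¹) * h.root.eq
  have hpowX : ∀ n : ℕ, (pimg Dd * pimg E) ^ n = 1 → (X ^ n) 0 1 = 0 := by
    intro n hn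
    rw [← map_mul, ← map_pow, pimg_eq_one] at hn
    obtain ⟨c, hc⟩ := hn
    rw [← hsX, ← map_pow]
    show sub2 (((Dd * E) ^ n : ↥(blkGroup F)) : GL (Fin 3) F).val 0 1 = 0
    rw [hc]; simp
  rcases (h.plane_tests M h.nt).2.2 _ hDH _ hEH hD3 hE3 with hc | hc | hc | hc
  · rw [← map_mul, ← map_mul, pimg_eq_iff] at hc
    obtain ⟨c, hc⟩ := hc
    have e : sub2Hom (E * Dd) = sub2 (mat d) * sub2 (mat h.eD) := by rw [map_mul]; rfl
    change sub2Hom (Dd * E) = c • sub2Hom (E * Dd) at hc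
    rw [hsX, e, h.mat_D, hmd, hX] at hc
    have e00 := congrFun (congrFun hc 0) 0
    have e01 := congrFun (congrFun hc 0) 1
    simp [sub2, matD, Matrix.mul_apply, Fin.sum_univ_two] at e00 e01
    have hc1 : c = 1 := mul_right_cancel₀ (mul_ne_zero hu0 hw) (by linear_combination -e00)
    rw [hc1] at e01
    exact h.root.sq_ne_self (mul_right_cancel₀ hne (by linear_combination -e01))
  all_goals have e := hpowX _ hc
  · rw [hX, pow_two] at e
    simp [Matrix.mul_apply, Fin.sum_univ_two] at e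
    have e' : ω * v * (ω * 2⁻¹) = 0 := by rw [← htr]; linear_combination e
    simp [hw, hne, h2] at e'
  · rw [hX, pow_succ, pow_two] at e
    simp [Matrix.mul_apply, Fin.sum_univ_two] at e
    have e' : ω * v * ((ω * 2⁻¹) ^ 2 - (u * u - v * v)) = 0 := by
      rw [← htr]; linear_combination e + ω * v * (u * u - v * v) * hp3
    rw [hdet] at e'
    have e'' : (3 : F) * (ω ^ 3 * v) = 0 := by
      linear_combination (-4) * e' + ω ^ 3 * v * (2 * 2⁻¹ + 1) * h22
    simp [hw, hne, h.root.three] at e''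
  · rw [hX, pow_succ, pow_succ, pow_succ, pow_two] at e
    simp [Matrix.mul_apply, Fin.sum_univ_two] at e
    have e' : ω * v * ((ω * 2⁻¹) ^ 4 - 3 * (ω * 2⁻¹) ^ 2 * (u * u - v * v) + (u * u - v * v) ^ 2) = 0 := by
      rw [← htr]
      linear_combination (norm := ring_nf) e
      grind
    rw [hdet] at e'
    have e'' : (5 : F) * (ω ^ 5 * v) = 0 := by
      linear_combination (norm := ring_nf) 16 * e'
      grind
    simp [hw, hne, h.five] at e''

variable {M : Subgroup (GL (Fin 3) F)} (h : Overgroup ω M)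

namespace Overgroup

theorem eZ_zc : h.eZ ∈ h.zc := Subgroup.mem_centralizer_singleton_iff.2 rfl
theorem eF_zc : h.eF ∈ h.zc :=
  Subgroup.mem_centralizer_singleton_iff.2 (by rw [← h.eF_sq, mul_assoc])
theorem eG_zc : h.eG ∈ h.zc :=
  Subgroup.mem_centralizer_singleton_iff.2 (by rw [← h.eG_sq, mul_assoc])
theorem eH_zc : h.eH ∈ h.zc := h.eH_eq ▸ h.zc.mul_mem h.eF_zc h.eG_zc

/-- The action on the axis of the involution. -/
def axis : ↥h.zc →* Matrix (Fin 2) (Fin 2) F := sub2Hom.comp h.zblk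

theorem axis_val (g : ↥h.zc) : h.axis g = sub2 (matB' * mat (g : ↥M) * matB) := rfl

/-- The three classes, as elements of the centralizer. -/
noncomputable def cls : Fin 3 → ↥h.zc := ![⟨h.eF, h.eF_zc⟩, ⟨h.eG, h.eG_zc⟩, ⟨h.eH, h.eH_zc⟩]

/-- The axis matrices of the three classes. -/
def axCls (ω : F) : Fin 3 → Matrix (Fin 2) (Fin 2) F := ![axF, axG ω, axH ω]

theorem axis_cls (i : Fin 3) : h.axis (h.cls i) = (1 + 2 * ω)⁻¹ • axCls ω i := by
  have := h.root.eq
  have := h.root.pow_three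
  have h22 : (2 : F)⁻¹ * 2 = 1 := inv_mul_cancel₀ h.two_ne
  rw [h.axis_val]
  fin_cases i
  · show sub2 (matB' * mat h.eF * matB) = _
    rw [h.mat_F, matF]
    ext i j
    fin_cases i <;> fin_cases j <;>
      simp [sub2, axCls, axF, matB, matB', Matrix.mul_apply, Fin.sum_univ_three, Matrix.vecMul, dotProduct] <;> grind
  · show sub2 (matB' * mat h.eG * matB) = _
    rw [h.mat_G, h.root.matG_eq]
    ext i j
    fin_cases i <;> fin_cases j <;>
      simp [sub2, axCls, axG, matB, matB', Matrix.mul_apply, Fin.sum_univ_three, Matrix.vecMul, dotProduct] <;> grind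
  · show sub2 (matB' * mat h.eH * matB) = _
    rw [h.mat_H, h.root.matH_eq]
    ext i j
    fin_cases i <;> fin_cases j <;>
      simp [sub2, axCls, axH, matB, matB', Matrix.mul_apply, Fin.sum_univ_three, Matrix.vecMul, dotProduct] <;> grind

theorem corner_cls (i : Fin 3) : cornerHom (h.zblk (h.cls i)) = 1 := by
  have := h.root.eq
  have := h.root.pow_three
  have := h.root.three
  have h22 : (2 : F)⁻¹ * 2 = 1 := inv_mul_cancel₀ h.two_ne
  have hs : (1 + 2 * ω)⁻¹ * (1 + 2 * ω) = 1 := inv_mul_cancel₀ h.root.sqrt_ne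
  show (matB' * mat (h.cls i : ↥M) * matB : Matrix (Fin 3) (Fin 3) F) 0 0 = 1
  fin_cases i
  · show (matB' * mat h.eF * matB : Matrix (Fin 3) (Fin 3) F) 0 0 = 1
    rw [h.mat_F, matF]
    simp [matB, matB', Matrix.mul_apply, Fin.sum_univ_three, Matrix.vecMul, dotProduct]
    grind
  · show (matB' * mat h.eG * matB : Matrix (Fin 3) (Fin 3) F) 0 0 = 1
    rw [h.mat_G, h.root.matG_eq]
    simp [matB, matB', Matrix.mul_apply, Fin.sum_univ_three, Matrix.vecMul, dotProduct]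
    grind
  · show (matB' * mat h.eH * matB : Matrix (Fin 3) (Fin 3) F) 0 0 = 1
    rw [h.mat_H, h.root.matH_eq]
    simp [matB, matB', Matrix.mul_apply, Fin.sum_univ_three, Matrix.vecMul, dotProduct]
    grind

theorem axis_Z : h.axis ⟨h.eZ, h.eZ_zc⟩ = (-1 : F) • 1 ∧ cornerHom (h.zblk ⟨h.eZ, h.eZ_zc⟩) = 1 := by
  have h22 : (2 : F)⁻¹ * 2 = 1 := inv_mul_cancel₀ h.two_ne
  constructor
  · rw [h.axis_val]
    show sub2 (matB' * mat h.eZ * matB) = _
    rw [h.mat_Z]
    ext i j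
    fin_cases i <;> fin_cases j <;>
      simp [sub2, matB, matB', matZ, Matrix.mul_apply, Fin.sum_univ_three, Matrix.vecMul, dotProduct] <;> grind
  · show (matB' * mat h.eZ * matB : Matrix (Fin 3) (Fin 3) F) 0 0 = 1
    rw [h.mat_Z]
    simp [matB, matB', matZ, Matrix.mul_apply, Fin.sum_univ_three, Matrix.vecMul, dotProduct]
    grind

theorem axis_of_pr {a b : ↥h.zc} (e : pr M (a : ↥M) = pr M (b : ↥M)) :
    ∃ c : F, h.axis a = c • h.axis b := by
  obtain ⟨c, hc⟩ := pr_eq_iff.1 e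
  refine ⟨c, ?_⟩
  rw [h.axis_val, h.axis_val, hc, mul_smul_comm, smul_mul_assoc]
  ext i j
  fin_cases i <;> fin_cases j <;> rfl

theorem axis_ne_zero (a : ↥h.zc) : h.axis a ≠ 0 := fun e => by
  have h1 : h.axis a * h.axis a⁻¹ = 1 := by rw [← map_mul, mul_inv_cancel, map_one]
  rw [e, zero_mul] at h1
  exact zero_ne_one h1

theorem corner_mul_det_axis (g : ↥h.zc) : cornerHom (h.zblk g) * (h.axis g).det = 1 := by
  have hB' : (matB' : Matrix (Fin 3) (Fin 3) F) * matB = 1 := mul_eq_one_comm.1 (matB_mul h.two_ne)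
  obtain ⟨b1, b2, b3, b4⟩ : IsBlk (matB' * mat (g : ↥M) * matB) :=
    isBlk_of_commute_matZ h.two_ne (h.mem_zc.1 g.2)
  have e : (matB' * mat (g : ↥M) * matB).det = 1 := by
    rw [det_mul, det_mul, h.mat_det, mul_one, ← det_mul, hB', det_one]
  show (matB' * mat (g : ↥M) * matB : Matrix (Fin 3) (Fin 3) F) 0 0 * (h.axis g).det = 1
  rw [h.axis_val]
  generalize matB' * mat (g : ↥M) * matB = N at b1 b2 b3 b4 e ⊢
  rw [det_fin_three, b1, b2, b3, b4] at e
  rw [det_fin_two, ← e]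
  simp [sub2]
  ring

/-- Conjugation by `c` sends the class `i` into the class `j`. -/
def Moves (c : ↥M ⧸ scal M) (i j : Fin 3) : Prop :=
  c * pr M (h.cls i : ↥M) * c⁻¹ = pr M (h.cls j : ↥M) ∨
    c * pr M (h.cls i : ↥M) * c⁻¹ = pr M (h.cls j : ↥M) * pr M h.eZ

theorem cls_inj {j k : Fin 3}
    (e : pr M (h.cls j : ↥M) = pr M (h.cls k : ↥M) ∨
      pr M (h.cls j : ↥M) = pr M (h.cls k : ↥M) * pr M h.eZ) : j = k := by
  obtain ⟨c, hc⟩ : ∃ c : F, axCls ω j = c • axCls ω k := by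
    have hs := inv_ne_zero h.root.sqrt_ne
    rcases e with e | e
    · obtain ⟨c, hc⟩ := h.axis_of_pr e
      rw [h.axis_cls, h.axis_cls, smul_comm] at hc
      exact ⟨c, smul_right_injective _ hs hc⟩
    · obtain ⟨c, hc⟩ := h.axis_of_pr (a := h.cls j) (b := h.cls k * ⟨h.eZ, h.eZ_zc⟩)
        (by rw [Subgroup.coe_mul, map_mul]; exact e)
      rw [map_mul, h.axis_Z.1, h.axis_cls, h.axis_cls, mul_smul_comm, mul_one, smul_smul, smul_comm] at hc
      exact ⟨c * -1, smul_right_injective _ hs hc⟩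
  have e00 := congrFun (congrFun hc 0) 0
  have e10 := congrFun (congrFun hc 1) 0
  have h1 := h.root.ne_one
  have h2 := h.root.sq_ne_one
  have h3 := h.root.sq_ne_self
  fin_cases j <;> fin_cases k <;> simp [axCls, axF, axG, axH] at e00 e10 ⊢ <;> subst e00 <;> grind

theorem cls_sq (i : Fin 3) : pr M (h.cls i : ↥M) * pr M (h.cls i : ↥M) = pr M h.eZ := by
  rw [← map_mul]
  congr 1
  fin_cases i
  · exact h.eF_sq
  · exact h.eG_sq
  · exact mat_injective (by
      show mat (h.eH * h.eH) = _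
      rw [mat_mul, h.mat_H, h.mat_Z, h.root.matH_sq])

theorem cls_comm_Z (i : Fin 3) :
    pr M (h.cls i : ↥M) * pr M h.eZ = pr M h.eZ * pr M (h.cls i : ↥M) :=
  h.mem_zc_iff_pr.1 (h.cls i).2

theorem mem_qbar_cases {x : ↥M ⧸ scal M} : x ∈ h.qbar ↔ x = 1 ∨ x = pr M h.eZ ∨
    ∃ i, x = pr M (h.cls i : ↥M) ∨ x = pr M (h.cls i : ↥M) * pr M h.eZ := by
  rw [h.mem_qbar]
  simp only [Set.mem_insert_iff, Set.mem_singleton_iff, Fin.exists_fin_succ, IsEmpty.exists_iff,
    or_false, or_assoc]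
  rfl

variable [Finite F]

theorem conj_Z {x : ↥M ⧸ scal M} (hx : x ∈ Subgroup.normalizer (h.qbar : Set (↥M ⧸ scal M))) :
    x * pr M h.eZ = pr M h.eZ * x := by
  have hm : x * pr M h.eZ * x⁻¹ ∈ h.qbar :=
    (Subgroup.mem_normalizer_iff.1 hx _).1 (h.mem_qbar_cases.2 (Or.inr (Or.inl rfl)))
  have hz2 : pr M h.eZ * pr M h.eZ = 1 := by rw [← map_mul, h.eZ_sq, map_one]
  have hsq : x * pr M h.eZ * x⁻¹ * (x * pr M h.eZ * x⁻¹) = 1 := by
    calc _ = x * (pr M h.eZ * pr M h.eZ) * x⁻¹ := by group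
      _ = 1 := by rw [hz2, mul_one, mul_inv_cancel]
  rcases h.mem_qbar_cases.1 hm with e | e | ⟨i, e | e⟩
  · exact absurd (conj_eq_one_iff.1 e) h.prZ_ne_one
  · exact mul_inv_eq_iff_eq_mul.1 e
  · rw [e, h.cls_sq] at hsq
    exact absurd hsq h.prZ_ne_one
  · rw [e, mul_assoc, ← mul_assoc (pr M h.eZ), ← h.cls_comm_Z, mul_assoc (pr M (h.cls i : ↥M)), hz2,
      mul_one, h.cls_sq] at hsq
    exact absurd hsq h.prZ_ne_one

theorem exists_moves {x : ↥M ⧸ scal M} (hx : x ∈ Subgroup.normalizer (h.qbar : Set (↥M ⧸ scal M)))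
    (i : Fin 3) : ∃ j, h.Moves x i j := by
  have hm : x * pr M (h.cls i : ↥M) * x⁻¹ ∈ h.qbar :=
    (Subgroup.mem_normalizer_iff.1 hx _).1 (h.mem_qbar_cases.2 (Or.inr (Or.inr ⟨i, Or.inl rfl⟩)))
  have hxz : x * pr M h.eZ * x⁻¹ = pr M h.eZ := mul_inv_eq_iff_eq_mul.2 (h.conj_Z hx)
  have hz2 : pr M h.eZ * pr M h.eZ = 1 := by rw [← map_mul, h.eZ_sq, map_one]
  have hsq : x * pr M (h.cls i : ↥M) * x⁻¹ * (x * pr M (h.cls i : ↥M) * x⁻¹) = pr M h.eZ := by
    calc _ = x * (pr M (h.cls i : ↥M) * pr M (h.cls i : ↥M)) * x⁻¹ := by group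
      _ = pr M h.eZ := by rw [h.cls_sq, hxz]
  rcases h.mem_qbar_cases.1 hm with e | e | ⟨j, e⟩
  · rw [e, one_mul] at hsq
    exact absurd hsq.symm h.prZ_ne_one
  · rw [e, hz2] at hsq
    exact absurd hsq.symm h.prZ_ne_one
  · exact ⟨j, e⟩

theorem Moves.comp {x y : ↥M ⧸ scal M} {i j k : Fin 3} (hxz : x * pr M h.eZ = pr M h.eZ * x)
    (h1 : h.Moves y i j) (h2 : h.Moves x j k) : h.Moves (x * y) i k := by
  have hx' : x * pr M h.eZ * x⁻¹ = pr M h.eZ := mul_inv_eq_iff_eq_mul.2 hxz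
  have hz2 : pr M h.eZ * pr M h.eZ = 1 := by rw [← map_mul, h.eZ_sq, map_one]
  have e : x * y * pr M (h.cls i : ↥M) * (x * y)⁻¹ = x * (y * pr M (h.cls i : ↥M) * y⁻¹) * x⁻¹ := by group
  rcases h1 with h1 | h1 <;> rcases h2 with h2 | h2
  · left; rw [e, h1, h2]
  · right; rw [e, h1, h2]
  · right
    rw [e, h1]
    calc x * (pr M (h.cls j : ↥M) * pr M h.eZ) * x⁻¹
        = (x * pr M (h.cls j : ↥M) * x⁻¹) * (x * pr M h.eZ * x⁻¹) := by group
      _ = _ := by rw [h2, hx']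
  · left
    rw [e, h1]
    calc x * (pr M (h.cls j : ↥M) * pr M h.eZ) * x⁻¹
        = (x * pr M (h.cls j : ↥M) * x⁻¹) * (x * pr M h.eZ * x⁻¹) := by group
      _ = _ := by rw [h2, hx', mul_assoc, hz2, mul_one]

theorem Moves.unique {x : ↥M ⧸ scal M} {i j k : Fin 3} (h1 : h.Moves x i j) (h2 : h.Moves x i k) :
    j = k := by
  have hz2 : pr M h.eZ * pr M h.eZ = 1 := by rw [← map_mul, h.eZ_sq, map_one]
  apply h.cls_inj
  rcases h1 with h1 | h1 <;> rcases h2 with h2 | h2 <;> rw [h1] at h2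
  · exact Or.inl h2
  · exact Or.inr h2
  · right; rw [← h2, mul_assoc, hz2, mul_one]
  · exact Or.inl (mul_right_cancel h2)

/-- The permutation of the three classes. -/
theorem exists_perm : ∃ π : ↥(Subgroup.normalizer (h.qbar : Set (↥M ⧸ scal M))) →* Equiv.Perm (Fin 3),
    ∀ (x : ↥(Subgroup.normalizer (h.qbar : Set (↥M ⧸ scal M)))) (i : Fin 3),
      h.Moves (x : ↥M ⧸ scal M) i (π x i) := by
  choose σ hσ using fun (x : ↥(Subgroup.normalizer (h.qbar : Set (↥M ⧸ scal M)))) (i : Fin 3) =>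
    h.exists_moves x.2 i
  have hmul : ∀ x y i, σ (x * y) i = σ x (σ y i) := fun x y i =>
    Moves.unique h (hσ (x * y) i) (Moves.comp h (h.conj_Z x.2) (hσ y i) (hσ x _))
  have hone : ∀ i, σ 1 i = i := fun i => Moves.unique h (hσ 1 i) (Or.inl (by simp))
  exact ⟨MonoidHom.mk' (fun x => ⟨σ x, σ x⁻¹, fun i => by rw [← hmul, inv_mul_cancel, hone],
    fun i => by rw [← hmul, mul_inv_cancel, hone]⟩) fun x y => Equiv.ext (hmul x y), hσ⟩

include h in
/-- No element of the commutator type permutes the classes cyclically. -/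
theorem no_cycle (C : ↥h.zc) (hcor : cornerHom (h.zblk C) = 1)
    (h0 : h.Moves (pr M (C : ↥M)) 0 1) (h1 : h.Moves (pr M (C : ↥M)) 1 2) : False := by
  have hs0 : (1 + 2 * ω)⁻¹ ≠ 0 := inv_ne_zero h.root.sqrt_ne
  have key : ∀ i j, h.Moves (pr M (C : ↥M)) i j →
      ∃ l : F, h.axis C * axCls ω i = l • (axCls ω j * h.axis C) := by
    intro i j hm
    rcases hm with hm | hm <;> rw [mul_inv_eq_iff_eq_mul] at hm
    · obtain ⟨c, hc⟩ := h.axis_of_pr (a := C * h.cls i) (b := h.cls j * C)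
        (by rw [Subgroup.coe_mul, Subgroup.coe_mul, map_mul, map_mul]; exact hm)
      rw [map_mul, map_mul, h.axis_cls, h.axis_cls, mul_smul_comm, smul_mul_assoc, smul_comm c] at hc
      exact ⟨c, smul_right_injective _ hs0 hc⟩
    · obtain ⟨c, hc⟩ := h.axis_of_pr (a := C * h.cls i) (b := h.cls j * ⟨h.eZ, h.eZ_zc⟩ * C)
        (by rw [Subgroup.coe_mul, Subgroup.coe_mul, Subgroup.coe_mul, map_mul, map_mul, map_mul]; exact hm)
      rw [map_mul, map_mul, map_mul, h.axis_Z.1, h.axis_cls, h.axis_cls, mul_smul_comm, mul_smul_comm,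
        mul_one, smul_mul_assoc, smul_mul_assoc, smul_smul, smul_comm (c * -1)] at hc
      exact ⟨c * -1, smul_right_injective _ hs0 hc⟩
  obtain ⟨l, hl⟩ := key 0 1 h0
  obtain ⟨m, hm⟩ := key 1 2 h1
  obtain ⟨W, hW, κ, hκ⟩ := exists_axE_mul h.root (h.axis_ne_zero C) hl hm
  obtain ⟨q, hqc, ρ, hq⟩ : ∃ q : ↥h.zc, cornerHom (h.zblk q) = 1 ∧ ∃ ρ : F, h.axis q = ρ • W := by
    rcases hW with rfl | rfl | rfl | rfl
    · exact ⟨1, by rw [map_one, map_one], 1, by rw [map_one, one_smul]⟩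
    · exact ⟨h.cls 0, h.corner_cls 0, _, h.axis_cls 0⟩
    · exact ⟨h.cls 1, h.corner_cls 1, _, h.axis_cls 1⟩
    · exact ⟨h.cls 2, h.corner_cls 2, _, h.axis_cls 2⟩
  have hax : h.axis (C * q) = (ρ * κ) • axE ω := by
    rw [map_mul, hq, mul_smul_comm, hκ, smul_smul]
  have hcor' : cornerHom (h.zblk (C * q)) = 1 := by rw [map_mul, map_mul, hcor, hqc, one_mul]
  set ν := ρ * κ
  have hdet : ν * ν * ω = 1 := by
    have e := h.corner_mul_det_axis (C * q)
    rw [hax, hcor', one_mul, axE] at e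
    simp [Matrix.det_fin_two] at e
    linear_combination e
  have hblk : ∀ g : ↥h.zc, cornerHom (h.zblk g) = 1 → h.axis g = ω • axE ω → False := by
    intro g hc ha
    refine h.no_diag (d := (g : ↥M)) ?_
    obtain ⟨b1, b2, b3, b4⟩ : IsBlk (matB' * mat (g : ↥M) * matB) :=
      isBlk_of_commute_matZ h.two_ne (h.mem_zc.1 g.2)
    change (matB' * mat (g : ↥M) * matB : Matrix (Fin 3) (Fin 3) F) 0 0 = 1 at hc
    rw [h.axis_val] at ha
    generalize matB' * mat (g : ↥M) * matB = N at b1 b2 b3 b4 hc ha ⊢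
    have e := fun i j => congrFun (congrFun ha i) j
    have e00 := e 0 0; have e01 := e 0 1; have e10 := e 1 0; have e11 := e 1 1
    simp [sub2, axE] at e00 e01 e10 e11
    ext i j
    fin_cases i <;> fin_cases j <;> simp [b1, b2, b3, b4, hc, e00, e01, e10, e11, pow_two]
  have hν : ν = ω ∨ ν = -ω := by
    refine mul_self_eq_mul_self_iff.1 ?_
    have := h.root.pow_three
    linear_combination (ω * ω) * hdet - ν * ν * this
  rcases hν with e | e
  · exact hblk _ hcor' (by rw [hax, e])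
  · refine hblk (C * q * ⟨h.eZ, h.eZ_zc⟩) ?_ ?_
    · rw [map_mul, map_mul, hcor', h.axis_Z.2, one_mul]
    · rw [map_mul, hax, h.axis_Z.1, e, mul_smul_comm, mul_one, smul_smul]
      simp

theorem autQ : ∀ x ∈ Subgroup.normalizer (h.qbar : Set (↥M ⧸ scal M)),
    ∀ y ∈ Subgroup.normalizer (h.qbar : Set (↥M ⧸ scal M)), ∀ q ∈ h.qbar,
    (x * y * x⁻¹ * y⁻¹) * q * (x * y * x⁻¹ * y⁻¹)⁻¹ = q ∨
      (x * y * x⁻¹ * y⁻¹) * q * (x * y * x⁻¹ * y⁻¹)⁻¹ = q * pr M h.eZ := by
  intro x hx y hy q hq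
  obtain ⟨X, rfl⟩ := pr_surjective x
  obtain ⟨Y, rfl⟩ := pr_surjective y
  obtain ⟨π, hπ⟩ := h.exists_perm
  let nx : ↥(Subgroup.normalizer (h.qbar : Set (↥M ⧸ scal M))) := ⟨pr M X, hx⟩
  let ny : ↥(Subgroup.normalizer (h.qbar : Set (↥M ⧸ scal M))) := ⟨pr M Y, hy⟩
  set c := pr M X * pr M Y * (pr M X)⁻¹ * (pr M Y)⁻¹ with hc
  let X' : ↥h.zc := ⟨X, h.mem_zc_iff_pr.2 (h.conj_Z hx)⟩
  let Y' : ↥h.zc := ⟨Y, h.mem_zc_iff_pr.2 (h.conj_Z hy)⟩
  set C : ↥h.zc := X' * Y' * X'⁻¹ * Y'⁻¹ with hC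
  have hCc : pr M (C : ↥M) = c := by
    simp only [hC, hc, X', Y', Subgroup.coe_mul, Subgroup.coe_inv, map_mul, map_inv]
  have hcor : ∀ g : ↥h.zc, g = C ∨ g = C⁻¹ → cornerHom (h.zblk g) = 1 := by
    have e : ∀ u v : ↥h.zc, cornerHom (h.zblk (u * v * u⁻¹ * v⁻¹)) = 1 := fun u v => by
      have h1 : cornerHom (h.zblk u) * cornerHom (h.zblk u⁻¹) = 1 := by
        rw [← map_mul, ← map_mul, mul_inv_cancel, map_one, map_one]
      have h2 : cornerHom (h.zblk v) * cornerHom (h.zblk v⁻¹) = 1 := by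
        rw [← map_mul, ← map_mul, mul_inv_cancel, map_one, map_one]
      rw [map_mul, map_mul, map_mul, map_mul, map_mul, map_mul]
      linear_combination (cornerHom (h.zblk v) * cornerHom (h.zblk v⁻¹)) * h1 + h2
    rintro g (rfl | rfl)
    · exact e X' Y'
    · rw [hC, show (X' * Y' * X'⁻¹ * Y'⁻¹)⁻¹ = Y' * X' * Y'⁻¹ * X'⁻¹ by group]
      exact e Y' X'
  set σ := π (nx * ny * nx⁻¹ * ny⁻¹) with hσ
  have hmv : ∀ i, h.Moves c i (σ i) := fun i => hπ (nx * ny * nx⁻¹ * ny⁻¹) i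
  have hmv' : ∀ i, h.Moves c⁻¹ i (σ⁻¹ i) := fun i => by
    have := hπ (nx * ny * nx⁻¹ * ny⁻¹)⁻¹ i
    rwa [map_inv] at this
  have hperm : σ = 1 ∨ (σ 0 = 1 ∧ σ 1 = 2) ∨ (σ⁻¹ 0 = 1 ∧ σ⁻¹ 1 = 2) := by
    have key : ∀ a b : Equiv.Perm (Fin 3), a * b * a⁻¹ * b⁻¹ = 1 ∨
        ((a * b * a⁻¹ * b⁻¹) 0 = 1 ∧ (a * b * a⁻¹ * b⁻¹) 1 = 2) ∨
        ((a * b * a⁻¹ * b⁻¹)⁻¹ 0 = 1 ∧ (a * b * a⁻¹ * b⁻¹)⁻¹ 1 = 2) := by decide
    rw [hσ, map_mul, map_mul, map_mul, map_inv, map_inv]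
    exact key _ _
  rcases hperm with e | ⟨e0, e1⟩ | ⟨e0, e1⟩
  · have hz2 : pr M h.eZ * pr M h.eZ = 1 := by rw [← map_mul, h.eZ_sq, map_one]
    have hcz : c * pr M h.eZ * c⁻¹ = pr M h.eZ :=
      mul_inv_eq_iff_eq_mul.2 (h.conj_Z (nx * ny * nx⁻¹ * ny⁻¹).2)
    rcases h.mem_qbar_cases.1 hq with rfl | rfl | ⟨i, hi⟩
    · left; simp
    · left; exact hcz
    · have hm := hmv i
      rw [e, Equiv.Perm.one_apply] at hm
      rcases hi with rfl | rfl
      · exact hm
      · have hsplit : c * (pr M (h.cls i : ↥M) * pr M h.eZ) * c⁻¹ =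
            c * pr M (h.cls i : ↥M) * c⁻¹ * pr M h.eZ := by
          conv_rhs => rw [← hcz]
          group
        rcases hm with hm | hm
        · left; rw [hsplit, hm]
        · right; rw [hsplit, hm]
  · refine (h.no_cycle C (hcor C (Or.inl rfl)) ?_ ?_).elim
    · rw [hCc, ← e0]; exact hmv 0
    · rw [hCc, ← e1]; exact hmv 1
  · refine (h.no_cycle C⁻¹ (hcor _ (Or.inr rfl)) ?_ ?_).elim
    · rw [Subgroup.coe_inv, map_inv, hCc, ← e0]; exact hmv' 0
    · rw [Subgroup.coe_inv, map_inv, hCc, ← e1]; exact hmv' 1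

end Overgroup

end Cfsg.Agent.H48.C6Three
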