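import Cfsg.Agent.H48.C6Three.Gens
import Cfsg.Agent.H98.MaximalSL
import Cfsg.Agent.H1.SUThree.Top

/-!
A subgroup of `SL₃ p` or of `SU₃ p` that contains the standard generators of `3^(1+2) : Q₈` and a transvection is
everything.
-/

set_option autoImplicit false
set_option linter.unusedSectionVars false

namespace Cfsg.Agent.H48.C6Three

open Matrix
open Cfsg.Agent.H98 (transGL transGL_mulVec transMat gl_ext gl_mulVec_inv gl_inv_mulVec)

variable {F : Type*} [Field F]

/-- A non-zero subspace stable under `matD` and `matP` is everything. -/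
theorem eq_top_of_stable {ω : F} (hω : ω ^ 2 + ω + 1 = 0) (h3 : (3 : F) ≠ 0) (W : Submodule F (Fin 3 → F))
    (hD : ∀ x ∈ W, matD ω *ᵥ x ∈ W) (hP : ∀ x ∈ W, (matP : Matrix (Fin 3) (Fin 3) F) *ᵥ x ∈ W) (hW : W ≠ ⊥) :
    W = ⊤ := by
  obtain ⟨x, hx, hx0⟩ := Submodule.exists_mem_ne_zero_of_ne_bot hW
  have hP' : ∀ i : Fin 3, (Pi.single i 1 : Fin 3 → F) ∈ W → (Pi.single (i + 1) 1 : Fin 3 → F) ∈ W := by
    intro i hi
    convert hP _ hi using 1
    rw [matP]
    ext j
    fin_cases i <;> fin_cases j <;> simp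
  have hD' : ∀ i : Fin 3, x i • (Pi.single i 1 : Fin 3 → F) ∈ W := by
    have hd := hD _ hx
    have hdd := hD _ hd
    intro i
    have hDj : ∀ (y : Fin 3 → F) (j : Fin 3), (matD ω *ᵥ y) j = ω ^ (j : ℕ) * y j := fun y j => by
      fin_cases j <;> simp [matD, vecHead, vecTail]
    have key : (3 : F) • (x i • (Pi.single i 1 : Fin 3 → F)) = x + (ω ^ (2 * (i : ℕ))) • (matD ω *ᵥ x) +
        (ω ^ (i : ℕ)) • (matD ω *ᵥ (matD ω *ᵥ x)) := by
      have h1 : ω ^ 3 = 1 := by linear_combination (ω - 1) * hω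
      have h4 : ω ^ 4 = ω := by linear_combination ω * h1
      have h5 : ω ^ 5 = ω ^ 2 := by linear_combination ω ^ 2 * h1
      have h6 : ω ^ 6 = 1 := by linear_combination (ω ^ 3 + 1) * h1
      have hp2 : ω ^ 2 = -ω - 1 := by linear_combination hω
      ext j
      simp only [Pi.add_apply, Pi.smul_apply, smul_eq_mul, hDj]
      fin_cases i <;> fin_cases j <;> simp [← mul_assoc, ← pow_add, ← pow_succ, ← pow_succ', h1, h4, h5, h6] <;>
        first
          | ring1
          | linear_combination (-(x 0)) * hω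
          | linear_combination (-(x 1)) * hω
          | linear_combination (-(x 2)) * hω
          | linear_combination (-(2 : F) * x 1) * h1
          | linear_combination (-(x 1)) * h1
          | linear_combination (-(x 2)) * h1
          | linear_combination (-(2 : F) * x 2) * h1
          | linear_combination (-(x 1)) * hω - x 1 * h4
          | linear_combination (-(x 2)) * hω - x 2 * h4
          | linear_combination (-(x 1)) * hω - x 1 * h4 - x 1 * h5
          | linear_combination (-(x 2)) * hω - x 2 * h4 - x 2 * h5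
    have hmem : (3 : F) • (x i • (Pi.single i 1 : Fin 3 → F)) ∈ W := by
      rw [key]
      exact W.add_mem (W.add_mem hx (W.smul_mem _ hd)) (W.smul_mem _ hdd)
    exact (W.smul_mem_iff h3).1 hmem
  obtain ⟨i, hi⟩ := Function.ne_iff.1 hx0
  have h0 := (W.smul_mem_iff hi).1 (hD' i)
  have h1 := hP' i h0
  have h2 := hP' _ h1
  have hall : ∀ j : Fin 3, (Pi.single j 1 : Fin 3 → F) ∈ W := by
    intro j
    fin_cases i <;> fin_cases j <;> first | exact h0 | exact h1 | exact h2
  rw [eq_top_iff]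
  intro y _
  rw [pi_eq_sum_univ' y]
  exact W.sum_mem fun j _ => W.smul_mem _ (hall j)

/-- Elements of the prime field. -/
theorem exists_nat_cast {p : ℕ} [Fact p.Prime] [CharP F p] {x : F} (hx : x ^ p = x) : ∃ k : ℕ, (k : F) = x := by
  have h := (Subfield.mem_bot_iff_pow_eq_self F p).2 hx
  rw [← ZMod.fieldRange_castHom_eq_bot p] at h
  obtain ⟨z, rfl⟩ := RingHom.mem_fieldRange.1 h
  exact ⟨z.val, by rw [ZMod.castHom_apply, ZMod.cast_eq_val]⟩

variable {M : Subgroup (GL (Fin 3) F)}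

/-- The transvection of a functional and a vector lies in `M`. -/
def El (M : Subgroup (GL (Fin 3) F)) (φ : (Fin 3 → F) →ₗ[F] F) (a : Fin 3 → F) : Prop :=
  ∃ h : φ a = 0, transGL φ a h ∈ M

theorem El.zero_left (a : Fin 3 → F) : El M 0 a := by
  refine ⟨rfl, ?_⟩
  convert M.one_mem using 1
  exact gl_ext fun x => by simp

theorem El.zero_right (φ : (Fin 3 → F) →ₗ[F] F) : El M φ 0 := by
  refine ⟨map_zero φ, ?_⟩
  convert M.one_mem using 1
  exact gl_ext fun x => by simp

theorem El.add_left {φ ψ : (Fin 3 → F) →ₗ[F] F} {a : Fin 3 → F} (h : El M φ a) (h' : El M ψ a) :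
    El M (φ + ψ) a := by
  obtain ⟨h₁, m₁⟩ := h
  obtain ⟨h₂, m₂⟩ := h'
  refine ⟨by simp [h₁, h₂], ?_⟩
  convert M.mul_mem m₁ m₂ using 1
  refine gl_ext fun x => ?_
  rw [Units.val_mul, ← mulVec_mulVec, transGL_mulVec, transGL_mulVec, transGL_mulVec, LinearMap.add_apply,
    map_add, map_smul, h₁, smul_zero, add_zero]
  module

theorem El.neg_left {φ : (Fin 3 → F) →ₗ[F] F} {a : Fin 3 → F} (h : El M φ a) : El M (-φ) a := by
  obtain ⟨h₁, m₁⟩ := h
  refine ⟨by simp [h₁], ?_⟩
  convert M.inv_mem m₁ using 1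
  refine eq_inv_of_mul_eq_one_left (gl_ext fun x => ?_)
  rw [Units.val_mul, ← mulVec_mulVec, transGL_mulVec, transGL_mulVec, Units.val_one, one_mulVec,
    LinearMap.neg_apply, map_add, map_smul, h₁, smul_zero, add_zero]
  module

theorem El.nat_left {φ : (Fin 3 → F) →ₗ[F] F} {a : Fin 3 → F} (h : El M φ a) (k : ℕ) : El M ((k : F) • φ) a := by
  induction k with
  | zero => rw [Nat.cast_zero, zero_smul]; exact El.zero_left a
  | succ k ih => rw [Nat.cast_succ, add_smul, one_smul]; exact ih.add_left h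

theorem El.smul_right_of {φ : (Fin 3 → F) →ₗ[F] F} {a : Fin 3 → F} {c : F} (h : El M (c • φ) a) :
    El M φ (c • a) := by
  obtain ⟨h₁, m₁⟩ := h
  refine ⟨by simpa using h₁, ?_⟩
  convert m₁ using 1
  refine gl_ext fun x => ?_
  rw [transGL_mulVec, transGL_mulVec, LinearMap.smul_apply, smul_smul, smul_eq_mul, mul_comm]

theorem El.add_right {φ : (Fin 3 → F) →ₗ[F] F} {a b : Fin 3 → F} (h : El M φ a) (h' : El M φ b) :
    El M φ (a + b) := by
  obtain ⟨h₁, m₁⟩ := h
  obtain ⟨h₂, m₂⟩ := h'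
  refine ⟨by simp [h₁, h₂], ?_⟩
  convert M.mul_mem m₁ m₂ using 1
  refine gl_ext fun x => ?_
  rw [Units.val_mul, ← mulVec_mulVec, transGL_mulVec, transGL_mulVec, transGL_mulVec, map_add, map_smul, h₂,
    smul_zero, add_zero]
  module

theorem El.neg_right {φ : (Fin 3 → F) →ₗ[F] F} {a : Fin 3 → F} (h : El M φ a) : El M φ (-a) := by
  rw [show -a = (-1 : F) • a by rw [neg_smul, one_smul]]
  refine El.smul_right_of ?_
  convert h.neg_left using 1
  exact LinearMap.ext fun x => by simp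

theorem El.conj {φ : (Fin 3 → F) →ₗ[F] F} {a : Fin 3 → F} (h : El M φ a) {g : GL (Fin 3) F} (hg : g ∈ M) :
    El M (φ ∘ₗ Matrix.mulVecLin ((g⁻¹ : GL (Fin 3) F) : Matrix (Fin 3) (Fin 3) F))
      ((g : Matrix (Fin 3) (Fin 3) F) *ᵥ a) := by
  obtain ⟨h₁, m₁⟩ := h
  refine ⟨by simp [gl_inv_mulVec, h₁], ?_⟩
  convert M.mul_mem (M.mul_mem hg m₁) (M.inv_mem hg) using 1
  refine gl_ext fun x => ?_
  simp only [Units.val_mul, ← mulVec_mulVec, transGL_mulVec, LinearMap.comp_apply, Matrix.mulVecLin_apply,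
    mulVec_add, mulVec_smul, gl_mulVec_inv]

section Linear

variable {ω : F} (hω : ω ^ 2 + ω + 1 = 0) (h3 : (3 : F) ≠ 0) (hgen : HasStdGens ω M)
  (hnat : ∀ c : F, ∃ k : ℕ, (k : F) = c)

theorem El.smul_left' (hnat : ∀ c : F, ∃ k : ℕ, (k : F) = c) {φ : (Fin 3 → F) →ₗ[F] F} {a : Fin 3 → F}
    (h : El M φ a) (c : F) : El M (c • φ) a := by
  obtain ⟨k, rfl⟩ := hnat c
  exact h.nat_left k

theorem El.smul_right' (hnat : ∀ c : F, ∃ k : ℕ, (k : F) = c) {φ : (Fin 3 → F) →ₗ[F] F} {a : Fin 3 → F}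
    (h : El M φ a) (c : F) : El M φ (c • a) :=
  El.smul_right_of (h.smul_left' hnat c)

include hnat

/-- Conjugation of one transvection by another. -/
theorem El.conj_el {φ ψ : (Fin 3 → F) →ₗ[F] F} {a b : Fin 3 → F} (h : El M φ a) (h' : El M ψ b) :
    El M (ψ - ψ a • φ) (b + φ b • a) := by
  have h₁ := h.1
  obtain ⟨h₂, hm⟩ := h
  have hc := h'.conj hm
  rw [transGL_mulVec] at hc
  convert hc using 1
  refine LinearMap.ext fun x => ?_
  have e : ((transGL φ a h₁)⁻¹ : GL (Fin 3) F) = transGL (-φ) a (by simp [h₁]) :=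
    inv_eq_of_mul_eq_one_left (gl_ext fun y => by
      rw [Units.val_mul, ← mulVec_mulVec, transGL_mulVec, transGL_mulVec, Units.val_one, one_mulVec,
        LinearMap.neg_apply, map_add, map_smul, h₁, smul_zero, add_zero]
      module)
  rw [LinearMap.comp_apply, Matrix.mulVecLin_apply, e, transGL_mulVec]
  simp [mul_comm, sub_eq_add_neg]

omit hnat in
/-- A point through which every transvection is present. -/
def FullPt (M : Subgroup (GL (Fin 3) F)) (a : Fin 3 → F) : Prop :=
  ∀ η : (Fin 3 → F) →ₗ[F] F, η a = 0 → El M η a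

/-- A pair of transvections with exactly one incidence gives a full point. -/
theorem full_of_pair {φ ψ : (Fin 3 → F) →ₗ[F] F} {a b : Fin 3 → F} (h : El M φ a) (h' : El M ψ b)
    (ha : a ≠ 0) (hψ : ψ ≠ 0) (hb : φ b ≠ 0) (hψa : ψ a = 0) : FullPt M a := by
  have hψb := h'.1
  have hφa := h.1
  have hψA : El M ψ a := by
    have h1 := El.conj_el hnat h h'
    rw [hψa, zero_smul, sub_zero] at h1
    have h2 := (h1.add_right h'.neg_right).smul_right' hnat (φ b)⁻¹
    rwa [add_neg_cancel_comm, smul_smul, inv_mul_cancel₀ hb, one_smul] at h2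
  obtain ⟨x, hx⟩ : ∃ x, ψ x ≠ 0 := by
    by_contra hc
    push Not at hc
    exact hψ (LinearMap.ext hc)
  intro η hη
  set η' := η - (η b / φ b) • φ with hη'
  set e := η' x / ψ x with he
  have hli : LinearIndependent F ![a, b, x] := by
    rw [Fintype.linearIndependent_iff]
    intro g hg
    simp only [Fin.sum_univ_three, cons_val_zero, cons_val_one, cons_val] at hg
    have e2 : g 2 = 0 := by
      have := congrArg ψ hg
      simp [hψa, hψb, hx] at this
      exact this
    rw [e2, zero_smul, add_zero] at hg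
    have e1 : g 1 = 0 := by
      have := congrArg φ hg
      simp [hφa, hb] at this
      exact this
    rw [e1, zero_smul, add_zero, smul_eq_zero] at hg
    intro i
    fin_cases i
    exacts [hg.resolve_right ha, e1, e2]
  have : η = (η b / φ b) • φ + e • ψ := by
    refine (basisOfLinearIndependentOfCardEqFinrank hli (by simp)).ext fun i => ?_
    fin_cases i <;>
      simp [hη, hφa, hψa, hψb, he, hη', div_mul_cancel₀ _ hb, div_mul_cancel₀ _ hx]
  rw [this]
  exact (h.smul_left' hnat _).add_left (hψA.smul_left' hnat _)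

include hω h3 hgen

omit hnat in
theorem exists_pair_el {φ₀ : (Fin 3 → F) →ₗ[F] F} {a₀ : Fin 3 → F} (h₀ : El M φ₀ a₀) (ha₀ : a₀ ≠ 0)
    (hφ₀ : φ₀ ≠ 0) :
    Submodule.span F {a : Fin 3 → F | ∃ φ, φ ≠ 0 ∧ El M φ a} = ⊤ := by
  have hstab : ∀ (g : GL (Fin 3) F), g ∈ M → ∀ x ∈ Submodule.span F {a : Fin 3 → F | ∃ φ, φ ≠ 0 ∧ El M φ a},
      (g : Matrix (Fin 3) (Fin 3) F) *ᵥ x ∈ Submodule.span F {a : Fin 3 → F | ∃ φ, φ ≠ 0 ∧ El M φ a} := by
    intro g hg x hx
    induction hx using Submodule.span_induction with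
    | mem a ha =>
      obtain ⟨φ, hφ, hel⟩ := ha
      refine Submodule.subset_span ⟨_, fun h => hφ (LinearMap.ext fun y => ?_), hel.conj hg⟩
      have := LinearMap.congr_fun h ((g : Matrix (Fin 3) (Fin 3) F) *ᵥ y)
      rw [LinearMap.comp_apply, Matrix.mulVecLin_apply, gl_inv_mulVec] at this
      exact this
    | zero => rw [mulVec_zero]; exact Submodule.zero_mem _
    | add x y _ _ hx hy => rw [mulVec_add]; exact Submodule.add_mem _ hx hy
    | smul c x _ hx => rw [mulVec_smul]; exact Submodule.smul_mem _ c hx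
  obtain ⟨d, hd, hd'⟩ := hgen.hD
  obtain ⟨w, hw, hw'⟩ := hgen.hP
  refine eq_top_of_stable hω h3 _ (fun x hx => hd' ▸ hstab d hd x hx) (fun x hx => hw' ▸ hstab w hw x hx) ?_
  intro h
  exact ha₀ ((Submodule.eq_bot_iff _).1 h a₀ (Submodule.subset_span ⟨φ₀, hφ₀, h₀⟩))

theorem exists_full {φ₀ : (Fin 3 → F) →ₗ[F] F} {a₀ : Fin 3 → F} (h₀ : El M φ₀ a₀) (ha₀ : a₀ ≠ 0) (hφ₀ : φ₀ ≠ 0) :
    ∃ a, a ≠ 0 ∧ FullPt M a := by
  have hspan := exists_pair_el hω h3 hgen h₀ ha₀ hφ₀
  have hout : ∀ W : Submodule F (Fin 3 → F), W ≠ ⊤ → ∃ a φ, a ∉ W ∧ φ ≠ 0 ∧ El M φ a := by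
    intro W hW
    by_contra hc
    push Not at hc
    refine hW (eq_top_iff.2 (hspan ▸ Submodule.span_le.2 fun a ha => ?_))
    obtain ⟨φ, hφ, hel⟩ := ha
    by_contra haW
    exact hc a φ haW hφ hel
  obtain ⟨b, ψ, hb, hψ, hB⟩ := hout (LinearMap.ker φ₀) (fun h => hφ₀ (LinearMap.ker_eq_top.1 h))
  rw [LinearMap.mem_ker] at hb
  by_cases hψa : ψ a₀ = 0
  · exact ⟨a₀, ha₀, full_of_pair hnat h₀ hB ha₀ hψ hb hψa⟩
  -- the line of the two centres
  have hb0 : b ≠ 0 := fun h => hb (by rw [h, map_zero])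
  obtain ⟨e, χ, he, hχ, hE⟩ := hout (Submodule.span F {a₀, b}) (fun h => by
    classical
    have := finrank_span_finset_le_card (R := F) ({a₀, b} : Finset (Fin 3 → F))
    rw [Finset.coe_pair, Set.finrank, h, finrank_top, Module.finrank_fin_fun] at this
    have := Finset.card_le_two (a := a₀) (b := b)
    omega)
  have he0 : e ≠ 0 := fun h => he (h ▸ Submodule.zero_mem _)
  suffices key : ∀ (φ ψ : (Fin 3 → F) →ₗ[F] F) (a b : Fin 3 → F), El M φ a → El M ψ b → φ ≠ 0 → φ b ≠ 0 →
      ψ a ≠ 0 → χ a = 0 → e ∉ Submodule.span F {a, b} → ∃ a, a ≠ 0 ∧ FullPt M a by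
    by_cases hχa : χ a₀ = 0
    · exact key φ₀ ψ a₀ b h₀ hB hφ₀ hb hψa hχa he
    by_cases hχb : χ b = 0
    · refine key ψ φ₀ b a₀ hB h₀ hψ hψa hb hχb ?_
      rwa [Set.pair_comm]
    set c := -(χ b) / (φ₀ b * χ a₀) with hc
    have h' := El.conj_el hnat (h₀.smul_left' hnat c) hB
    rw [LinearMap.smul_apply, smul_eq_mul] at h'
    refine key (ψ - ψ a₀ • (c • φ₀)) φ₀ (b + (c * φ₀ b) • a₀) a₀ h' h₀ (fun h => ?_) ?_ ?_ ?_ ?_
    · have := LinearMap.congr_fun h a₀
      simp [h₀.1] at this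
      exact hψa this
    · simpa [h₀.1] using hψa
    · simpa [h₀.1] using hb
    · rw [map_add, map_smul, smul_eq_mul, hc]
      field_simp
      ring
    · refine fun h => he (?_ : e ∈ Submodule.span F {a₀, b})
      refine Submodule.span_le.2 ?_ h
      rintro y (rfl | rfl)
      · exact Submodule.add_mem _ (Submodule.subset_span (Or.inr rfl))
          (Submodule.smul_mem _ _ (Submodule.subset_span (Or.inl rfl)))
      · exact Submodule.subset_span (Or.inl rfl)
  intro φ ψ a b hA hB hφ hb hψa hχa he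
  have ha : a ≠ 0 := fun h => hψa (by rw [h, map_zero])
  by_cases hφe : φ e = 0
  · -- two centres on one axis
    have hli : LinearIndependent F ![a, b, e] := by
      rw [Fintype.linearIndependent_iff]
      intro g hg
      simp only [Fin.sum_univ_three, cons_val_zero, cons_val_one, cons_val] at hg
      have e1 : g 1 = 0 := by
        have := congrArg φ hg
        simp [hA.1, hφe, hb] at this
        exact this
      rw [e1, zero_smul, add_zero] at hg
      have e2 : g 2 = 0 := by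
        by_contra h2
        refine he ?_
        have h4 : e = (-(g 2)⁻¹ * g 0) • a := by
          rw [eq_neg_of_add_eq_zero_left hg |> fun h => (mul_smul (-(g 2)⁻¹) (g 0) a).trans (by rw [h]),
            smul_neg, neg_smul, neg_neg, smul_smul, inv_mul_cancel₀ h2, one_smul]
        rw [h4]
        exact Submodule.smul_mem _ _ (Submodule.subset_span (Or.inl rfl))
      rw [e2, zero_smul, add_zero, smul_eq_zero] at hg
      intro i
      fin_cases i
      exacts [hg.resolve_right ha, e1, e2]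
    have hχeq : χ = (χ b / φ b) • φ := by
      refine (basisOfLinearIndependentOfCardEqFinrank hli (by simp)).ext fun i => ?_
      fin_cases i <;> simp [hA.1, hχa, hφe, hE.1, div_mul_cancel₀ _ hb]
    have hχb : χ b / φ b ≠ 0 := fun h => hχ (by rw [hχeq, h, zero_smul])
    have hφE : El M φ e := by
      have := hE.smul_left' hnat (χ b / φ b)⁻¹
      set c := χ b / φ b with hcdef
      rw [hχeq, smul_smul, inv_mul_cancel₀ hχb, one_smul] at this
      exact this
    set x := ψ e • a - ψ a • e with hx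
    have hx0 : x ≠ 0 := fun h => by
      have := congrArg (fun y => (basisOfLinearIndependentOfCardEqFinrank hli (by simp)).repr y 2) h
      have h2 := Fintype.linearIndependent_iff.1 hli ![ψ e, 0, -ψ a] (by
        rw [hx] at h
        simp [Fin.sum_univ_three, ← h, sub_eq_add_neg]) 2
      simp at h2
      exact hψa h2
    refine ⟨x, hx0, full_of_pair hnat ?_ hB hx0 (fun h => hψa (by rw [h, LinearMap.zero_apply])) hb ?_⟩
    · rw [hx, sub_eq_add_neg]
      exact (hA.smul_right' hnat _).add_right (hφE.smul_right' hnat _).neg_right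
    · simp [hx, mul_comm]
  · exact ⟨a, ha, full_of_pair hnat hA hE ha hχ hφe hχa⟩

/-- The group contains every transvection. -/
theorem all_el {φ₀ : (Fin 3 → F) →ₗ[F] F} {a₀ : Fin 3 → F} (h₀ : El M φ₀ a₀) (ha₀ : a₀ ≠ 0) (hφ₀ : φ₀ ≠ 0)
    (φ : (Fin 3 → F) →ₗ[F] F) (a : Fin 3 → F) (h : φ a = 0) : El M φ a := by
  have hsmul : ∀ (c : F) (x : Fin 3 → F), FullPt M x → FullPt M (c • x) := fun c x hx η hη => by
    rcases eq_or_ne c 0 with rfl | hc
    · rw [zero_smul]; exact El.zero_right η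
    · exact (hx η (by simpa [hc] using hη)).smul_right' hnat c
  have hconj : ∀ g ∈ M, ∀ x, FullPt M x → FullPt M ((g : Matrix (Fin 3) (Fin 3) F) *ᵥ x) := by
    intro g hg x hx η hη
    have := (hx (η ∘ₗ Matrix.mulVecLin (g : Matrix (Fin 3) (Fin 3) F)) hη).conj hg
    convert this using 1
    refine LinearMap.ext fun y => ?_
    simp [gl_mulVec_inv]
  let W : Submodule F (Fin 3 → F) :=
    { carrier := {x | FullPt M x}
      zero_mem' := fun η _ => El.zero_right η
      add_mem' := by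
        intro x y hx hy
        by_cases hxy : x ∈ Submodule.span F {y}
        · obtain ⟨c, rfl⟩ := Submodule.mem_span_singleton.1 hxy
          have := hsmul (c + 1) y hy
          rwa [add_smul, one_smul] at this
        obtain ⟨θ, hθx, hθ⟩ := Submodule.exists_dual_map_eq_bot_of_notMem hxy inferInstance
        have hθy : θ y = 0 := by
          have : θ y ∈ (Submodule.span F {y}).map θ :=
            Submodule.mem_map_of_mem (Submodule.mem_span_singleton_self y)
          rwa [hθ, Submodule.mem_bot] at this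
        obtain ⟨hθ', hm⟩ := hy ((θ x)⁻¹ • θ) (by simp [hθy])
        have := hconj _ hm x hx
        rwa [transGL_mulVec, LinearMap.smul_apply, smul_eq_mul, inv_mul_cancel₀ hθx, one_smul] at this
      smul_mem' := hsmul }
  have hW : W = ⊤ := by
    obtain ⟨d, hd, hd'⟩ := hgen.hD
    obtain ⟨w, hw, hw'⟩ := hgen.hP
    refine eq_top_of_stable hω h3 W (fun x hx => hd' ▸ hconj d hd x hx) (fun x hx => hw' ▸ hconj w hw x hx) ?_
    obtain ⟨a, ha, hfull⟩ := exists_full hω h3 hgen hnat h₀ ha₀ hφ₀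
    exact fun h => ha ((Submodule.eq_bot_iff W).1 h a hfull)
  have : a ∈ W := hW ▸ Submodule.mem_top
  exact this φ h

end Linear

theorem three_ne_zero_of_char {p : ℕ} (hp : p.Prime) [CharP F p] (hp5 : 5 ≤ p) : (3 : F) ≠ 0 := by
  intro h
  have := (CharP.cast_eq_zero_iff F p 3).1 (by exact_mod_cast h)
  have := Nat.le_of_dvd (by norm_num) this
  omega

/-- The functional and the centre of a transvection. -/
theorem IsTransv.el {t : GL (Fin 3) F} (ht : IsTransv t) :
    ∃ φ : (Fin 3 → F) →ₗ[F] F, ∃ a, ∃ h : φ a = 0, φ ≠ 0 ∧ a ≠ 0 ∧ t = transGL φ a h := by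
  obtain ⟨ht1, v, φ, hφv, htv⟩ := ht
  let φ' : (Fin 3 → F) →ₗ[F] F :=
    { toFun := fun x => φ ⬝ᵥ x
      map_add' := fun x y => dotProduct_add _ _ _
      map_smul' := fun c x => dotProduct_smul _ _ _ }
  have e : t = transGL φ' v hφv := by
    refine Units.ext ?_
    change (t : Matrix (Fin 3) (Fin 3) F) = transMat φ' v
    rw [htv, transMat]
    congr 2
    funext i
    simp [φ']
  refine ⟨φ', v, hφv, fun h => ht1 ?_, fun h => ht1 ?_, e⟩
  · rw [e]; exact gl_ext fun x => by simp [h]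
  · rw [e]; exact gl_ext fun x => by simp [h]

/-- Transvection case in `SL₃ p`. -/
theorem big_sl {F : Type*} [Field F] [Fintype F] {p : ℕ} (hp : p.Prime) (hF : Fintype.card F = p) (hp5 : 5 ≤ p)
    {ω : F} (hω : ω ^ 2 + ω + 1 = 0) {M : Subgroup (GL (Fin 3) F)}
    (hM : M ≤ Cfsg.Geo.specialLinear (Fin 3) F) (hgen : HasStdGens ω M) (t : GL (Fin 3) F) (htM : t ∈ M)
    (ht : IsTransv t) : M = Cfsg.Geo.specialLinear (Fin 3) F := by
  have : Fact p.Prime := ⟨hp⟩
  have : CharP F p := charP_of_card_eq_prime hF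
  have hnat : ∀ c : F, ∃ k : ℕ, (k : F) = c := fun c =>
    exists_nat_cast (p := p) (by rw [← hF]; exact FiniteField.pow_card c)
  obtain ⟨φ₀, a₀, h₀, hφ₀, ha₀, rfl⟩ := ht.el
  refine le_antisymm hM (H98.sl_le_of_transvections M fun φ a h => ?_)
  exact (all_el hω (three_ne_zero_of_char hp hp5) hgen hnat ⟨h₀, htM⟩ ha₀ hφ₀ φ a h).2

section Unitary

open Cfsg.Agent.H98.Herm

/-- Transvection case in `SU₃ p`. -/
theorem big_su {F : Type*} [Field F] [Fintype F] {p : ℕ} (hp : p.Prime) (hF : Fintype.card F = p ^ 2)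
    (hp11 : 11 ≤ p) {ω : F} (hω : ω ^ 2 + ω + 1 = 0) {M : Subgroup (GL (Fin 3) F)}
    (hM : M ≤ Cfsg.GU 3 F p ⊓ Cfsg.Geo.specialLinear (Fin 3) F) (hgen : HasStdGens ω M) (t : GL (Fin 3) F)
    (htM : t ∈ M) (ht : IsTransv t) : M = Cfsg.GU 3 F p ⊓ Cfsg.Geo.specialLinear (Fin 3) F := by
  have : Fact p.Prime := ⟨hp⟩
  have : CharP F p := charP_of_card_eq_prime_pow (f := 2) hF
  have h3 : (3 : F) ≠ 0 := three_ne_zero_of_char hp (by omega)
  have hmap : (MulAut.conj (1 : GL (Fin 3) F)).toMonoidHom = MonoidHom.id _ := MonoidHom.ext fun g => by simp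
  have hAmb : isoSL (pullForm 3 p (1 : GL (Fin 3) F)) = Cfsg.GU 3 F p ⊓ Cfsg.Geo.specialLinear (Fin 3) F := by
    have := map_isoSL_pull (n := 3) (q := p) (1 : GL (Fin 3) F)
    rwa [hmap, Subgroup.map_id] at this
  rw [← hAmb] at hM ⊢
  set hf := isUnitary_pull hF (1 : GL (Fin 3) F) with hfdef
  set f := pullForm 3 p (1 : GL (Fin 3) F) with hf'
  have hiso : ∀ g ∈ M, ∀ x y, f ((g : Matrix (Fin 3) (Fin 3) F) *ᵥ x) ((g : Matrix (Fin 3) (Fin 3) F) *ᵥ y) = f x y :=
    fun g hg => (mem_isoSL.mp (hM hg)).1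
  obtain ⟨φ, a, h, hφ, ha, rfl⟩ := ht.el
  -- the centre is isotropic
  have hker : ∀ y, φ y = 0 → f a y = 0 := by
    intro y hy
    obtain ⟨x, hx⟩ : ∃ x, φ x ≠ 0 := by
      by_contra hc
      push Not at hc
      exact hφ (LinearMap.ext hc)
    have e := hiso _ htM x y
    rw [transGL_mulVec, transGL_mulVec, hy, zero_smul, add_zero, hf.add_left, hf.smul_left, add_eq_left,
      mul_eq_zero] at e
    exact e.resolve_left hx
  have haa : f a a = 0 := hker a h
  obtain ⟨x₀, hx₀⟩ : ∃ x, φ x ≠ 0 := by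
    by_contra hc
    push Not at hc
    exact hφ (LinearMap.ext hc)
  have hprop : ∀ x, φ x₀ * f x a = φ x * f x₀ a := by
    intro x
    have e := (eq_zero_comm hf).1 (hker (φ x₀ • x - φ x • x₀) (by simp [mul_comm]))
    rw [sub_left hf, hf.smul_left, hf.smul_left, sub_eq_zero] at e
    exact e
  have hfx : f x₀ a ≠ 0 := fun h0 => by
    obtain ⟨z, hz⟩ := (hf.nondegenerate a ha).1
    have := hprop z
    rw [h0, mul_zero, mul_eq_zero] at this
    exact hz (this.resolve_left hx₀)
  set d := φ x₀ / f x₀ a with hd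
  have hφd : φ = d • fl hf a := LinearMap.ext fun x => by
    rw [LinearMap.smul_apply, fl_apply, smul_eq_mul, hd, div_mul_eq_mul_div, hprop x, mul_div_assoc,
      div_self hfx, mul_one]
  have hd0 : d ≠ 0 := div_ne_zero hx₀ hfx
  clear_value d
  subst hφd
  have hskew : frobQ hF d = -d := by
    have e := hiso _ htM x₀ x₀
    have hax : f a x₀ ≠ 0 := fun h0 => hfx ((eq_zero_comm hf).1 h0)
    simp only [transGL_mulVec, LinearMap.smul_apply, fl_apply, smul_eq_mul, hf.add_left, add_right hf,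
      hf.smul_left, smul_right hf, haa, map_mul, sigma_apply hf, mul_zero, add_zero] at e
    have : (frobQ hF d + d) * (f x₀ a * f a x₀) = 0 := by linear_combination e
    exact eq_neg_of_add_eq_zero_left ((mul_eq_zero.1 this).resolve_right (mul_ne_zero hfx hax))
  have hcen : a ∈ centres hf M := by
    refine ⟨haa, fun d' hd' => ?_⟩
    have hr : (d' / d) ^ p = d' / d := by
      rw [← frobQ_apply hF, map_div₀, hd', hskew, neg_div_neg_eq]
    obtain ⟨k, hk⟩ := exists_nat_cast (p := p) hr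
    have := El.nat_left ⟨h, htM⟩ k
    obtain ⟨h', hm⟩ := this
    convert hm using 1
    refine gl_ext fun x => ?_
    rw [uT_mulVec, transGL_mulVec, hk, LinearMap.smul_apply, LinearMap.smul_apply, fl_apply, smul_eq_mul,
      smul_eq_mul, ← mul_assoc, div_mul_cancel₀ _ hd0]
  -- three centres
  have hspan : Submodule.span F (centres hf M) = ⊤ := by
    have hstab : ∀ g ∈ M, ∀ x ∈ Submodule.span F (centres hf M),
        (g : Matrix (Fin 3) (Fin 3) F) *ᵥ x ∈ Submodule.span F (centres hf M) := by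
      intro g hg x hx
      induction hx using Submodule.span_induction with
      | mem x hx => exact Submodule.subset_span (centres_conj hf hiso hg hx)
      | zero => rw [mulVec_zero]; exact Submodule.zero_mem _
      | add x y _ _ hx hy => rw [mulVec_add]; exact Submodule.add_mem _ hx hy
      | smul c x _ hx => rw [mulVec_smul]; exact Submodule.smul_mem _ c hx
    obtain ⟨g₁, hg₁, hg₁'⟩ := hgen.hD
    obtain ⟨g₂, hg₂, hg₂'⟩ := hgen.hP
    refine eq_top_of_stable hω h3 _ (fun x hx => hg₁' ▸ hstab g₁ hg₁ x hx) (fun x hx => hg₂' ▸ hstab g₂ hg₂ x hx) ?_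
    exact fun h0 => ha ((Submodule.eq_bot_iff _).1 h0 a (Submodule.subset_span hcen))
  have hout : ∀ W : Submodule F (Fin 3 → F), W ≠ ⊤ → ∃ w ∈ centres hf M, w ∉ W := by
    intro W hW
    by_contra hc
    push Not at hc
    exact hW (eq_top_iff.2 (hspan ▸ Submodule.span_le.2 hc))
  obtain ⟨v, hv, hva⟩ := hout (Submodule.span F {a}) (fun h0 => by
    have := finrank_span_singleton (K := F) ha
    rw [h0, finrank_top, Module.finrank_fin_fun] at this
    omega)
  have hav : f a v ≠ 0 := by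
    intro h0
    have hW : ∀ x ∈ Submodule.span F {a, v}, ∀ y ∈ Submodule.span F {a, v}, f x y = 0 := by
      intro x hx y hy
      obtain ⟨k, l, rfl⟩ := Submodule.mem_span_pair.1 hx
      obtain ⟨k', l', rfl⟩ := Submodule.mem_span_pair.1 hy
      simp [hf.add_left, add_right hf, hf.smul_left, smul_right hf, haa, hv.1, h0, (eq_zero_comm hf).1 h0]
    have := ti_bound hf _ hW
    have hli : LinearIndependent F ![a, v] := by
      rw [LinearIndependent.pair_iff' ha]
      exact fun c hc => hva (Submodule.mem_span_singleton.2 ⟨c, hc⟩)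
    have h2 := finrank_span_eq_card hli
    rw [range_cons, range_cons, range_empty, Set.union_empty, ← Set.insert_eq, Fintype.card_fin] at h2
    rw [Fintype.card_fin] at this
    omega
  obtain ⟨w, hw, hwW⟩ := hout (Submodule.span F {a, v}) (fun h0 => by
    classical
    have := finrank_span_finset_le_card (R := F) ({a, v} : Finset (Fin 3 → F))
    rw [Finset.coe_pair, Set.finrank, h0, finrank_top, Module.finrank_fin_fun] at this
    have := Finset.card_le_two (a := a) (b := v)
    omega)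
  exact H1.SUThree.top_of_three hF (by omega) 1 hM hcen hv hw hav fun k l hkl =>
    hwW (hkl ▸ Submodule.mem_span_pair.2 ⟨k, l, rfl⟩)

end Unitary

end Cfsg.Agent.H48.C6Three
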