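import Mathlib
import Cfsg.Prelude.Def_GeometricClasses

/-!
An absolutely irreducible `3`-group of exponent `3` with centre of order `3` in `GL₃` has order `27`.
-/

set_option autoImplicit false

namespace Cfsg.Agent.H48.C6Three

open Matrix

variable {F : Type*} [Field F]

local notation "M3" => Matrix (Fin 3) (Fin 3) F
local notation "G3" => GL (Fin 3) F

/-- A matrix of order three quasi-commuting with another one by a primitive cube root of unity has
three independent eigenvectors with different eigenvalues. -/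
theorem exists_eigenbasis_of_quasicomm {X Y : M3} {a : F} (hX : X ^ 3 = 1) (hY : Y ^ 3 = 1)
    (ha : a ^ 2 + a + 1 = 0) (h3 : (3 : F) ≠ 0) (hXY : X * Y = a • (Y * X)) :
    ∃ (b : Module.Basis (Fin 3) F (Fin 3 → F)) (e : Fin 3 → F), Function.Injective e ∧
      ∀ i, X *ᵥ b i = e i • b i := by
  have ha3 : a ^ 3 = 1 := by linear_combination (a - 1) * ha
  have ha1 : a ≠ 1 := by rintro rfl; exact h3 (by linear_combination ha)
  have hX3 : ∀ w : Fin 3 → F, X *ᵥ (X *ᵥ (X *ᵥ w)) = w := fun w => by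
    rw [mulVec_mulVec, mulVec_mulVec, ← pow_two, ← pow_succ, hX, one_mulVec]
  have hY3 : ∀ w : Fin 3 → F, Y *ᵥ (Y *ᵥ (Y *ᵥ w)) = w := fun w => by
    rw [mulVec_mulVec, mulVec_mulVec, ← pow_two, ← pow_succ, hY, one_mulVec]
  obtain ⟨c, v, hv0, hc0, hv⟩ : ∃ (c : F) (v : Fin 3 → F), v ≠ 0 ∧ c ≠ 0 ∧ X *ᵥ v = c • v := by
    let E : F → (Fin 3 → F) → (Fin 3 → F) := fun c w =>
      w + c • (X *ᵥ w) + (c ^ 2) • (X *ᵥ (X *ᵥ w))
    have hE : ∀ (c : F) (w : Fin 3 → F), c ^ 3 = 1 → X *ᵥ E c w = c ^ 2 • E c w := fun c w hc' => by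
      simp only [E, mulVec_add, mulVec_smul, hX3, smul_add, smul_smul]
      rw [show c ^ 2 * c = 1 by linear_combination hc',
        show c ^ 2 * c ^ 2 = c by linear_combination c * hc', one_smul]
      abel
    by_contra hno
    push_neg at hno
    have key : ∀ (c : F) (w : Fin 3 → F), c ^ 3 = 1 → E c w = 0 := fun c w hc => by
      by_contra h
      exact hno (c ^ 2) _ h (pow_ne_zero 2 fun h0 => by rw [h0] at hc; simp at hc) (hE c w hc)
    let w : Fin 3 → F := Pi.single 0 1
    have hsum : E 1 w + E a w + E (a ^ 2) w = (3 : F) • w + (1 + a + a ^ 2) • (X *ᵥ w) +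
        (1 + a ^ 2 + a ^ 4) • (X *ᵥ (X *ᵥ w)) := by
      simp only [E]; module
    rw [key 1 w (one_pow 3), key a w ha3, key (a ^ 2) w (by rw [← pow_mul, pow_mul', ha3, one_pow]),
      show (1 + a + a ^ 2 : F) = 0 by linear_combination ha,
      show (1 + a ^ 2 + a ^ 4 : F) = 0 by linear_combination (a ^ 2 - a + 1) * ha] at hsum
    have := congrFun hsum.symm 0
    simp [w] at this
    exact h3 this
  have hmove : ∀ (u : Fin 3 → F) (d : F), X *ᵥ u = d • u → X *ᵥ (Y *ᵥ u) = (a * d) • (Y *ᵥ u) :=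
    fun u d hu => by
      rw [mulVec_mulVec, hXY, smul_mulVec, ← mulVec_mulVec, hu, mulVec_smul, smul_smul]
  have hYne : ∀ u : Fin 3 → F, u ≠ 0 → Y *ᵥ u ≠ 0 := fun u hu h => hu (by
    rw [← hY3 u, h, mulVec_zero, mulVec_zero])
  let e : Fin 3 → F := ![c, a * c, a * (a * c)]
  let f : Fin 3 → (Fin 3 → F) := ![v, Y *ᵥ v, Y *ᵥ (Y *ᵥ v)]
  have hev : ∀ i, X *ᵥ f i = e i • f i := by
    intro i
    fin_cases i
    · exact hv
    · exact hmove _ _ hv
    · exact hmove _ _ (hmove _ _ hv)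
  have ha0 : a ≠ 0 := by rintro rfl; simp at ha
  have he : Function.Injective e := by
    intro i j hij
    have key : ∀ t : F, t ≠ 1 → t * c ≠ c := fun t ht h => ht (mul_eq_right₀ hc0 |>.1 h)
    have haa : a * a ≠ 1 := fun h => ha1 (by linear_combination ha3 - a * h)
    fin_cases i <;> fin_cases j <;> simp [e] at hij ⊢
    · exact key a ha1 hij.symm
    · exact key (a * a) haa (by rw [mul_assoc]; exact hij.symm)
    · exact key a ha1 hij
    · exact key a ha1 (hij.resolve_right ha0).symm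
    · exact key (a * a) haa (by rw [mul_assoc]; exact hij)
    · exact key a ha1 (hij.resolve_right ha0)
  have hli : LinearIndependent F f := by
    refine Module.End.eigenvectors_linearIndependent' (Matrix.mulVecLin X) e he f fun i => ?_
    refine Module.End.hasEigenvector_iff.2 ⟨Module.End.mem_eigenspace_iff.2 (hev i), ?_⟩
    fin_cases i
    · exact hv0
    · exact hYne _ hv0
    · exact hYne _ (hYne _ hv0)
  refine ⟨basisOfLinearIndependentOfCardEqFinrank hli (by simp), e, he, fun i => ?_⟩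
  rw [coe_basisOfLinearIndependentOfCardEqFinrank]
  exact hev i

/-- A group of exponent three commuting with a matrix with three different eigenvalues has order at
most `27`. -/
theorem card_le_of_commute_eigenbasis (C : Subgroup G3) (hexp : ∀ g ∈ C, g ^ 3 = 1) {a : F}
    (ha : a ^ 2 + a + 1 = 0) {X : M3} (b : Module.Basis (Fin 3) F (Fin 3 → F)) {e : Fin 3 → F}
    (he : Function.Injective e) (hb : ∀ i, X *ᵥ b i = e i • b i)
    (hcomm : ∀ g ∈ C, (g : M3) * X = X * (g : M3)) : Nat.card ↥C ≤ 27 := by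
  classical
  have hdiag : ∀ g ∈ C, ∀ i, ∃ c : Fin 3, (g : M3) *ᵥ b i = a ^ (c : ℕ) • b i := by
    intro g hg i
    set r := b.repr ((g : M3) *ᵥ b i) with hr
    have hsum : (g : M3) *ᵥ b i = ∑ j, r j • b j := (b.sum_repr _).symm
    have hzero : ∀ j, j ≠ i → r j = 0 := by
      intro j hj
      have h1 : X *ᵥ ((g : M3) *ᵥ b i) = e i • ((g : M3) *ᵥ b i) := by
        rw [mulVec_mulVec, ← hcomm g hg, ← mulVec_mulVec, hb, mulVec_smul]
      rw [hsum, mulVec_sum, Finset.smul_sum] at h1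
      simp only [mulVec_smul, hb, smul_smul] at h1
      have h2 := congrArg (fun w => b.repr w j) h1
      simp [Finsupp.single_apply] at h2
      by_contra hr0
      exact hj (he (mul_left_cancel₀ hr0 (h2.trans (mul_comm _ _))))
    have hgi : (g : M3) *ᵥ b i = r i • b i := by
      rw [hsum]
      exact Fintype.sum_eq_single i fun j hj => by rw [hzero j hj, zero_smul]
    have hcube : r i ^ 3 = 1 := by
      have h1 : ((g : M3) ^ 3) *ᵥ b i = r i ^ 3 • b i := by
        simp only [pow_succ, pow_zero, one_mul, ← mulVec_mulVec, hgi, mulVec_smul, smul_smul,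
          mul_assoc]
      rw [← Units.val_pow_eq_pow_val, hexp g hg, Units.val_one, one_mulVec] at h1
      have h2 := congrArg (fun w => b.repr w i) h1.symm
      simpa using h2
    have hroot : (r i - 1) * ((r i - a) * (r i - a ^ 2)) = 0 := by
      linear_combination hcube + (r i - r i ^ 2) * ha + (r i - 1) * (a - 1) * ha
    rcases mul_eq_zero.1 hroot with h | h
    · exact ⟨0, by rw [hgi, sub_eq_zero.1 h]; simp⟩
    rcases mul_eq_zero.1 h with h | h
    · exact ⟨1, by rw [hgi, sub_eq_zero.1 h]; simp⟩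
    · exact ⟨2, by rw [hgi, sub_eq_zero.1 h]; simp⟩
  choose c hc using hdiag
  let f : ↥C → (Fin 3 → Fin 3) := fun g i => c g.1 g.2 i
  have hf : Function.Injective f := by
    intro g g' h
    apply Subtype.ext
    apply Units.ext
    apply Matrix.ext_of_mulVec_single
    intro j
    have hlin : Matrix.mulVecLin ((g : G3) : M3) = Matrix.mulVecLin ((g' : G3) : M3) := by
      refine b.ext fun i => ?_
      simp only [Matrix.mulVecLin_apply, hc g.1 g.2 i, hc g'.1 g'.2 i]
      rw [show c g.1 g.2 i = c g'.1 g'.2 i from congrFun h i]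
    exact LinearMap.congr_fun hlin (Pi.single j 1)
  exact (Nat.card_le_card_of_injective f hf).trans (by simp [Nat.card_eq_fintype_card])

/-- The order of the group. -/
theorem card_eq_twenty_seven [Finite F] (R : Subgroup G3) (hexp : ∀ r ∈ R, r ^ 3 = 1)
    (hc : Nat.card (Subgroup.center R) = 3) (m : ℕ) (hm : 1 ≤ m)
    (hcard : Nat.card R = 3 ^ (1 + 2 * m))
    (hirr : Cfsg.Geo.ActsAbsolutelyIrreducibly (Cfsg.Geo.matrixSet R)) (h3 : (3 : F) ≠ 0) :
    Nat.card R = 27 := by
  classical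
  haveI : Fact (Nat.Prime 3) := ⟨Nat.prime_three⟩
  set Z := Subgroup.center ↥R with hZ
  have scal : ∀ z ∈ Z, ∃ a : F, ((z : G3) : M3) = a • 1 := fun z hz =>
    hirr.2 _ (by
      rintro _ ⟨r, hr, rfl⟩
      have := congrArg (fun t : R => ((t : G3) : M3)) (Subgroup.mem_center_iff.1 hz ⟨r, hr⟩)
      simpa using this.symm)
  have hp : IsPGroup 3 ↥R := IsPGroup.of_card hcard
  have hq : Nontrivial (↥R ⧸ Z) := by
    rw [← Finite.one_lt_card_iff_nontrivial]
    have h := Z.card_eq_card_quotient_mul_card_subgroup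
    rw [hcard, hc] at h
    have : 3 ^ 3 ≤ 3 ^ (1 + 2 * m) := Nat.pow_le_pow_right (by norm_num) (by omega)
    omega
  haveI := (hp.to_quotient Z).center_nontrivial
  obtain ⟨⟨q, hqc⟩, hq1⟩ := exists_ne (1 : Subgroup.center (↥R ⧸ Z))
  obtain ⟨r, rfl⟩ := QuotientGroup.mk_surjective q
  have hrZ : r ∉ Z := fun h => hq1 (Subtype.ext ((QuotientGroup.eq_one_iff r).2 h))
  have hcom : ∀ g : ↥R, g * r * g⁻¹ * r⁻¹ ∈ Z := fun g => by
    rw [← QuotientGroup.eq_one_iff, QuotientGroup.mk_mul, QuotientGroup.mk_mul, QuotientGroup.mk_mul,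
      QuotientGroup.mk_inv, QuotientGroup.mk_inv, Subgroup.mem_center_iff.1 hqc, mul_inv_cancel_right,
      mul_inv_cancel]
  let φ : ↥R →* ↥Z := MonoidHom.mk' (fun g => ⟨g * r * g⁻¹ * r⁻¹, hcom g⟩) fun g h => by
    apply Subtype.ext
    have hz := Subgroup.mem_center_iff.1 (hcom h) g
    calc g * h * r * (g * h)⁻¹ * r⁻¹
        = g * (h * r * h⁻¹ * r⁻¹) * r * g⁻¹ * r⁻¹ := by simp [mul_assoc]
      _ = (h * r * h⁻¹ * r⁻¹) * (g * r * g⁻¹ * r⁻¹) := by rw [hz]; simp [mul_assoc]
      _ = (g * r * g⁻¹ * r⁻¹) * (h * r * h⁻¹ * r⁻¹) :=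
          (Subgroup.mem_center_iff.1 (hcom h) _).symm
  obtain ⟨s, hs⟩ : ∃ s : ↥R, s * r ≠ r * s := by
    by_contra! h
    exact hrZ (Subgroup.mem_center_iff.2 h)
  obtain ⟨a, ha⟩ := scal _ (hcom s)
  have hrel : ((s : G3) : M3) * ((r : G3) : M3) = a • (((r : G3) : M3) * ((s : G3) : M3)) := by
    have h1 : s * r = s * r * s⁻¹ * r⁻¹ * (r * s) := by simp [mul_assoc]
    have h2 := congrArg (fun t : R => ((t : G3) : M3)) h1
    simp only [Subgroup.coe_mul, Units.val_mul] at h2 ha
    rw [h2, ha, smul_mul_assoc, one_mul]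
  have ha3 : a ^ 3 = 1 := by
    have h1 := congrArg (fun t : G3 => (t : M3)) (hexp _ (s * r * s⁻¹ * r⁻¹ : R).2)
    simp only [Units.val_pow_eq_pow_val, Units.val_one, ha, smul_pow, one_pow] at h1
    simpa using congrFun (congrFun h1 0) 0
  have ha1 : a ≠ 1 := by
    rintro rfl
    rw [one_smul] at hrel
    exact hs (Subtype.ext (Units.ext (by simpa using hrel)))
  have haω : a ^ 2 + a + 1 = 0 :=
    (mul_eq_zero.1 (show (a - 1) * (a ^ 2 + a + 1) = 0 by linear_combination ha3)).resolve_left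
      (sub_ne_zero.2 ha1)
  have hcube : ∀ t : ↥R, ((t : G3) : M3) ^ 3 = 1 := fun t => by
    rw [← Units.val_pow_eq_pow_val, hexp _ t.2, Units.val_one]
  have hrel' : ((r : G3) : M3) * ((s : G3) : M3) = (a ^ 2) • (((s : G3) : M3) * ((r : G3) : M3)) := by
    rw [hrel, smul_smul, show a ^ 2 * a = 1 by linear_combination ha3, one_smul]
  obtain ⟨b, e, he, hb⟩ := exists_eigenbasis_of_quasicomm (hcube r) (hcube s)
    (show (a ^ 2) ^ 2 + a ^ 2 + 1 = 0 by linear_combination (a ^ 2 - a + 1) * haω) h3 hrel'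
  have hker : Nat.card ↥φ.ker ≤ 27 := by
    rw [← Subgroup.card_map_of_injective R.subtype_injective (K := φ.ker)]
    refine card_le_of_commute_eigenbasis _ ?_ haω b he hb ?_
    · rintro _ ⟨g, -, rfl⟩
      exact hexp _ g.2
    · rintro _ ⟨g, hg, rfl⟩
      have h1 : g * r * g⁻¹ * r⁻¹ = 1 := congrArg Subtype.val (MonoidHom.mem_ker.1 hg)
      have h2 : g * r = r * g := mul_inv_eq_iff_eq_mul.1 (mul_inv_eq_one.1 h1)
      have := congrArg (fun t : R => ((t : G3) : M3)) h2
      simpa using this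
  have hle : φ.ker.index ≤ 3 := by
    rw [Subgroup.index_ker]
    exact (Subgroup.card_le_card_group _).trans hc.le
  have hmul := φ.ker.card_mul_index
  rw [hcard] at hmul
  have h81 : 3 ^ (1 + 2 * m) ≤ 27 * 3 := hmul ▸ Nat.mul_le_mul hker hle
  have : m = 1 := by
    by_contra hne
    have : 3 ^ 5 ≤ 3 ^ (1 + 2 * m) := Nat.pow_le_pow_right (by norm_num) (by omega)
    omega
  rw [hcard, this]
  norm_num

end Cfsg.Agent.H48.C6Three
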