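import Cfsg.Agent.H48.C6Three.ZPlane

/-!
The involutions centralising an element of odd order that is inverted on the splitting of the involution `z`
commute with each other.
-/

set_option autoImplicit false
set_option linter.unusedSimpArgs false
set_option linter.unusedSectionVars false

namespace Cfsg.Agent.H48.C6Three

open Matrix

variable {F : Type*} [Field F]

/-- Two matrices in the commutant of a non-scalar `2 × 2` matrix commute. -/
theorem commute_of_commutant_two {Y A B : Matrix (Fin 2) (Fin 2) F} (hY : ∀ c : F, Y ≠ c • 1)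
    (hA : A * Y = Y * A) (hB : B * Y = Y * B) : A * B = B * A := by
  have hcases : Y 0 1 ≠ 0 ∨ Y 1 0 ≠ 0 ∨ Y 0 0 - Y 1 1 ≠ 0 := by
    by_contra hn
    push Not at hn
    obtain ⟨h1, h2, h3⟩ := hn
    refine hY (Y 0 0) ?_
    ext i j
    fin_cases i <;> fin_cases j <;> simp [h1, h2]
    linear_combination -h3
  have a := fun i j => congrFun (congrFun hA i) j
  have b := fun i j => congrFun (congrFun hB i) j
  have a00 := a 0 0; have a01 := a 0 1; have a10 := a 1 0
  have b00 := b 0 0; have b01 := b 0 1; have b10 := b 1 0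
  simp only [Matrix.mul_apply, Fin.sum_univ_two] at a00 a01 a10 b00 b01 b10
  ext i j
  rcases hcases with h' | h' | h' <;> refine mul_left_cancel₀ h' ?_ <;> fin_cases i <;> fin_cases j <;>
    simp [Matrix.mul_apply, Fin.sum_univ_two] <;> grind

/-- The commutant of a block matrix whose corner is not an eigenvalue of the block consists of block
matrices. -/
theorem isBlk_of_commute {N A : Matrix (Fin 3) (Fin 3) F} (hN : IsBlk N)
    (hdet : (sub2 N - N 0 0 • 1).det ≠ 0) (hA : A * N = N * A) : IsBlk A := by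
  obtain ⟨n1, n2, n3, n4⟩ := hN
  have e := fun i j => congrFun (congrFun hA i) j
  have e01 := e 0 1; have e02 := e 0 2; have e10 := e 1 0; have e20 := e 2 0
  simp [Matrix.mul_apply, Fin.sum_univ_three, n1, n2, n3, n4] at e01 e02 e10 e20
  simp [sub2, Matrix.det_fin_two] at hdet
  refine ⟨?_, ?_, ?_, ?_⟩ <;> refine (mul_eq_zero.1 (?_ : _ * _ = (0 : F))).resolve_left hdet
  · linear_combination (N 2 2 - N 0 0) * e01 - N 2 1 * e02
  · linear_combination (N 1 1 - N 0 0) * e02 - N 1 2 * e01
  · linear_combination -(N 2 2 - N 0 0) * e10 + N 1 2 * e20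
  · linear_combination -(N 1 1 - N 0 0) * e20 + N 2 1 * e10

/-- A block matrix with corner `1` and unipotent non-trivial block is a transvection. -/
theorem isTransv_of_blk {g : GL (Fin 3) F} {k : F} {P : Matrix (Fin 2) (Fin 2) F}
    (hb : IsBlk (g : Matrix (Fin 3) (Fin 3) F)) (hc : (g : Matrix (Fin 3) (Fin 3) F) 0 0 = 1)
    (hs : sub2 (g : Matrix (Fin 3) (Fin 3) F) = 1 + k • P) (hk : k ≠ 0) (hP : P ≠ 0)
    (htr : P 1 1 = -P 0 0) (hdet : P 0 0 * P 0 0 + P 0 1 * P 1 0 = 0) : IsTransv g := by
  obtain ⟨b1, b2, b3, b4⟩ := hb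
  obtain ⟨v, φ, hφ, hPv⟩ : ∃ v φ : Fin 2 → F, φ ⬝ᵥ v = 0 ∧ P = vecMulVec v φ := by
    by_cases hb : P 0 1 = 0
    · have h0 : P 0 0 = 0 := by
        rw [hb, zero_mul, add_zero] at hdet
        exact mul_self_eq_zero.1 hdet
      refine ⟨![0, P 1 0], ![1, 0], by simp [dotProduct, Fin.sum_univ_two], ?_⟩
      ext i j
      fin_cases i <;> fin_cases j <;> simp [vecMulVec_apply, h0, hb, htr]
    · refine ⟨![P 0 1, -P 0 0], ![P 0 0 / P 0 1, 1], ?_, ?_⟩
      · simp [dotProduct, Fin.sum_univ_two]; field_simp; ring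
      · ext i j
        fin_cases i <;> fin_cases j <;> simp [vecMulVec_apply, htr]
        · field_simp
        · field_simp; linear_combination hdet
  refine ⟨fun h1 => ?_, k • ![0, v 0, v 1], ![0, φ 0, φ 1], ?_, ?_⟩
  · rw [h1, Units.val_one, sub2_one] at hs
    exact smul_ne_zero hk hP (by simpa using hs)
  · rw [dotProduct_smul, smul_eq_mul]
    simp only [dotProduct, Fin.sum_univ_two] at hφ
    simp [dotProduct, Fin.sum_univ_three, hφ]
  · have e := fun i j => congrFun (congrFun hs i) j
    have e00 := e 0 0; have e01 := e 0 1; have e10 := e 1 0; have e11 := e 1 1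
    simp [sub2, hPv, vecMulVec_apply] at e00 e01 e10 e11
    ext i j
    fin_cases i <;> fin_cases j <;>
      simp [vecMulVec_apply, b1, b2, b3, b4, hc, e00, e01, e10, e11, mul_assoc]

variable {ω : F} {M : Subgroup (GL (Fin 3) F)}

/-- The matrix of `g` in a basis adapted to the involution `z`. -/
abbrev zmat (g : ↥M) : Matrix (Fin 3) (Fin 3) F := matB' * mat g * matB

variable [Finite F] (h : Overgroup ω M)

namespace Overgroup

include h in
/-- An involutive lift commutes exactly with whatever it commutes with modulo scalars. -/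
theorem exact_commute {g k : ↥M} (hg : g * g = 1) (e : pr M g * pr M k = pr M k * pr M g) :
    g * k = k * g :=
  (h.commute_of_pr hg e.symm).symm

include h in
/-- Lifting data: the block of `g` has determinant inverse to the corner. -/
theorem corner_mul_det_sub2 (c : ↥h.zc) :
    (zmat (c : ↥M)) 0 0 * (sub2 (zmat (c : ↥M))).det = 1 := by
  have hB' : (matB' : Matrix (Fin 3) (Fin 3) F) * matB = 1 := mul_eq_one_comm.1 (matB_mul h.two_ne)
  obtain ⟨b1, b2, b3, b4⟩ : IsBlk (zmat (c : ↥M)) :=
    isBlk_of_commute_matZ h.two_ne (h.mem_zc.1 c.2)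
  have e : (zmat (c : ↥M)).det = 1 := by
    rw [zmat, det_mul, det_mul, h.mat_det, mul_one, ← det_mul, hB', det_one]
  generalize zmat (c : ↥M) = N at b1 b2 b3 b4 e ⊢
  rw [det_fin_three, b1, b2, b3, b4] at e
  rw [det_fin_two, ← e]
  simp [sub2]
  ring

/-- The block of a lift of a non-trivial element of odd order is not scalar. -/
theorem block_not_scalar (cy : ↥h.zc) (hodd : Odd (orderOf (pr M (cy : ↥M))))
    (hy1 : pr M (cy : ↥M) ≠ 1) (hμ : (zmat (cy : ↥M)) 0 0 ^ 3 = 1) :
    ∀ c : F, sub2 (zmat (cy : ↥M)) ≠ c • 1 := by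
  have hdetN := h.corner_mul_det_sub2 cy
  have hB : matB * (matB' : Matrix (Fin 3) (Fin 3) F) = 1 := matB_mul h.two_ne
  have hB' : (matB' : Matrix (Fin 3) (Fin 3) F) * matB = 1 := mul_eq_one_comm.1 hB
  have hNb : IsBlk (zmat (cy : ↥M)) := isBlk_of_commute_matZ h.two_ne (h.mem_zc.1 cy.2)
  obtain ⟨gy, hgy⟩ := cy
  set N : Matrix (Fin 3) (Fin 3) F := zmat gy with hNdef
  set μ := N 0 0 with hμdef
  have hback : mat gy = matB * N * matB' := by
    rw [hNdef, zmat]; simp only [← mul_assoc, hB, one_mul]; rw [mul_assoc, hB, mul_one]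
  intro c hc
  have hc2 : c * c = μ * μ := by
    rw [hc] at hdetN
    simp [det_fin_two] at hdetN
    calc c * c = μ ^ 3 * (c * c) := by rw [hμ, one_mul]
      _ = μ * μ * (μ * (c * c)) := by ring
      _ = μ * μ := by rw [← sq c, hdetN, mul_one]
  have hN' : N = diagonal ![μ, c, c] := by
    obtain ⟨b1, b2, b3, b4⟩ := hNb
    have e := fun i j => congrFun (congrFun hc i) j
    have e00 := e 0 0; have e01 := e 0 1; have e10 := e 1 0; have e11 := e 1 1
    simp [sub2] at e00 e01 e10 e11
    ext i j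
    fin_cases i <;> fin_cases j <;> simp [b1, b2, b3, b4, e00, e01, e10, e11, hμdef]
  have hNN : N * N = (μ * μ) • 1 := by
    rw [hN', diagonal_mul_diagonal, smul_one_eq_diagonal]
    congr 1
    funext i
    fin_cases i <;> simp [hc2]
  have hsq : pr M gy * pr M gy = 1 := by
    rw [← map_mul, pr_eq_one]
    refine ⟨μ * μ, ?_⟩
    rw [mat_mul, hback, show matB * N * matB' * (matB * N * matB') = matB * (N * (matB' * matB) * N) * matB' by
      simp only [mul_assoc], hB', mul_one, hNN, Matrix.mul_smul, Matrix.smul_mul, mul_one, hB]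
  have h2 : orderOf (pr M gy) ∣ 2 := orderOf_dvd_of_pow_eq_one (by rw [sq, hsq])
  rcases (Nat.dvd_prime Nat.prime_two).1 h2 with h1 | h1
  · exact hy1 (orderOf_eq_one_iff.1 h1)
  · rw [h1] at hodd; exact absurd hodd (by decide)

/-- The corner of a lift is not an eigenvalue of its block. -/
theorem block_regular (c : ↥h.zc) (hμ : (zmat (c : ↥M)) 0 0 ^ 3 = 1)
    (hY : ∀ a : F, sub2 (zmat (c : ↥M)) ≠ a • 1) :
    (sub2 (zmat (c : ↥M)) -
      (zmat (c : ↥M)) 0 0 • 1).det ≠ 0 := by
  have hdetN := h.corner_mul_det_sub2 c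
  let φ : ↥h.zc →* F := cornerHom.comp h.zblk
  set gy := (c : ↥M) with hgy
  set N : Matrix (Fin 3) (Fin 3) F := zmat gy with hNdef
  set μ := N 0 0 with hμdef
  have hμ0 : μ ≠ 0 := fun e => by simp [e] at hμ
  intro h0
  set P := sub2 N - μ • (1 : Matrix (Fin 2) (Fin 2) F) with hPdef
  have hs : sub2 N = μ • 1 + P := by rw [hPdef]; abel
  have htr : P 1 1 = -P 0 0 := by
    rw [hs] at hdetN
    simp [det_fin_two] at hdetN h0
    have : μ * μ * (P 0 0 + P 1 1) = 0 := by
      linear_combination hdetN - hμ - μ * h0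
    have := (mul_eq_zero.1 this).resolve_left (mul_ne_zero hμ0 hμ0)
    linear_combination this
  have hsq : P 0 0 * P 0 0 + P 0 1 * P 1 0 = 0 := by
    rw [det_fin_two, htr] at h0
    linear_combination -h0
  have hPP : P * P = 0 := by
    ext i j
    fin_cases i <;> fin_cases j <;> simp [Matrix.mul_apply, Fin.sum_univ_two, htr] <;>
      first | ring1 | linear_combination hsq
  let T : ↥(blkGroup F) := h.zblk (c ^ 3)
  have hT : IsTransv (T : GL (Fin 3) F) := by
    refine isTransv_of_blk (k := 3 * μ ^ 2) (P := P) T.2 ?_ ?_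
      (mul_ne_zero h.root.three (pow_ne_zero _ hμ0)) (fun e => hY μ (by rw [hs, e, add_zero])) htr hsq
    · show φ (c ^ 3) = 1
      rw [map_pow]
      exact hμ
    · show sub2Hom (h.zblk (c ^ 3)) = _
      rw [map_pow, map_pow]
      show sub2 N ^ 3 = _
      rw [hs]
      simp only [pow_succ, pow_zero, one_mul, add_mul, mul_add, smul_mul_assoc, mul_smul_comm, mul_one,
        hPP, smul_zero, zero_mul, add_zero, smul_smul]
      simp only [smul_add, smul_smul]
      rw [show μ * (μ * μ) = (1 : F) by rw [← hμ]; ring, one_smul]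
      module
  have hback3 : unitB h.two_ne * (T : GL (Fin 3) F) * (unitB h.two_ne)⁻¹ = ((gy ^ 3 : ↥M) : GL (Fin 3) F) := by
    apply Units.ext
    rw [Units.val_mul, Units.val_mul, h.zblk_val, SubgroupClass.coe_pow]
    show matB * (matB' * mat (gy ^ 3) * matB) * matB' = mat (gy ^ 3)
    have hB := matB_mul h.two_ne
    simp only [← mul_assoc, hB, one_mul]
    rw [mul_assoc, hB, mul_one]
  exact h.nt _ (gy ^ 3).2 (hback3 ▸ isTransv_conj hT (unitB h.two_ne))

/-- Involutions centralising an inverted element of odd order in the centraliser of `z` commute. -/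
theorem centAbelian : ∀ u y : ↥M ⧸ scal M, orderOf u = 2 → u * pr M h.eZ = pr M h.eZ * u →
    y * pr M h.eZ = pr M h.eZ * y → Odd (orderOf y) → y ≠ 1 → u * y * u⁻¹ = y⁻¹ →
    ∀ a b, orderOf a = 2 → orderOf b = 2 → a * y = y * a → b * y = y * b → a * b = b * a := by
  intro u y hu huz hyz hodd hy1 hinv a b ha hb hay hby
  have sq1 : ∀ x : ↥M ⧸ scal M, orderOf x = 2 → x * x = 1 := fun x hx => by
    rw [← sq, ← hx]; exact pow_orderOf_eq_one x
  obtain ⟨gu, -, rfl⟩ := h.exists_lift_two (sq1 u hu)
  obtain ⟨ga, hga2, rfl⟩ := h.exists_lift_two (sq1 a ha)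
  obtain ⟨gb, hgb2, rfl⟩ := h.exists_lift_two (sq1 b hb)
  obtain ⟨g0, rfl⟩ := pr_surjective y
  set n := orderOf (pr M g0) with hn
  obtain ⟨k, hk⟩ := hodd
  have hB : matB * (matB' : Matrix (Fin 3) (Fin 3) F) = 1 := matB_mul h.two_ne
  have hB' : (matB' : Matrix (Fin 3) (Fin 3) F) * matB = 1 := mul_eq_one_comm.1 hB
  let cu : ↥h.zc := ⟨gu, h.mem_zc_iff_pr.2 huz⟩
  let c0 : ↥h.zc := ⟨g0, h.mem_zc_iff_pr.2 hyz⟩
  let φ : ↥h.zc →* F := cornerHom.comp h.zblk
  -- the corner of the lift squares to a cube root of unity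
  have h6 : φ c0 ^ 6 = 1 := by
    have e1 : pr M (gu * g0 * gu⁻¹ * g0) = 1 := by
      rw [map_mul, map_mul, map_mul, map_inv, hinv, inv_mul_cancel]
    obtain ⟨c, hc⟩ := pr_eq_one.1 e1
    have hc3 : c ^ 3 = 1 := h.smul_cube (g := gu * g0 * gu⁻¹ * g0) (k := 1) (by rw [hc, mat_one])
    have e2 : φ (cu * c0 * cu⁻¹ * c0) = c := by
      show (matB' * mat (gu * g0 * gu⁻¹ * g0) * matB : Matrix (Fin 3) (Fin 3) F) 0 0 = c
      rw [hc, Matrix.mul_smul, Matrix.smul_mul, mul_one, hB']
      simp
    have e3 : φ cu * φ cu⁻¹ = 1 := by rw [← map_mul, mul_inv_cancel, map_one]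
    rw [map_mul, map_mul, map_mul] at e2
    have e4 : φ c0 ^ 2 = c := by
      rw [← e2]
      linear_combination -(φ c0 ^ 2) * e3
    rw [show (6 : ℕ) = 2 * 3 from rfl, pow_mul, e4, hc3]
  set gy := g0 ^ (n + 1) with hgy
  have hpy : pr M gy = pr M g0 := by
    rw [hgy, map_pow, pow_succ, pow_orderOf_eq_one, one_mul]
  let cy : ↥h.zc := ⟨gy, h.mem_zc_iff_pr.2 (by rw [hpy]; exact hyz)⟩
  set N : Matrix (Fin 3) (Fin 3) F := zmat gy with hNdef
  have hNb : IsBlk N := isBlk_of_commute_matZ h.two_ne (h.mem_zc.1 cy.2)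
  have hμ : (N 0 0) ^ 3 = 1 := by
    have e : cy = c0 ^ (n + 1) := Subtype.ext rfl
    show φ cy ^ 3 = 1
    rw [e, map_pow, ← pow_mul, show (n + 1) * 3 = 6 * (k + 1) by omega, pow_mul, h6, one_pow]
  have hodd' : Odd (orderOf (pr M gy)) := by rw [hpy]; exact ⟨k, hk⟩
  have hY := h.block_not_scalar cy hodd' (by rw [hpy]; exact hy1) hμ
  have hreg := h.block_regular cy hμ hY
  -- the lifts of `a` and `b` are block matrices
  have key : ∀ g : ↥M, g * g = 1 → pr M g * pr M g0 = pr M g0 * pr M g →
      (matB' * mat g * matB) * N = N * (matB' * mat g * matB) := by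
    intro g hg hgy0
    have e := congrArg mat (h.exact_commute hg (k := gy) (by rw [hpy]; exact hgy0))
    rw [mat_mul, mat_mul] at e
    rw [hNdef, zmat, show matB' * mat g * matB * (matB' * mat gy * matB) =
        matB' * (mat g * (matB * matB') * mat gy) * matB by simp only [mul_assoc],
      show matB' * mat gy * matB * (matB' * mat g * matB) =
        matB' * (mat gy * (matB * matB') * mat g) * matB by simp only [mul_assoc], hB, mul_one, mul_one, e]
  have hA := key ga hga2 hay
  have hC := key gb hgb2 hby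
  have bA := isBlk_of_commute hNb hreg hA
  have bC := isBlk_of_commute hNb hreg hC
  set A := matB' * mat ga * matB with hAdef
  set C := matB' * mat gb * matB with hCdef
  have hsub : sub2 A * sub2 C = sub2 C * sub2 A :=
    commute_of_commutant_two hY (by rw [← sub2_mul bA hNb, hA, sub2_mul hNb bA])
      (by rw [← sub2_mul bC hNb, hC, sub2_mul hNb bC])
  have hAC : A * C = C * A := by
    obtain ⟨a1, a2, a3, a4⟩ := bA
    obtain ⟨c1, c2, c3, c4⟩ := bC
    have e := fun i j => congrFun (congrFun hsub i) j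
    have e00 := e 0 0; have e01 := e 0 1; have e10 := e 1 0; have e11 := e 1 1
    simp [sub2, Matrix.mul_apply, Fin.sum_univ_two] at e00 e01 e10 e11
    ext i j
    fin_cases i <;> fin_cases j <;>
      simp [Matrix.mul_apply, Fin.sum_univ_three, a1, a2, a3, a4, c1, c2, c3, c4] <;>
      first
        | ring1
        | linear_combination e00
        | linear_combination e01
        | linear_combination e10
        | linear_combination e11
  rw [← map_mul, ← map_mul]
  congr 1
  apply mat_injective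
  have hAg : matB * A * matB' = mat ga := by
    rw [hAdef]; simp only [← mul_assoc, hB, one_mul]; rw [mul_assoc, hB, mul_one]
  have hCg : matB * C * matB' = mat gb := by
    rw [hCdef]; simp only [← mul_assoc, hB, one_mul]; rw [mul_assoc, hB, mul_one]
  rw [mat_mul, mat_mul, ← hAg, ← hCg,
    show matB * A * matB' * (matB * C * matB') = matB * (A * (matB' * matB) * C) * matB' by simp only [mul_assoc],
    show matB * C * matB' * (matB * A * matB') = matB * (C * (matB' * matB) * A) * matB' by simp only [mul_assoc],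
    hB', mul_one, mul_one, hAC]

end Overgroup

end Cfsg.Agent.H48.C6Three
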