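import Cfsg.Agent.H48.C6Three.Gens
import Cfsg.Agent.H78.CTA.Pairs

/-!
Two matrix facts about `SL₃`: an element of order `5` is not conjugate to its square up to a cube root of unity,
and an element commuting with a four-group and, up to scalars, with two swaps of its eigenlines is scalar.
-/

set_option autoImplicit false

namespace Cfsg.Agent.H48.C6Three

open Matrix Polynomial

variable {F : Type*} [Field F]

/-- An element of order dividing five conjugate to a scalar multiple of its square is trivial. -/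
theorem five_fusion [Finite F] (h5 : (5 : F) ≠ 0) (g h : GL (Fin 3) F)
    (_hdet : (g : Matrix (Fin 3) (Fin 3) F).det = 1) (hg : g ^ 5 = 1)
    (hc : ∃ c : F, ((h * g * h⁻¹ : GL (Fin 3) F) : Matrix (Fin 3) (Fin 3) F) =
      c • ((g ^ 2 : GL (Fin 3) F) : Matrix (Fin 3) (Fin 3) F) ∧ c ^ 3 = 1) : g = 1 := by
  classical
  obtain ⟨c, hcg, hc3⟩ := hc
  have hg5 : (g : Matrix (Fin 3) (Fin 3) F) ^ 5 = 1 := by rw [← Units.val_pow_eq_pow_val, hg, Units.val_one]
  have hc5 : c ^ 5 = 1 := by
    have e := congrArg (· ^ 5) hcg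
    simp only [_root_.smul_pow] at e
    rw [← Units.val_pow_eq_pow_val, ← Units.val_pow_eq_pow_val, conj_pow, hg, mul_one, mul_inv_cancel, ← pow_mul,
      mul_comm 2 5, pow_mul, hg, one_pow, Units.val_one] at e
    have := congrFun (congrFun e 0) 0
    simpa [Matrix.smul_apply] using this.symm
  have hc1 : c = 1 := by
    calc c = c * c ^ 5 := by rw [hc5, mul_one]
      _ = (c ^ 3) ^ 2 := by ring
      _ = 1 := by rw [hc3, one_pow]
  rw [hc1, one_smul] at hcg
  set K := AlgebraicClosure F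
  set G : Matrix (Fin 3) (Fin 3) K := (algebraMap F K).mapMatrix (g : Matrix (Fin 3) (Fin 3) F) with hG
  have hGp : G.charpoly = (G ^ 2).charpoly := by
    have e : (g : Matrix (Fin 3) (Fin 3) F).charpoly = ((g : Matrix (Fin 3) (Fin 3) F) ^ 2).charpoly := by
      rw [← Units.val_pow_eq_pow_val, ← hcg, Units.val_mul, Units.val_mul, Matrix.coe_units_inv, Matrix.charpoly_units_conj]
    rw [hG, ← map_pow, RingHom.mapMatrix_apply, RingHom.mapMatrix_apply, Matrix.charpoly_map,
      Matrix.charpoly_map, e]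
  have hG5 : G ^ 5 = 1 := by rw [hG, ← map_pow, hg5, map_one]
  have hsq : ∀ μ ∈ spectrum K G, μ ^ 2 ∈ spectrum K G := by
    intro μ hμ
    have := spectrum.pow_mem_pow G 2 hμ
    rw [Matrix.mem_spectrum_iff_isRoot_charpoly, ← hGp] at this
    exact Matrix.mem_spectrum_iff_isRoot_charpoly.2 this
  have hone : ∀ μ ∈ spectrum K G, μ = 1 := by
    intro μ hμ
    have h5' : μ ^ 5 = 1 := by
      have := spectrum.pow_mem_pow G 5 hμ
      rw [hG5, spectrum.one_eq] at this
      exact this
    by_contra hμ1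
    have hord : orderOf μ = 5 := by
      haveI : Fact (Nat.Prime 5) := ⟨by norm_num⟩
      exact orderOf_eq_prime h5' hμ1
    have hmem4 := hsq _ (hsq _ hμ)
    have hmem8 := hsq _ hmem4
    let S : Finset K := (Finset.range 4).image fun i => μ ^ (i + 1)
    have hS : S.card = 4 := by
      rw [Finset.card_image_of_injOn, Finset.card_range]
      intro i hi j hj hij
      rw [Finset.coe_range, Set.mem_Iio] at hi hj
      have := (pow_injOn_Iio_orderOf (x := μ)) (show i + 1 < orderOf μ by omega) (show j + 1 < orderOf μ by omega) hij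
      omega
    have hSsub : S ⊆ G.charpoly.roots.toFinset := by
      intro x hx
      rw [Finset.mem_image] at hx
      obtain ⟨i, hi, rfl⟩ := hx
      rw [Finset.mem_range] at hi
      rw [Multiset.mem_toFinset, Polynomial.mem_roots (Matrix.charpoly_monic G).ne_zero,
        ← Matrix.mem_spectrum_iff_isRoot_charpoly]
      interval_cases i
      · rwa [zero_add, pow_one]
      · exact hsq _ hμ
      · rw [← pow_mul, ← pow_mul] at hmem8
        rwa [show μ ^ (2 * 2 * 2) = μ ^ 3 by
          rw [show 2 * 2 * 2 = 5 + 3 from rfl, pow_add, h5', one_mul]] at hmem8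
      · rw [← pow_mul] at hmem4
        exact hmem4
    have h3 := ((Finset.card_le_card hSsub).trans (Multiset.toFinset_card_le _)).trans
      (Polynomial.card_roots' G.charpoly)
    rw [hS, Matrix.charpoly_natDegree_eq_dim, Fintype.card_fin] at h3
    omega
  let P : K[X] := X ^ 4 + X ^ 3 + X ^ 2 + X + 1
  have hne : (spectrum K G).Nonempty := spectrum.nonempty_of_isAlgClosed_of_finiteDimensional K G
  have hunit : IsUnit (aeval G P) := by
    rw [← spectrum.zero_notMem_iff K, spectrum.map_polynomial_aeval_of_nonempty G P hne]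
    rintro ⟨μ, hμ, e⟩
    rw [hone μ hμ] at e
    refine h5 ((algebraMap F K).injective ?_)
    rw [map_ofNat, map_zero, ← e]
    simp only [P, eval_add, eval_pow, eval_X, eval_one, one_pow]
    norm_num
  have hprod : aeval G P * (G - 1) = 0 := by
    have e : P * (X - 1) = X ^ 5 - 1 := by simp only [P]; ring
    have := congrArg (aeval G) e
    rw [map_mul, map_sub, map_sub, map_pow, aeval_X, map_one, hG5, sub_self] at this
    exact this
  have hG1 : G = 1 := sub_eq_zero.1 (hunit.mul_right_eq_zero.1 hprod)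
  refine Units.ext (Matrix.map_injective (algebraMap F K).injective ?_)
  show G = _
  rw [hG1, Units.val_one]
  exact (Matrix.map_one _ (map_zero _) (map_one _)).symm

/-- An element commuting with a four-group and, up to scalars, with two swaps of its eigenlines is scalar. -/
theorem four_fix [Finite F] (h2 : (2 : F) ≠ 0) (z u k k' y : GL (Fin 3) F)
    (dz : (z : Matrix (Fin 3) (Fin 3) F).det = 1) (du : (u : Matrix (Fin 3) (Fin 3) F).det = 1)
    (_dk : (k : Matrix (Fin 3) (Fin 3) F).det = 1) (_dk' : (k' : Matrix (Fin 3) (Fin 3) F).det = 1)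
    (_dy : (y : Matrix (Fin 3) (Fin 3) F).det = 1) (hz2 : z ^ 2 = 1) (hu2 : u ^ 2 = 1) (hz1 : z ≠ 1) (hu1 : u ≠ 1)
    (huz : u ≠ z) (hzu : z * u = u * z) (hkz : k * z = z * k) (hku : k * u * k⁻¹ = z * u)
    (hk'u : k' * u = u * k') (hk'z : k' * z * k'⁻¹ = z * u) (hyz : y * z = z * y) (hyu : y * u = u * y)
    (hyk : ∃ c : F, (y : Matrix (Fin 3) (Fin 3) F) * k = c • ((k : Matrix (Fin 3) (Fin 3) F) * y))
    (hyk' : ∃ c : F, (y : Matrix (Fin 3) (Fin 3) F) * k' = c • ((k' : Matrix (Fin 3) (Fin 3) F) * y)) :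
    ∃ a : F, (y : Matrix (Fin 3) (Fin 3) F) = a • (1 : Matrix (Fin 3) (Fin 3) F) := by
  classical
  haveI : Fintype F := Fintype.ofFinite F
  let zs : Matrix.SpecialLinearGroup (Fin 3) F := ⟨z, dz⟩
  let us : Matrix.SpecialLinearGroup (Fin 3) F := ⟨u, du⟩
  obtain ⟨T, hT1, hT2⟩ := H78.CTA.exists_conj_DA_DB h2 zs us
    (Subtype.ext (show (z : Matrix (Fin 3) (Fin 3) F) * z = 1 by rw [← Units.val_mul, ← sq, hz2, Units.val_one]))
    (Subtype.ext (show (u : Matrix (Fin 3) (Fin 3) F) * u = 1 by rw [← Units.val_mul, ← sq, hu2, Units.val_one]))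
    (Subtype.ext (show (z : Matrix (Fin 3) (Fin 3) F) * u = u * z by rw [← Units.val_mul, hzu, Units.val_mul]))
    (fun e => hz1 (Units.ext (congrArg Subtype.val e))) (fun e => hu1 (Units.ext (congrArg Subtype.val e)))
    (fun e => huz (Units.ext (congrArg Subtype.val e)).symm)
  let φ : GL (Fin 3) F → Matrix (Fin 3) (Fin 3) F := fun g => ((T⁻¹ * g * T : GL (Fin 3) F) : Matrix _ _ F)
  have φmul : ∀ a b, φ (a * b) = φ a * φ b := fun a b => by
    simp only [φ]; rw [← Units.val_mul]; congr 1; group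
  have Z : φ z = diagonal ![-1, -1, 1] := by
    simp only [φ, Units.val_mul, Matrix.mul_assoc]
    rw [show (z : Matrix (Fin 3) (Fin 3) F) * (T : Matrix (Fin 3) (Fin 3) F) = (T : Matrix (Fin 3) (Fin 3) F) * diagonal ![-1, -1, 1] from hT1, ← Matrix.mul_assoc,
      ← Units.val_mul, inv_mul_cancel, Units.val_one, Matrix.one_mul]
  have U : φ u = diagonal ![1, -1, -1] := by
    simp only [φ, Units.val_mul, Matrix.mul_assoc]
    rw [show (u : Matrix (Fin 3) (Fin 3) F) * (T : Matrix (Fin 3) (Fin 3) F) = (T : Matrix (Fin 3) (Fin 3) F) * diagonal ![1, -1, -1] from hT2, ← Matrix.mul_assoc,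
      ← Units.val_mul, inv_mul_cancel, Units.val_one, Matrix.one_mul]
  have ZU : φ (z * u) = diagonal ![-1, 1, -1] := by
    rw [φmul, Z, U, diagonal_mul_diagonal]
    congr 1
    funext i; fin_cases i <;> simp
  have swap : ∀ (g : GL (Fin 3) F) (d e : Fin 3 → F) (a b : GL (Fin 3) F), g * a = b * g → φ a = diagonal d →
      φ b = diagonal e → ∀ i j, d j ≠ e i → φ g i j = 0 := by
    intro g d e a b hab ha hb i j hne
    have := congrArg (fun m => φ m i j) hab
    simp only [φmul, ha, hb, mul_diagonal, diagonal_mul] at this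
    exact (mul_eq_zero.1 (show φ g i j * (d j - e i) = 0 by rw [mul_sub, this]; ring)).resolve_right
      (sub_ne_zero.2 hne)
  have ne1 : (1 : F) ≠ -1 := fun h => h2 (by linear_combination h)
  have ne2 : (-1 : F) ≠ 1 := ne1.symm
  have hk1 : k * u = (z * u) * k := by rw [← hku]; group
  have hk2 : k' * z = (z * u) * k' := by rw [← hk'z]; group
  have y01 : φ y 0 1 = 0 := swap y _ _ u u hyu U U 0 1 (by simpa using ne2)
  have y02 : φ y 0 2 = 0 := swap y _ _ z z hyz Z Z 0 2 (by simpa using ne1)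
  have y10 : φ y 1 0 = 0 := swap y _ _ u u hyu U U 1 0 (by simpa using ne1)
  have y12 : φ y 1 2 = 0 := swap y _ _ z z hyz Z Z 1 2 (by simpa using ne1)
  have y20 : φ y 2 0 = 0 := swap y _ _ z z hyz Z Z 2 0 (by simpa using ne2)
  have y21 : φ y 2 1 = 0 := swap y _ _ z z hyz Z Z 2 1 (by simpa using ne2)
  have k00 : φ k 0 0 = 0 := swap k _ _ u (z * u) hk1 U ZU 0 0 (by simpa using ne1)
  have k11 : φ k 1 1 = 0 := swap k _ _ u (z * u) hk1 U ZU 1 1 (by simpa using ne2)
  have k02 : φ k 0 2 = 0 := swap k _ _ z z hkz Z Z 0 2 (by simpa using ne1)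
  have k12 : φ k 1 2 = 0 := swap k _ _ z z hkz Z Z 1 2 (by simpa using ne1)
  have k20 : φ k 2 0 = 0 := swap k _ _ z z hkz Z Z 2 0 (by simpa using ne2)
  have k21 : φ k 2 1 = 0 := swap k _ _ z z hkz Z Z 2 1 (by simpa using ne2)
  have l01 : φ k' 0 1 = 0 := swap k' _ _ u u hk'u U U 0 1 (by simpa using ne2)
  have l02 : φ k' 0 2 = 0 := swap k' _ _ u u hk'u U U 0 2 (by simpa using ne2)
  have l10 : φ k' 1 0 = 0 := swap k' _ _ u u hk'u U U 1 0 (by simpa using ne1)
  have l20 : φ k' 2 0 = 0 := swap k' _ _ u u hk'u U U 2 0 (by simpa using ne1)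
  have l11 : φ k' 1 1 = 0 := swap k' _ _ z (z * u) hk2 Z ZU 1 1 (by simpa using ne2)
  have l22 : φ k' 2 2 = 0 := swap k' _ _ z (z * u) hk2 Z ZU 2 2 (by simpa using ne1)
  have det0 : ∀ g : GL (Fin 3) F, (φ g).det ≠ 0 := fun g =>
    ((Matrix.isUnit_iff_isUnit_det _).1 (T⁻¹ * g * T).isUnit).ne_zero
  obtain ⟨kne, kne'⟩ : φ k 0 1 ≠ 0 ∧ φ k 2 2 ≠ 0 := by
    have := det0 k
    rw [det_fin_three, k00, k11, k02, k12, k20, k21] at this
    constructor <;> intro h <;> apply this <;> rw [h] <;> ring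
  obtain ⟨lne, lne'⟩ : φ k' 0 0 ≠ 0 ∧ φ k' 1 2 ≠ 0 := by
    have := det0 k'
    rw [det_fin_three, l01, l02, l10, l20, l11, l22] at this
    constructor <;> intro h <;> apply this <;> rw [h] <;> ring
  have ynz : ∀ i, φ y i i ≠ 0 := by
    intro i h
    have := det0 y
    rw [det_fin_three, y01, y02, y10, y12, y20, y21] at this
    apply this
    fin_cases i <;> simp at h <;> rw [h] <;> ring
  have lift : ∀ (g : GL (Fin 3) F) (c : F),
      (y : Matrix (Fin 3) (Fin 3) F) * g = c • ((g : Matrix (Fin 3) (Fin 3) F) * y) →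
        φ y * φ g = c • (φ g * φ y) := by
    intro g c h
    rw [← φmul, ← φmul]
    simp only [φ, Units.val_mul]
    rw [h, Matrix.mul_smul, Matrix.smul_mul]
  obtain ⟨c, hc⟩ := hyk
  obtain ⟨c', hc'⟩ := hyk'
  have e22 := congrFun (congrFun (lift k c hc) 2) 2
  have e01 := congrFun (congrFun (lift k c hc) 0) 1
  have f00 := congrFun (congrFun (lift k' c' hc') 0) 0
  have f12 := congrFun (congrFun (lift k' c' hc') 1) 2
  simp [Matrix.mul_apply, Fin.sum_univ_three, y01, y02, y10, y12, y20, y21, k00, k11, k02, k12, k20, k21,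
    l01, l02, l10, l20, l11, l22] at e22 e01 f00 f12
  have hcc : c = 1 := mul_right_cancel₀ (mul_ne_zero kne' (ynz 2)) (by linear_combination -e22)
  have hcc' : c' = 1 := mul_right_cancel₀ (mul_ne_zero lne (ynz 0)) (by linear_combination -f00)
  subst hcc hcc'
  have h01 : φ y 0 0 = φ y 1 1 := mul_left_cancel₀ kne (by linear_combination e01)
  have h12 : φ y 1 1 = φ y 2 2 := mul_left_cancel₀ lne' (by linear_combination f12)
  refine ⟨φ y 0 0, ?_⟩
  have hy : φ y = φ y 0 0 • (1 : Matrix (Fin 3) (Fin 3) F) := by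
    ext i j
    fin_cases i <;> fin_cases j <;> simp [Matrix.smul_apply, y01, y02, y10, y12, y20, y21, h01, h12]
  generalize φ y 0 0 = a at hy ⊢
  calc (y : Matrix (Fin 3) (Fin 3) F) = (T : Matrix (Fin 3) (Fin 3) F) * φ y * ((T⁻¹ : GL (Fin 3) F) : Matrix _ _ F) := by
        simp only [φ]; rw [← Units.val_mul, ← Units.val_mul]; congr 1; group
    _ = _ := by
        rw [hy, Matrix.mul_smul, Matrix.mul_one, Matrix.smul_mul, ← Units.val_mul, mul_inv_cancel, Units.val_one]

end Cfsg.Agent.H48.C6Three
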