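import Cfsg.Agent.H48.C6Three.ZPlane
import Cfsg.Agent.H48.C6Three.MatrixFacts

/-!
Properties of the centralizer of the involution modulo scalars.
-/

set_option autoImplicit false
set_option linter.unusedSimpArgs false
set_option linter.unusedSectionVars false

namespace Cfsg.Agent.H48.C6Three

open Matrix

variable {F : Type*} [Field F] [Finite F] {ω : F} {M : Subgroup (GL (Fin 3) F)} (h : Overgroup ω M)

namespace Overgroup

include h

theorem prZ_ne_one : pr M h.eZ ≠ 1 := fun e => by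
  obtain ⟨c, hc⟩ := pr_eq_one.1 e
  rw [h.mat_Z] at hc
  have := congrFun (congrFun hc 1) 2
  simp [matZ] at this

theorem prZ_order : orderOf (pr M h.eZ) = 2 := by
  refine orderOf_eq_prime ?_ h.prZ_ne_one
  rw [← map_pow, sq, h.eZ_sq, map_one]

theorem rbar_inv {r : ↥M ⧸ scal M} (hr : r ∈ h.rbar) : pr M h.eZ * r * (pr M h.eZ)⁻¹ = r⁻¹ := by
  have hd : pr M h.eZ * pr M h.eD * (pr M h.eZ)⁻¹ = (pr M h.eD)⁻¹ := by
    rw [h.z_d, mul_inv_cancel_right]
    exact eq_inv_of_mul_eq_one_left (by rw [← pow_succ, h.d_cube])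
  have hq : pr M h.eZ * pr M h.eP * (pr M h.eZ)⁻¹ = (pr M h.eP)⁻¹ := by
    rw [h.z_q, mul_inv_cancel_right]
    exact eq_inv_of_mul_eq_one_left (by rw [← pow_succ, h.q_cube])
  induction hr using Subgroup.closure_induction with
  | mem x hx => rcases hx with rfl | rfl <;> assumption
  | one => simp
  | mul x y hx hy ihx ihy =>
    have e : pr M h.eZ * (x * y) * (pr M h.eZ)⁻¹ = x⁻¹ * y⁻¹ := by
      rw [← ihx, ← ihy]; group
    rw [e, _root_.mul_inv_rev]
    exact h.rbar_comm (inv_mem hx) (inv_mem hy)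
  | inv x hx ihx =>
    rw [show pr M h.eZ * x⁻¹ * (pr M h.eZ)⁻¹ = (pr M h.eZ * x * (pr M h.eZ)⁻¹)⁻¹ by group, ihx]

theorem mat_sq_of {g : ↥M} {α β : F} (hg : mat g = α • 1 + β • matZ) :
    mat (g * g) = (α ^ 2 + β ^ 2) • 1 + (2 * α * β) • matZ := by
  rw [mat_mul, hg, add_mul, mul_add, mul_add]
  simp only [smul_mul_smul_comm, one_mul, mul_one, h.root.matZ_sq]
  module

/-- A `2`-element acting as scalars on both eigenspaces of `z` lies in `⟨z⟩`. -/
theorem scalar_two_element (j : ℕ) : ∀ (g : ↥M) (α β : F), mat g = α • 1 + β • matZ →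
    (α + β) ^ 2 ^ j = (α - β) ^ 2 ^ j → α = 0 ∨ β = 0 := by
  induction j with
  | zero =>
    intro g α β hg e
    rw [pow_zero, pow_one, pow_one] at e
    have : (2 : F) * β = 0 := by linear_combination e
    exact Or.inr ((mul_eq_zero.1 this).resolve_left h.two_ne)
  | succ j ih =>
    intro g α β hg e
    rw [pow_succ', pow_mul, pow_mul] at e
    rcases ih (g * g) _ _ (h.mat_sq_of hg)
      (by convert e using 2 <;> ring) with h1 | h1
    · exact (h.no_quarter hg (by linear_combination 2 * h1)).elim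
    · rcases mul_eq_zero.1 h1 with h2 | h2
      · exact Or.inl ((mul_eq_zero.1 h2).resolve_left h.two_ne)
      · exact Or.inr h2

theorem mat_pow_of {g : ↥M} {α β : F} (hg : mat g = α • 1 + β • matZ) (n : ℕ) :
    ∃ a b : F, mat (g ^ n) = a • 1 + b • matZ ∧ a + b = (α + β) ^ n ∧ a - b = (α - β) ^ n := by
  induction n with
  | zero => exact ⟨1, 0, by simp, by simp, by simp⟩
  | succ n ih =>
    obtain ⟨a, b, hab, h1, h2⟩ := ih
    refine ⟨a * α + b * β, a * β + b * α, ?_, ?_, ?_⟩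
    · rw [pow_succ, mat_mul, hab, hg, add_mul, mul_add, mul_add]
      simp only [smul_mul_smul_comm, one_mul, mul_one, h.root.matZ_sq]
      module
    · rw [pow_succ, ← h1]; ring
    · rw [pow_succ, ← h2]; ring

/-- Commutation with the quaternion group forces scalars on both eigenspaces. -/
theorem of_commute_quat {g : ↥M} (hF : mat g * matF ω = matF ω * mat g)
    (hG : mat g * matG ω = matG ω * mat g) : ∃ α β : F, mat g = α • 1 + β • matZ := by
  have hZ : mat g * matZ = matZ * mat g := by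
    rw [← h.root.matF_sq, ← mul_assoc, hF, mul_assoc, hF, ← mul_assoc]
  have hgz : g ∈ h.zc := h.mem_zc.2 hZ
  refine (h.zimg_eq_one (g := ⟨g, hgz⟩)).1 ?_
  rw [zimg, MonoidHom.comp_apply, pimg_eq_one, zblk_val]
  have hB := matB_mul h.two_ne
  have hB' : (matB' : Matrix (Fin 3) (Fin 3) F) * matB = 1 := mul_eq_one_comm.1 hB
  have hconj : ∀ m : Matrix (Fin 3) (Fin 3) F, mat g * m = m * mat g →
      (matB' * mat g * matB) * (matB' * m * matB) = (matB' * m * matB) * (matB' * mat g * matB) := by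
    intro m hm
    simp only [mul_assoc]
    rw [← mul_assoc (matB : Matrix (Fin 3) (Fin 3) F), hB, one_mul, ← mul_assoc (matB : Matrix (Fin 3) (Fin 3) F),
      hB, one_mul, ← mul_assoc (mat g), hm, mul_assoc]
  have s := h.root.inv_eq
  have h2 := h.two_ne
  have h3 := h.root.three
  have hs0 : (1 + 2 * ω)⁻¹ ≠ 0 := inv_ne_zero h.root.sqrt_ne
  have hf : matB' * matF ω * matB =
      (1 + 2 * ω)⁻¹ • !![1 + 2 * ω, 0, 0; 0, 1, 2; 0, 1, -1] := by
    have := h.root.eq
    rw [matF, Matrix.mul_smul, Matrix.smul_mul]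
    congr 1
    ext i j
    fin_cases i <;> fin_cases j <;>
      simp [matB, matB', Matrix.mul_apply, Fin.sum_univ_three, Matrix.vecMul, dotProduct] <;> grind
  have hg' : matB' * matG ω * matB =
      (1 + 2 * ω)⁻¹ • !![1 + 2 * ω, 0, 0; 0, 1, 2 * ω ^ 2; 0, ω, -1] := by
    have := h.root.eq
    rw [h.root.matG_eq, Matrix.mul_smul, Matrix.smul_mul]
    congr 1
    ext i j
    fin_cases i <;> fin_cases j <;>
      simp [matB, matB', Matrix.mul_apply, Fin.sum_univ_three, Matrix.vecMul, dotProduct] <;> grind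
  have cF := hconj _ hF
  have cG := hconj _ hG
  rw [hf, Matrix.mul_smul, Matrix.smul_mul] at cF
  rw [hg', Matrix.mul_smul, Matrix.smul_mul] at cG
  have cF' := smul_right_injective _ hs0 cF
  have cG' := smul_right_injective _ hs0 cG
  obtain ⟨b1, b2, b3, b4⟩ : IsBlk (matB' * mat g * matB) := isBlk_of_commute_matZ h.two_ne hZ
  change ∃ c : F, sub2 (matB' * mat g * matB) = c • 1
  generalize matB' * mat g * matB = Y at cF' cG' b1 b2 b3 b4 ⊢
  have f11 := congrFun (congrFun cF' 1) 1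
  have f12 := congrFun (congrFun cF' 1) 2
  have g11 := congrFun (congrFun cG' 1) 1
  simp [Matrix.mul_apply, Fin.sum_univ_three, Matrix.vecMul, dotProduct, b3] at f11 f12 g11
  have hω1 : 2 * ω * (ω - 1) ≠ 0 :=
    mul_ne_zero (mul_ne_zero h2 h.root.ne_zero) (sub_ne_zero.2 h.root.ne_one)
  have h21 : Y 2 1 = 0 := (mul_eq_zero.1
    (show 2 * ω * (ω - 1) * Y 2 1 = 0 by linear_combination ω * f11 - g11)).resolve_left hω1
  refine ⟨Y 1 1, ?_⟩
  ext i j
  fin_cases i <;> fin_cases j <;> simp [sub2, h21] <;> grind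

theorem centQ : ∀ x ∈ Subgroup.centralizer (h.qbar : Set (↥M ⧸ scal M)),
    (∃ j : ℕ, orderOf x = 2 ^ j) → x ∈ h.qbar := by
  intro x hx ⟨j, hj⟩
  rw [Subgroup.mem_centralizer_iff] at hx
  obtain ⟨g, rfl⟩ := pr_surjective x
  have hFq : pr M h.eF ∈ h.qbar := h.mem_qbar.2 (by simp)
  have hGq : pr M h.eG ∈ h.qbar := h.mem_qbar.2 (by simp)
  have hZq : pr M h.eZ ∈ h.qbar := h.mem_qbar.2 (by simp)
  have hgz : g * h.eZ = h.eZ * g := h.commute_of_pr h.eZ_sq (hx _ hZq).symm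
  have exact' : ∀ k : ↥M, k * k = h.eZ → pr M g * pr M k = pr M k * pr M g → mat g * mat k = mat k * mat g := by
    intro k hk hc
    obtain ⟨c, hc⟩ := pr_commute_iff.1 hc
    have h3 := h.smul_cube (g := g * k) (k := k * g) (by rw [mat_mul, mat_mul, hc])
    have e1 : mat (g * (k * k)) = (c * c) • mat ((k * k) * g) := by
      simp only [mat_mul]
      rw [← mul_assoc, hc, smul_mul_assoc, mul_assoc (mat k), hc, mul_smul_comm, smul_smul, ← mul_assoc]
    rw [hk, hgz] at e1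
    have hne : mat (h.eZ * g) ≠ 0 := mat_ne_zero _
    have h2 : c * c = 1 := (smul_left_injective F hne (by simpa using e1.symm))
    rw [show c = 1 by linear_combination h3 - c * h2, one_smul] at hc
    exact hc
  have eF' := exact' _ h.eF_sq (hx _ hFq).symm
  have eG' := exact' _ h.eG_sq (hx _ hGq).symm
  rw [h.mat_F] at eF'
  rw [h.mat_G] at eG'
  obtain ⟨α, β, hg⟩ := h.of_commute_quat eF' eG'
  obtain ⟨a, b, hab, h1, h2⟩ := h.mat_pow_of hg (2 ^ j)
  have hb : b = 0 := by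
    have e : pr M (g ^ 2 ^ j) = 1 := by rw [map_pow, ← hj, pow_orderOf_eq_one]
    obtain ⟨c, hc⟩ := pr_eq_one.1 e
    rw [hab] at hc
    simpa [matZ] using congrFun (congrFun hc 1) 2
  rw [hb, add_zero] at h1
  rw [hb, sub_zero] at h2
  rcases h.scalar_two_element j g α β hg (h1.symm.trans h2) with rfl | rfl
  · rw [zero_smul, zero_add, ← h.mat_Z] at hg
    rw [pr_eq_iff.2 ⟨β, hg⟩]
    exact hZq
  · rw [zero_smul, add_zero] at hg
    rw [pr_eq_one.2 ⟨α, hg⟩]
    exact one_mem _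

theorem fourFix : ∀ u k k' y : ↥M ⧸ scal M, orderOf u = 2 → u ≠ pr M h.eZ →
    pr M h.eZ * u = u * pr M h.eZ → k * pr M h.eZ = pr M h.eZ * k → k * u * k⁻¹ = pr M h.eZ * u →
    k' * u = u * k' → k' * pr M h.eZ * k'⁻¹ = pr M h.eZ * u → Odd (orderOf y) →
    y * pr M h.eZ = pr M h.eZ * y → y * u = u * y → y * k = k * y → y * k' = k' * y → y = 1 := by
  intro u k k' y hu huz hzu hkz hku hk'u hk'z _ hyz hyu hyk hyk'
  obtain ⟨k, rfl⟩ := pr_surjective k
  obtain ⟨k', rfl⟩ := pr_surjective k'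
  obtain ⟨y, rfl⟩ := pr_surjective y
  obtain ⟨U, hU, rfl⟩ := h.exists_lift_two (x := u) (by rw [← sq, ← hu, pow_orderOf_eq_one])
  have cz : ∀ g : ↥M, pr M g * pr M h.eZ = pr M h.eZ * pr M g → g * h.eZ = h.eZ * g :=
    fun g e => h.commute_of_pr h.eZ_sq e
  have cu : ∀ g : ↥M, pr M g * pr M U = pr M U * pr M g → g * U = U * g :=
    fun g e => h.commute_of_pr hU e
  have ezu : h.eZ * U = U * h.eZ := cu _ hzu
  have hzu2 : h.eZ * U * (h.eZ * U) = 1 := by
    calc h.eZ * U * (h.eZ * U) = h.eZ * U * (U * h.eZ) := by rw [ezu]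
      _ = 1 := by rw [mul_assoc, ← mul_assoc U, hU, one_mul, h.eZ_sq]
  have inv2 : ∀ (g w : ↥M), w * w = 1 → g * w * g⁻¹ * (g * w * g⁻¹) = 1 := fun g w hw => by
    rw [show g * w * g⁻¹ * (g * w * g⁻¹) = g * (w * w) * g⁻¹ by group, hw, mul_one, mul_inv_cancel]
  have eku : k * U * k⁻¹ = h.eZ * U := h.eq_of_pr_eq (inv2 k U hU) hzu2
    (by rw [map_mul, map_mul, map_mul, map_inv, hku])
  have ek'z : k' * h.eZ * k'⁻¹ = h.eZ * U := h.eq_of_pr_eq (inv2 k' _ h.eZ_sq) hzu2
    (by rw [map_mul, map_mul, map_mul, map_inv, hk'z])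
  let v : ↥M → GL (Fin 3) F := fun g => g
  have hv : ∀ {a b : ↥M}, a = b → v a = v b := fun e => congrArg v e
  obtain ⟨c1, e1⟩ := pr_commute_iff.1 hyk
  obtain ⟨c2, e2⟩ := pr_commute_iff.1 hyk'
  have hne : ∀ g : ↥M, pr M g ≠ 1 → v g ≠ 1 := fun g hg e => hg (by
    rw [show g = 1 from Subtype.ext e, map_one])
  obtain ⟨a, ha⟩ := four_fix h.two_ne (v h.eZ) (v U) (v k) (v k') (v y) (h.mat_det _) (h.mat_det _)
    (h.mat_det _) (h.mat_det _) (h.mat_det _) (by rw [sq]; exact congrArg Subtype.val h.eZ_sq)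
    (by rw [sq]; exact congrArg Subtype.val hU) (hne _ h.prZ_ne_one)
    (hne _ (fun e => by rw [e, orderOf_one] at hu; exact absurd hu (by norm_num)))
    (fun e => huz (by rw [show U = h.eZ from Subtype.ext e]))
    (hv ezu) (hv (cz k hkz)) (congrArg Subtype.val eku) (hv (cu k' hk'u)) (congrArg Subtype.val ek'z)
    (hv (cz y hyz)) (hv (cu y hyu)) ⟨c1, e1⟩ ⟨c2, e2⟩
  exact pr_eq_one.2 ⟨a, ha⟩

theorem five_class : ∀ g : ↥M ⧸ scal M, orderOf g = 5 → ¬ IsConj g (g ^ 2) := by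
  intro g hg hc
  obtain ⟨X, rfl⟩ := pr_surjective g
  obtain ⟨c, hX⟩ := pr_eq_one.1 (show pr M (X ^ 5) = 1 by rw [map_pow, ← hg, pow_orderOf_eq_one])
  have hc3 : c ^ 3 = 1 := h.smul_cube (g := X ^ 5) (k := 1) (by rw [hX, mat_one])
  have hX15 : X ^ 15 = 1 := mat_injective (by
    rw [show (15 : ℕ) = 5 * 3 from rfl, pow_mul, mat_pow, hX, smul_pow, one_pow, hc3, one_smul, mat_one])
  set Y := X ^ 6 with hY
  have hYX : pr M Y = pr M X := by
    rw [hY, map_pow, show (6 : ℕ) = 5 + 1 from rfl, pow_succ, ← hg, pow_orderOf_eq_one, one_mul]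
  have hY5 : Y ^ 5 = 1 := by rw [hY, ← pow_mul, show 6 * 5 = 15 * 2 from rfl, pow_mul, hX15, one_pow]
  obtain ⟨w, hw⟩ := isConj_iff.1 hc
  obtain ⟨K, rfl⟩ := pr_surjective w
  rw [← hYX] at hw
  clear_value Y
  have e : pr M (K * Y * K⁻¹) = pr M (Y ^ 2) := by rw [map_mul, map_mul, map_inv, map_pow, hw]
  obtain ⟨d, hd⟩ := pr_eq_iff.1 e
  have h5 : (Y : GL (Fin 3) F) = 1 := five_fusion h.five (Y : GL (Fin 3) F) (K : GL (Fin 3) F) (h.mat_det Y)
    (by rw [← Subgroup.coe_pow, hY5, Subgroup.coe_one]) ⟨d, by simpa [mat] using hd, h.smul_cube hd⟩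
  rw [← hYX, show Y = 1 from Subtype.ext h5, map_one, orderOf_one] at hg
  exact absurd hg (by norm_num)

end Overgroup

end Cfsg.Agent.H48.C6Three
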