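import Mathlib
import Cfsg.Prelude.Def_GeometricClasses

/-!
The standard generators of the normaliser of an extraspecial subgroup of order `27` in `GL₃`.
-/

set_option autoImplicit false

namespace Cfsg.Agent.H48.C6Three

open Matrix

variable {F : Type*} [Field F]

/-- `diag (1, ω, ω²)`. -/
def matD (ω : F) : Matrix (Fin 3) (Fin 3) F := !![1, 0, 0; 0, ω, 0; 0, 0, ω ^ 2]

/-- The cyclic shift of the basis. -/
def matP : Matrix (Fin 3) (Fin 3) F := !![0, 0, 1; 1, 0, 0; 0, 1, 0]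

/-- The involution `z` inverting `matD` and `matP`. -/
def matZ : Matrix (Fin 3) (Fin 3) F := !![-1, 0, 0; 0, 0, -1; 0, -1, 0]

/-- The Fourier matrix, of order `4`, with square `matZ`. -/
def matF (ω : F) : Matrix (Fin 3) (Fin 3) F :=
  (1 + 2 * ω)⁻¹ • !![1, 1, 1; 1, ω, ω ^ 2; 1, ω ^ 2, ω]

/-- `diag (1, ω, ω)`. -/
def matE (ω : F) : Matrix (Fin 3) (Fin 3) F := !![1, 0, 0; 0, ω, 0; 0, 0, ω]

/-- The conjugate of `matF` by `matE`; again of order `4` with square `matZ`. -/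
def matG (ω : F) : Matrix (Fin 3) (Fin 3) F := matE ω * matF ω * matE (ω ^ 2)

/-- The other conjugate of `matF` by `matE`. -/
def matH (ω : F) : Matrix (Fin 3) (Fin 3) F := matE (ω ^ 2) * matF ω * matE ω

/-- `M` contains the standard generators of `3^(1+2) : Q₈`. -/
structure HasStdGens (ω : F) (M : Subgroup (GL (Fin 3) F)) : Prop where
  hD : ∃ g ∈ M, (g : Matrix (Fin 3) (Fin 3) F) = matD ω
  hP : ∃ g ∈ M, (g : Matrix (Fin 3) (Fin 3) F) = matP
  hF : ∃ g ∈ M, (g : Matrix (Fin 3) (Fin 3) F) = matF ω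
  hG : ∃ g ∈ M, (g : Matrix (Fin 3) (Fin 3) F) = matG ω
  hH : ∃ g ∈ M, (g : Matrix (Fin 3) (Fin 3) F) = matH ω
  hZ : ∃ g ∈ M, (g : Matrix (Fin 3) (Fin 3) F) = matZ

/-- `g` is a transvection: `1 + v φ` with `φ v = 0`, different from `1`. -/
def IsTransv (g : GL (Fin 3) F) : Prop :=
  g ≠ 1 ∧ ∃ v φ : Fin 3 → F, φ ⬝ᵥ v = 0 ∧
    (g : Matrix (Fin 3) (Fin 3) F) = 1 + vecMulVec v φ

end Cfsg.Agent.H48.C6Three
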