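import Mathlib
import Cfsg.Prelude.Def_CaseTheorems

/-!
The abstract data carried by a putative overgroup, modulo scalars, of the normaliser of an extraspecial
subgroup of order `27` in a three-dimensional special linear or unitary group.
-/

set_option autoImplicit false

namespace Cfsg.Agent.H48.C6Three

/-- A finite group without solvable normal subgroups, with an involution `z` whose centralizer contains a
quaternion group `Q`, and an elementary abelian group `R` of order `9` inverted by `z`. -/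
structure LocalData (G : Type*) [Group G] [Finite G] where
  z : G
  Q : Subgroup G
  R : Subgroup G
  z_order : orderOf z = 2
  eQ : Nonempty (↥Q ≃* QuaternionGroup 2)
  z_mem : z ∈ Q
  Q_le : Q ≤ Subgroup.centralizer ({z} : Set G)
  noSolvable : ∀ N : Subgroup G, N.Normal → Group.IsSolvable ↥N → N = ⊥
  centQ : ∀ x ∈ Subgroup.centralizer (Q : Set G), (∃ j : ℕ, orderOf x = 2 ^ j) → x ∈ Q
  autQ : ∀ x ∈ Subgroup.normalizer (Q : Set G), ∀ y ∈ Subgroup.normalizer (Q : Set G), ∀ q ∈ Q,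
    (x * y * x⁻¹ * y⁻¹) * q * (x * y * x⁻¹ * y⁻¹)⁻¹ = q ∨
      (x * y * x⁻¹ * y⁻¹) * q * (x * y * x⁻¹ * y⁻¹)⁻¹ = q * z
  oddRot : ∀ a ∈ Subgroup.centralizer ({z} : Set G), a ^ 4 = z → ∀ O : Subgroup G,
    O ≤ Subgroup.centralizer ({z} : Set G) → Odd (Nat.card ↥O) →
    (∀ c ∈ Subgroup.centralizer ({z} : Set G), ∀ y ∈ O, c * y * c⁻¹ ∈ O) →
    ∀ y ∈ O, y * a ^ 2 = a ^ 2 * y
  fourFix : ∀ u k k' y : G, orderOf u = 2 → u ≠ z → z * u = u * z → k * z = z * k →
    k * u * k⁻¹ = z * u → k' * u = u * k' → k' * z * k'⁻¹ = z * u → Odd (orderOf y) →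
    y * z = z * y → y * u = u * y → y * k = k * y → y * k' = k' * y → y = 1
  centAbelian : ∀ u y : G, orderOf u = 2 → u * z = z * u → y * z = z * y → Odd (orderOf y) → y ≠ 1 →
    u * y * u⁻¹ = y⁻¹ →
    ∀ a b : G, orderOf a = 2 → orderOf b = 2 → a * y = y * a → b * y = y * b → a * b = b * a
  R_card : Nat.card ↥R = 9
  R_three : ∀ r ∈ R, r ^ 3 = 1
  R_comm : ∀ r ∈ R, ∀ s ∈ R, r * s = s * r
  R_inv : ∀ r ∈ R, z * r * z⁻¹ = r⁻¹
  abelianOver : ∀ A : Subgroup G, R ≤ A → (∀ a ∈ A, ∀ b ∈ A, a * b = b * a) → Nat.card ↥A ≤ 9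
  five : ∀ g : G, orderOf g = 5 → ¬ IsConj g (g ^ 2)

end Cfsg.Agent.H48.C6Three
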