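import Cfsg.Agent.H48.C6Three.LocalData

/-!
The only surviving fusion pattern for the local data: semidihedral Sylow `2`-subgroups, one class of
involutions and a subgroup of index `2` with dihedral Sylow `2`-subgroups.
-/

set_option autoImplicit false

namespace Cfsg.Agent.H48.C6Three

variable {G : Type*} [Group G] [Finite G]

/-- The surviving fusion pattern. -/
def LocalData.DihedralCase (d : LocalData G) : Prop :=
  ∃ S : Sylow 2 G, d.Q ≤ (S : Subgroup G) ∧ Cfsg.IsQuasiDihedral (S : Subgroup G) ∧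
    (∀ s ∈ (S : Subgroup G), s * d.z = d.z * s) ∧
    (∀ u : G, orderOf u = 2 → IsConj d.z u) ∧
    ∃ K : Subgroup G, K.Normal ∧ K.index = 2 ∧
      ∀ P : Sylow 2 ↥K, ∃ m : ℕ, Nonempty ((P : Subgroup ↥K) ≃* DihedralGroup m)

end Cfsg.Agent.H48.C6Three
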