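import Cfsg.Agent.H48.C6Three.StdR

/-!
Normal form of an absolutely irreducible group of order `27` and exponent `3` in `GL₃`, the standard
generators of its normaliser, and properness of this normaliser in the special linear and special
unitary groups.
-/

set_option autoImplicit false

namespace Cfsg.Agent.H48.C6Three

open Matrix

variable {F : Type*} [Field F]

local notation "M3" => Matrix (Fin 3) (Fin 3) F
local notation "G3" => GL (Fin 3) F

section Algebra

variable {ω : F} (hω : ω ^ 2 + ω + 1 = 0)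

include hω

lemma cube_root : ω ^ 3 = 1 := by linear_combination (ω - 1) * hω

lemma root_ne_one (h3 : (3 : F) ≠ 0) : ω ≠ 1 := by
  rintro rfl
  exact h3 (by linear_combination hω)

lemma one_add_two_ne (h3 : (3 : F) ≠ 0) : (1 + 2 * ω : F) ≠ 0 := fun h =>
  h3 (by linear_combination (-(1 + 2 * ω)) * h + 4 * hω)

lemma det_matD : (matD ω).det = 1 := by
  simp [matD, det_fin_three, Matrix.vecHead, Matrix.vecTail]
  linear_combination cube_root hω

lemma det_matF (h3 : (3 : F) ≠ 0) : (matF ω).det = 1 := by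
  have hs := one_add_two_ne hω h3
  rw [matF, det_smul, Fintype.card_fin]
  have e : (!![1, 1, 1; 1, ω, ω ^ 2; 1, ω ^ 2, ω] : M3).det = (1 + 2 * ω) ^ 3 := by
    simp [det_fin_three, Matrix.vecHead, Matrix.vecTail]
    grind
  rw [e, ← mul_pow, inv_mul_cancel₀ hs, one_pow]

lemma matD_mul_matP : matD ω * matP = ω • (matP * matD ω) := by
  ext i j
  fin_cases i <;> fin_cases j <;> simp [matD, matP, Matrix.mul_apply, Fin.sum_univ_three] <;>
    grind

lemma matP_mul_matD : matP * matD ω = ω ^ 2 • (matD ω * matP) := by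
  rw [matD_mul_matP hω, smul_smul, show ω ^ 2 * ω = 1 by linear_combination cube_root hω, one_smul]

lemma matZ_mul_matD : matZ * matD ω = matD ω * matD ω * (matZ : M3) := by
  ext i j
  fin_cases i <;> fin_cases j <;> simp [matD, matZ, Matrix.mul_apply, Fin.sum_univ_three] <;>
    grind

omit hω in
lemma matZ_mul_matP : (matZ : M3) * matP = matP * matP * matZ := by
  ext i j
  fin_cases i <;> fin_cases j <;> simp [matP, matZ, Matrix.mul_apply, Fin.sum_univ_three]

lemma matF_mul_matP : matF ω * matP = matD ω * matF ω := by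
  ext i j
  fin_cases i <;> fin_cases j <;> simp [matF, matD, matP, Matrix.mul_apply, Fin.sum_univ_three] <;>
    grind

lemma matF_mul_matD : matF ω * matD ω = matP * matP * matF ω := by
  ext i j
  fin_cases i <;> fin_cases j <;> simp [matF, matD, matP, Matrix.mul_apply, Fin.sum_univ_three] <;>
    grind

lemma matE_mul_matP : matE ω * matP = ω • (matP * matD ω * matD ω * matE ω) := by
  ext i j
  fin_cases i <;> fin_cases j <;>
    simp [matE, matD, matP, Matrix.mul_apply, Fin.sum_univ_three] <;>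
    grind

lemma matE_mul_inv : matE ω * matE (ω ^ 2) = 1 := by
  ext i j
  fin_cases i <;> fin_cases j <;> simp [matE, Matrix.mul_apply, Fin.sum_univ_three] <;>
    linear_combination cube_root hω

end Algebra

/-- `M` is the matrix of an element of `stdR ω`. -/
def InR (ω : F) (M : M3) : Prop := ∃ g ∈ stdR ω, (g : M3) = M

lemma InR.mul {ω : F} {A B : M3} (hA : InR ω A) (hB : InR ω B) : InR ω (A * B) := by
  obtain ⟨a, ha, rfl⟩ := hA
  obtain ⟨b, hb, rfl⟩ := hB
  exact ⟨a * b, mul_mem ha hb, rfl⟩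

section Std

variable {ω : F} (hω : ω ^ 2 + ω + 1 = 0)

include hω

lemma exists_unit_D : ∃ g : G3, (g : M3) = matD ω :=
  ⟨GeneralLinearGroup.mkOfDetNeZero (matD ω) (by rw [det_matD hω]; exact one_ne_zero), rfl⟩

omit hω in
lemma exists_unit_P : ∃ g : G3, (g : M3) = matP :=
  ⟨GeneralLinearGroup.mkOfDetNeZero matP (by simp [matP, det_fin_three]), rfl⟩

lemma inR_D : InR ω (matD ω) := by
  obtain ⟨g, hg⟩ := exists_unit_D hω
  exact ⟨g, Subgroup.subset_closure (Or.inl hg), hg⟩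

omit hω in
lemma inR_P : InR ω (matP : M3) := by
  obtain ⟨g, hg⟩ := exists_unit_P (F := F)
  exact ⟨g, Subgroup.subset_closure (Or.inr hg), hg⟩

lemma inR_scalar : InR ω (ω • (1 : M3)) := by
  obtain ⟨d, hd⟩ := exists_unit_D hω
  obtain ⟨p, hp⟩ := exists_unit_P (F := F)
  refine ⟨d * p * (p * d)⁻¹, mul_mem (mul_mem (Subgroup.subset_closure (Or.inl hd))
    (Subgroup.subset_closure (Or.inr hp))) (inv_mem (mul_mem (Subgroup.subset_closure (Or.inr hp))
    (Subgroup.subset_closure (Or.inl hd)))), ?_⟩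
  have h : ((d * p : G3) : M3) = ω • ((p * d : G3) : M3) := by
    rw [Units.val_mul, Units.val_mul, hd, hp, matD_mul_matP hω]
  rw [Units.val_mul, h, smul_mul_assoc, ← Units.val_mul, mul_inv_cancel, Units.val_one]

lemma InR.smul {A : M3} (hA : InR ω A) : InR ω (ω • A) := by
  simpa using (inR_scalar hω).mul hA

variable [Finite F]

omit hω in
/-- An element moving both generators into the group normalises it. -/
lemma mem_normalizer_of_moves (g : G3) {A B : M3} (hA : InR ω A) (hB : InR ω B)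
    (hD : (g : M3) * matD ω = A * (g : M3)) (hP : (g : M3) * matP = B * (g : M3)) :
    g ∈ Cfsg.Geo.subgroupNormalizer (stdR ω) := by
  have hle : (stdR ω).map (MulAut.conj g).toMonoidHom ≤ stdR ω := by
    rw [Subgroup.map_le_iff_le_comap, stdR, Subgroup.closure_le]
    rintro x (hx | hx)
    · obtain ⟨a, ha, hav⟩ := hA
      have e : g * x = a * g := Units.ext (by rw [Units.val_mul, Units.val_mul, hx, hav, hD])
      have e' : g * x * g⁻¹ = a := by rw [e, mul_inv_cancel_right]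
      simpa [e', stdR] using ha
    · obtain ⟨a, ha, hav⟩ := hB
      have e : g * x = a * g := Units.ext (by rw [Units.val_mul, Units.val_mul, hx, hav, hP])
      have e' : g * x * g⁻¹ = a := by rw [e, mul_inv_cancel_right]
      simpa [e', stdR] using ha
  have heq := Subgroup.eq_of_le_of_card_ge hle
    (Subgroup.card_map_of_injective (K := stdR ω) (MulEquiv.injective (MulAut.conj g))).ge
  refine Subgroup.mem_normalizer_iff.2 fun x => ⟨fun hx => ?_, fun hx => ?_⟩
  · exact hle ⟨x, hx, rfl⟩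
  · rw [← heq] at hx
    obtain ⟨y, hy, hyx⟩ := hx
    have : y = x := MulEquiv.injective (MulAut.conj g) hyx
    exact this ▸ hy

lemma matD_normalizes (g : G3) (hg : (g : M3) = matD ω) :
    g ∈ Cfsg.Geo.subgroupNormalizer (stdR ω) :=
  mem_normalizer_of_moves g (inR_D hω) ((inR_P (ω := ω)).smul hω) (by rw [hg])
    (by rw [hg, matD_mul_matP hω, smul_mul_assoc])

lemma matP_normalizes (g : G3) (hg : (g : M3) = matP) :
    g ∈ Cfsg.Geo.subgroupNormalizer (stdR ω) :=
  mem_normalizer_of_moves g (((inR_D hω).smul hω).smul hω) (inR_P (ω := ω))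
    (by rw [hg, matP_mul_matD hω, smul_smul, smul_mul_assoc, pow_two]) (by rw [hg])

lemma matZ_normalizes (g : G3) (hg : (g : M3) = matZ) :
    g ∈ Cfsg.Geo.subgroupNormalizer (stdR ω) :=
  mem_normalizer_of_moves g ((inR_D hω).mul (inR_D hω)) ((inR_P (ω := ω)).mul inR_P)
    (by rw [hg, matZ_mul_matD hω]) (by rw [hg, matZ_mul_matP])

lemma matF_normalizes (g : G3) (hg : (g : M3) = matF ω) :
    g ∈ Cfsg.Geo.subgroupNormalizer (stdR ω) :=
  mem_normalizer_of_moves g ((inR_P (ω := ω)).mul inR_P) (inR_D hω)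
    (by rw [hg, matF_mul_matD hω]) (by rw [hg, matF_mul_matP hω])

lemma matE_normalizes (g : G3) (hg : (g : M3) = matE ω) :
    g ∈ Cfsg.Geo.subgroupNormalizer (stdR ω) :=
  mem_normalizer_of_moves g (inR_D hω)
    ((((inR_P (ω := ω)).mul (inR_D hω)).mul (inR_D hω)).smul hω)
    (by
      rw [hg]
      ext i j
      fin_cases i <;> fin_cases j <;> simp [matE, matD, Matrix.mul_apply, Fin.sum_univ_three, mul_comm])
    (by rw [hg, matE_mul_matP hω, smul_mul_assoc])

/-- The standard generators lie in the normaliser inside every normal subgroup containing those of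
the first kind. -/
theorem hasStdGens_of (h3 : (3 : F) ≠ 0) (H : Subgroup G3)
    (hD : ∀ g : G3, (g : M3) = matD ω → g ∈ H) (hP : ∀ g : G3, (g : M3) = matP → g ∈ H)
    (hZ : ∀ g : G3, (g : M3) = matZ → g ∈ H) (hF : ∀ g : G3, (g : M3) = matF ω → g ∈ H)
    (hE : ∀ e f : G3, (e : M3) = matE ω → f ∈ H → e * f * e⁻¹ ∈ H ∧ e⁻¹ * f * e ∈ H) :
    HasStdGens ω (Cfsg.Geo.subgroupNormalizer (stdR ω) ⊓ H) := by
  obtain ⟨d, hd⟩ := exists_unit_D hω
  obtain ⟨p, hp⟩ := exists_unit_P (F := F)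
  obtain ⟨z, hz⟩ : ∃ z : G3, (z : M3) = matZ :=
    ⟨GeneralLinearGroup.mkOfDetNeZero matZ (by simp [matZ, det_fin_three]), rfl⟩
  obtain ⟨f, hf⟩ : ∃ f : G3, (f : M3) = matF ω :=
    ⟨GeneralLinearGroup.mkOfDetNeZero (matF ω) (by rw [det_matF hω h3]; exact one_ne_zero), rfl⟩
  obtain ⟨e, he⟩ : ∃ e : G3, (e : M3) = matE ω :=
    ⟨⟨matE ω, matE (ω ^ 2), matE_mul_inv hω, mul_eq_one_comm.1 (matE_mul_inv hω)⟩, rfl⟩
  have hei : ((e⁻¹ : G3) : M3) = matE (ω ^ 2) := by
    calc ((e⁻¹ : G3) : M3) = ((e⁻¹ : G3) : M3) * ((e : M3) * matE (ω ^ 2)) := by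
          rw [he, matE_mul_inv hω, mul_one]
      _ = matE (ω ^ 2) := by rw [← mul_assoc, Units.inv_mul, one_mul]
  have hfN := matF_normalizes hω f hf
  have heN := matE_normalizes hω e he
  refine ⟨⟨d, ⟨matD_normalizes hω d hd, hD d hd⟩, hd⟩, ⟨p, ⟨matP_normalizes hω p hp, hP p hp⟩, hp⟩,
    ⟨f, ⟨hfN, hF f hf⟩, hf⟩,
    ⟨e * f * e⁻¹, Subgroup.mem_inf.2 ⟨mul_mem (mul_mem heN hfN) (inv_mem heN), (hE e f he (hF f hf)).1⟩, ?_⟩,
    ⟨e⁻¹ * f * e, Subgroup.mem_inf.2 ⟨mul_mem (mul_mem (inv_mem heN) hfN) heN, (hE e f he (hF f hf)).2⟩, ?_⟩,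
    ⟨z, ⟨matZ_normalizes hω z hz, hZ z hz⟩, hz⟩⟩
  · rw [Units.val_mul, Units.val_mul, he, hf, hei, matG]
  · rw [Units.val_mul, Units.val_mul, he, hf, hei, matH]

omit hω [Finite F] in
lemma mem_specialLinear_iff {g : G3} :
    g ∈ Cfsg.Geo.specialLinear (Fin 3) F ↔ (g : M3).det = 1 := by
  rw [Cfsg.Geo.specialLinear, MonoidHom.mem_ker, Units.ext_iff]
  rfl

omit hω [Finite F] in
lemma det_matP : (matP : M3).det = 1 := by simp [matP, det_fin_three]

omit hω [Finite F] in
lemma det_matZ : (matZ : M3).det = 1 := by simp [matZ, det_fin_three]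

omit hω [Finite F] in
lemma conj_mem_specialLinear (e : G3) {f : G3} (hf : f ∈ Cfsg.Geo.specialLinear (Fin 3) F) :
    e * f * e⁻¹ ∈ Cfsg.Geo.specialLinear (Fin 3) F := by
  unfold Cfsg.Geo.specialLinear at hf ⊢
  exact (MonoidHom.normal_ker _).conj_mem f hf e

theorem hasStdGens_sl (h3 : (3 : F) ≠ 0) :
    HasStdGens ω (Cfsg.Geo.subgroupNormalizer (stdR ω) ⊓ Cfsg.Geo.specialLinear (Fin 3) F) :=
  hasStdGens_of hω h3 _ (fun g hg => mem_specialLinear_iff.2 (by rw [hg, det_matD hω]))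
    (fun g hg => mem_specialLinear_iff.2 (by rw [hg, det_matP]))
    (fun g hg => mem_specialLinear_iff.2 (by rw [hg, det_matZ]))
    (fun g hg => mem_specialLinear_iff.2 (by rw [hg, det_matF hω h3]))
    (fun e f _ hf => ⟨conj_mem_specialLinear e hf, by simpa using conj_mem_specialLinear e⁻¹ hf⟩)

end Std

section Normal

/-- The subgroup of elements commuting with `A` up to a scalar. -/
lemma stdR_semicomm {ω : F} (hω : ω ^ 2 + ω + 1 = 0) [Finite F] {A : M3}
    (hA : A = matD ω ∨ A = matP) {g : G3} (hg : g ∈ stdR ω) :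
    ∃ c : F, (g : M3) * A = c • (A * g) := by
  have hfin : Finite G3 := inferInstance
  have hle : (stdR ω).toSubmonoid ≤
      ({ carrier := {x : G3 | ∃ c : F, (x : M3) * A = c • (A * x)}
         one_mem' := ⟨1, by simp⟩
         mul_mem' := fun {x y} hx hy => by
           obtain ⟨c, hc⟩ := hx
           obtain ⟨d, hd⟩ := hy
           refine ⟨d * c, ?_⟩
           rw [Units.val_mul, mul_assoc, hd, mul_smul_comm, ← mul_assoc, hc, smul_mul_assoc,
             smul_smul, mul_assoc] } : Submonoid G3) := by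
    rw [stdR, Subgroup.closure_toSubmonoid_of_finite, Submonoid.closure_le]
    rintro x (hx | hx) <;> rcases hA with rfl | rfl
    · exact ⟨1, by rw [hx, one_smul]⟩
    · exact ⟨ω, by rw [hx, matD_mul_matP hω]⟩
    · exact ⟨ω ^ 2, by rw [hx, matP_mul_matD hω]⟩
    · exact ⟨1, by rw [hx, one_smul]⟩
  exact hle hg

variable [Fintype F]

theorem sl_strict {ω : F} (hω : ω ^ 2 + ω + 1 = 0) (h3 : (3 : F) ≠ 0) :
    Cfsg.Geo.subgroupNormalizer (stdR ω) ⊓ Cfsg.Geo.specialLinear (Fin 3) F <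
      Cfsg.Geo.specialLinear (Fin 3) F := by
  refine lt_of_le_of_ne inf_le_right fun e => ?_
  have hT : (!![1, 1, 0; 0, 1, 0; 0, 0, 1] : M3).det = 1 := by simp [det_fin_three]
  let t : G3 := GeneralLinearGroup.mkOfDetNeZero !![1, 1, 0; 0, 1, 0; 0, 0, 1]
    (by rw [hT]; exact one_ne_zero)
  have ht : t ∈ Cfsg.Geo.specialLinear (Fin 3) F := mem_specialLinear_iff.2 hT
  rw [← e] at ht
  obtain ⟨d, hd⟩ := exists_unit_D hω
  have hx := (Subgroup.mem_normalizer_iff.1 ht.1 d).1 (Subgroup.subset_closure (Or.inl hd))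
  obtain ⟨c, hc⟩ := stdR_semicomm hω (Or.inl rfl) hx
  have hprod : ((t * d * t⁻¹ : G3) : M3) = !![1, ω - 1, 0; 0, ω, 0; 0, 0, ω ^ 2] := by
    have : t * d * t⁻¹ * t = t * d := inv_mul_cancel_right _ _
    have h1 : ((t * d * t⁻¹ : G3) : M3) * (t : M3) =
        !![1, ω - 1, 0; 0, ω, 0; 0, 0, ω ^ 2] * (t : M3) := by
      rw [← Units.val_mul, this, Units.val_mul, hd]
      ext i j
      fin_cases i <;> fin_cases j <;> simp [t, matD, Matrix.mul_apply, Fin.sum_univ_three]
    exact (Units.mul_left_inj t).1 h1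
  rw [hprod] at hc
  have h00 := congrFun (congrFun hc 0) 0
  have h01 := congrFun (congrFun hc 0) 1
  simp [matD, Matrix.mul_apply, Fin.sum_univ_three] at h00 h01
  rw [← h00, one_mul] at h01
  exact root_ne_one hω h3 (mul_left_cancel₀ (sub_ne_zero.2 (root_ne_one hω h3))
    (by linear_combination h01))

/-- The normal form in `GL₃`, with the data needed for the forms. -/
theorem exists_normal_basis (R : Subgroup G3) (h27 : Nat.card R = 27) (hexp : ∀ r ∈ R, r ^ 3 = 1)
    (hc : Nat.card (Subgroup.center R) = 3)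
    (hirr : Cfsg.Geo.ActsAbsolutelyIrreducibly (Cfsg.Geo.matrixSet R)) (h3 : (3 : F) ≠ 0) :
    ∃ ω : F, ω ^ 2 + ω + 1 = 0 ∧ ∃ (A : G3) (x y : G3), x ∈ R ∧ y ∈ R ∧
      (x : M3) * ((A⁻¹ : G3) : M3) = ((A⁻¹ : G3) : M3) * matD ω ∧
        (y : M3) * ((A⁻¹ : G3) : M3) = ((A⁻¹ : G3) : M3) * matP ∧
      R.map (MulAut.conj A).toMonoidHom = stdR ω := by
  classical
  have : Fact (Nat.Prime 3) := ⟨Nat.prime_three⟩
  have scal : ∀ z ∈ Subgroup.center R, ∃ a : F, ((z : G3) : M3) = a • 1 := fun z hz =>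
    hirr.2 _ (by
      rintro _ ⟨r, hr, rfl⟩
      have := congrArg (fun t : R => ((t : G3) : M3)) (Subgroup.mem_center_iff.1 hz ⟨r, hr⟩)
      simpa using this.symm)
  obtain ⟨r, s, hrs⟩ : ∃ r s : R, r * s ≠ s * r := by
    by_contra! h
    have : Subgroup.center R = ⊤ := eq_top_iff.2 fun z _ => Subgroup.mem_center_iff.2 fun g => h g z
    rw [this, Subgroup.card_top, h27] at hc
    omega
  have hp : IsPGroup 3 R := IsPGroup.of_card (n := 3) (by rw [h27]; norm_num)
  have hcomm : r * s * (s * r)⁻¹ ∈ Subgroup.center R := by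
    have hq : Nat.card (R ⧸ Subgroup.center R) = 3 ^ 2 := by
      have := (Subgroup.center R).card_eq_card_quotient_mul_card_subgroup
      rw [h27, hc] at this
      omega
    have hab := IsPGroup.commutative_of_card_eq_prime_sq hq
    rw [← QuotientGroup.eq_one_iff, QuotientGroup.mk_mul, QuotientGroup.mk_inv, QuotientGroup.mk_mul,
      QuotientGroup.mk_mul, hab (s : R ⧸ Subgroup.center R) r, mul_inv_cancel]
  obtain ⟨a, ha⟩ := scal _ hcomm
  have hrel : ((r : G3) : M3) * ((s : G3) : M3) = a • (((s : G3) : M3) * ((r : G3) : M3)) := by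
    have h1 : r * s = r * s * (s * r)⁻¹ * (s * r) := (inv_mul_cancel_right _ _).symm
    have h2 := congrArg (fun t : R => ((t : G3) : M3)) h1
    simp only [Subgroup.coe_mul, Units.val_mul] at h2 ha
    rw [h2, ha, smul_mul_assoc, one_mul]
  have ha3 : a ^ 3 = 1 := by
    have h1 := congrArg (fun t : G3 => (t : M3)) (hexp _ (r * s * (s * r)⁻¹ : R).2)
    simp only [Units.val_pow_eq_pow_val, Units.val_one, ha, smul_pow, one_pow] at h1
    simpa using congrFun (congrFun h1 0) 0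
  have ha1 : a ≠ 1 := by
    rintro rfl
    rw [one_smul] at hrel
    exact hrs (Subtype.ext (Units.ext (by simpa using hrel)))
  have hω : a ^ 2 + a + 1 = 0 := by
    rcases mul_eq_zero.1 (show (a - 1) * (a ^ 2 + a + 1) = 0 by linear_combination ha3) with h | h
    · exact absurd (sub_eq_zero.1 h) ha1
    · exact h
  refine ⟨a, hω, ?_⟩
  set X : M3 := ((r : G3) : M3) with hX
  set Y : M3 := ((s : G3) : M3) with hY
  have hX3 : X ^ 3 = 1 := by rw [hX, ← Units.val_pow_eq_pow_val, hexp _ r.2, Units.val_one]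
  have hY3 : Y ^ 3 = 1 := by rw [hY, ← Units.val_pow_eq_pow_val, hexp _ s.2, Units.val_one]
  have hXY : ∀ (v : Fin 3 → F) (c : F), X *ᵥ v = c • v → X *ᵥ (Y *ᵥ v) = (a * c) • (Y *ᵥ v) :=
    fun v c hv => by
      rw [mulVec_mulVec, hrel, smul_mulVec, ← mulVec_mulVec, hv, mulVec_smul, smul_smul]
  have hX3' : ∀ w : Fin 3 → F, X *ᵥ (X *ᵥ (X *ᵥ w)) = w := fun w => by
    rw [mulVec_mulVec, mulVec_mulVec, ← pow_two, ← pow_succ, hX3, one_mulVec]
  have hY3' : ∀ w : Fin 3 → F, Y *ᵥ (Y *ᵥ (Y *ᵥ w)) = w := fun w => by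
    rw [mulVec_mulVec, mulVec_mulVec, ← pow_two, ← pow_succ, hY3, one_mulVec]
  -- the three spectral projections
  let E : F → (Fin 3 → F) → (Fin 3 → F) := fun c w => w + c • (X *ᵥ w) + (c ^ 2) • (X *ᵥ (X *ᵥ w))
  have hE : ∀ (c : F) (w : Fin 3 → F), c ^ 3 = 1 → X *ᵥ E c w = c ^ 2 • E c w := fun c w hc' => by
    simp only [E, mulVec_add, mulVec_smul, hX3', smul_add, smul_smul]
    rw [show c ^ 2 * c = 1 by linear_combination hc', show c ^ 2 * c ^ 2 = c by linear_combination c * hc',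
      one_smul]
    abel
  have ha6 : (a ^ 2) ^ 3 = 1 := by rw [← pow_mul, mul_comm, pow_mul, ha3, one_pow]
  obtain ⟨v, hv0, hv⟩ : ∃ v : Fin 3 → F, v ≠ 0 ∧ X *ᵥ v = v := by
    have hw : (Pi.single 0 1 : Fin 3 → F) ≠ 0 := by simp
    set w : Fin 3 → F := Pi.single 0 1
    by_cases h1 : E 1 w = 0
    · by_cases h2 : E a w = 0
      · have h3' : E (a ^ 2) w ≠ 0 := fun h => by
          refine hw ((smul_eq_zero.1 (?_ : (3 : F) • w = 0)).resolve_left h3)
          have e : E 1 w + E a w + E (a ^ 2) w = (3 : F) • w + (1 + a + a ^ 2) • (X *ᵥ w) +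
              (1 + a ^ 2 + a ^ 4) • (X *ᵥ (X *ᵥ w)) := by
            simp only [E]; module
          rw [h1, h2, h, show (1 + a + a ^ 2 : F) = 0 by linear_combination hω,
            show (1 + a ^ 2 + a ^ 4 : F) = 0 by linear_combination (a ^ 2 - a + 1) * hω] at e
          simpa using e.symm
        -- eigenvalue `a⁴ = a`
        refine ⟨Y *ᵥ (Y *ᵥ E (a ^ 2) w), fun h => h3' ?_, ?_⟩
        · rw [← hY3' (E (a ^ 2) w), h, mulVec_zero]
        · have e1 := hE (a ^ 2) w ha6
          rw [show (a ^ 2) ^ 2 = a by linear_combination a * ha3] at e1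
          rw [hXY _ _ (hXY _ _ e1), show a * (a * a) = 1 by linear_combination ha3, one_smul]
      · -- eigenvalue `a²`
        refine ⟨Y *ᵥ E a w, fun h => h2 ?_, ?_⟩
        · rw [← hY3' (E a w), h, mulVec_zero, mulVec_zero]
        · rw [hXY _ _ (hE a w ha3), show a * a ^ 2 = 1 by linear_combination ha3, one_smul]
    · exact ⟨E 1 w, h1, by rw [hE 1 w (one_pow 3), one_pow, one_smul]⟩
  set v1 := Y *ᵥ v with hv1
  set v2 := Y *ᵥ v1 with hv2
  have e1 : X *ᵥ v1 = a • v1 := by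
    have := hXY v 1 (by rw [one_smul]; exact hv)
    rwa [mul_one] at this
  have e2 : X *ᵥ v2 = a ^ 2 • v2 := by rw [hv2, hXY v1 a e1, pow_two]
  have e3 : Y *ᵥ v2 = v := hY3' v
  let B : M3 := Matrix.of fun i j => ![v, v1, v2] j i
  have hBv : ∀ u : Fin 3 → F, B *ᵥ u = u 0 • v + u 1 • v1 + u 2 • v2 := fun u => by
    ext i
    simp [B, mulVec, dotProduct, Fin.sum_univ_three, mul_comm]
  have hBdet : B.det ≠ 0 := fun h => by
    obtain ⟨u, hu0, hu⟩ := exists_mulVec_eq_zero_iff.2 h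
    rw [hBv] at hu
    have h1 := congrArg (X *ᵥ ·) hu
    have h2 := congrArg (fun w => X *ᵥ (X *ᵥ w)) hu
    simp only [mulVec_add, mulVec_smul, hv, e1, e2, mulVec_zero, smul_smul] at h1 h2
    have k0 : (3 * u 0) • v = 0 := by
      have : (3 * u 0) • v + ((1 + a + a ^ 2) * u 1) • v1 + ((1 + a ^ 2 + a ^ 4) * u 2) • v2 = 0 := by
        linear_combination (norm := module) hu + h1 + h2
      rw [show (1 + a + a ^ 2 : F) = 0 by linear_combination hω,
        show (1 + a ^ 2 + a ^ 4 : F) = 0 by linear_combination (a ^ 2 - a + 1) * hω] at this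
      simpa using this
    have u0 : u 0 = 0 := by simpa [hv0, h3] using k0
    have hv1' : v1 ≠ 0 := fun h' => hv0 (by rw [← e3, hv2, h', mulVec_zero, mulVec_zero])
    have hv2' : v2 ≠ 0 := fun h' => hv0 (by rw [← e3, h', mulVec_zero])
    simp only [u0, zero_smul, zero_mul, zero_add] at hu h1
    have k1 : ((a - a ^ 2) * u 1) • v1 = 0 := by
      linear_combination (norm := module) h1 - a ^ 2 • hu
    have haa : a - a ^ 2 ≠ 0 := fun h' => by
      rcases mul_eq_zero.1 (show a * (1 - a) = 0 by linear_combination h') with h'' | h''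
      · exact one_ne_zero (show (1 : F) = 0 by rw [← ha3, h'']; norm_num)
      · exact ha1 (sub_eq_zero.1 h'').symm
    have u1 : u 1 = 0 := by simpa [hv1', haa] using k1
    have u2 : u 2 = 0 := by simpa [u1, hv2'] using hu
    exact hu0 (funext fun i => by fin_cases i <;> assumption)
  let Bu : G3 := GeneralLinearGroup.mkOfDetNeZero B hBdet
  have hXB : X * (Bu : M3) = (Bu : M3) * matD a := by
    ext i j
    have c0 := congrFun hv i
    have c1 := congrFun e1 i
    have c2 := congrFun e2 i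
    simp [mulVec, dotProduct, Fin.sum_univ_three] at c0 c1 c2
    fin_cases j <;> simp [Bu, B, matD, Matrix.mul_apply, Fin.sum_univ_three]
    · exact c0
    · rw [c1, mul_comm]
    · rw [c2, mul_comm]
  have hYB : Y * (Bu : M3) = (Bu : M3) * matP := by
    ext i j
    have c0 := congrFun hv1 i
    have c1 := congrFun hv2 i
    have c2 := congrFun e3 i
    simp [mulVec, dotProduct, Fin.sum_univ_three] at c0 c1 c2
    fin_cases j <;> simp [Bu, B, matP, Matrix.mul_apply, Fin.sum_univ_three]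
    · exact c0.symm
    · exact c1.symm
    · exact c2
  refine ⟨Bu⁻¹, r, s, r.2, s.2, by rw [inv_inv]; exact hXB, by rw [inv_inv]; exact hYB, ?_⟩
  have hgen : R = Subgroup.closure {(r : G3), (s : G3)} := by
    set K := Subgroup.closure {(r : G3), (s : G3)}
    have hK : K ≤ R := by
      rw [Subgroup.closure_le]
      rintro x (rfl | rfl)
      exacts [r.2, s.2]
    refine (Subgroup.eq_of_le_of_card_ge hK ?_).symm
    by_contra hlt
    rw [h27] at hlt
    have hd : Nat.card K ∣ 3 ^ 3 := by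
      have := Subgroup.card_dvd_of_le hK
      rwa [h27] at this
    obtain ⟨i, hi, hcard⟩ := (Nat.dvd_prime_pow Nat.prime_three).1 hd
    suffices h : (r : G3) * s = s * r from hrs (Subtype.ext h)
    have hr : (r : G3) ∈ K := Subgroup.subset_closure (Or.inl rfl)
    have hs : (s : G3) ∈ K := Subgroup.subset_closure (Or.inr rfl)
    interval_cases i
    · have : Subsingleton K := (Nat.card_eq_one_iff_unique.1 hcard).1
      exact congrArg K.subtype (Subsingleton.elim (⟨r, hr⟩ * ⟨s, hs⟩ : K) (⟨s, hs⟩ * ⟨r, hr⟩))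
    · have : IsCyclic K := isCyclic_of_prime_card (p := 3) (by rw [hcard, pow_one])
      exact congrArg K.subtype ((IsCyclic.isMulCommutative (α := K)).is_comm.comm (⟨r, hr⟩ : K) ⟨s, hs⟩)
    · exact congrArg K.subtype (IsPGroup.commutative_of_card_eq_prime_sq hcard (⟨r, hr⟩ : K) ⟨s, hs⟩)
    · rw [hcard] at hlt; norm_num at hlt
  rw [hgen, MonoidHom.map_closure, stdR]
  congr 1
  ext g
  simp only [Set.mem_image, Set.mem_insert_iff, Set.mem_singleton_iff, Set.mem_setOf_eq]
  have kr : ((Bu⁻¹ * (r : G3) * Bu : G3) : M3) = matD a := by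
    rw [mul_assoc, Units.val_mul, Units.val_mul, hXB, ← mul_assoc, Units.inv_mul, one_mul]
  have ks : ((Bu⁻¹ * (s : G3) * Bu : G3) : M3) = matP := by
    rw [mul_assoc, Units.val_mul, Units.val_mul, hYB, ← mul_assoc, Units.inv_mul, one_mul]
  constructor
  · rintro ⟨x, rfl | rfl, rfl⟩
    · left; simpa using kr
    · right; simpa using ks
  · rintro (h | h)
    · exact ⟨r, Or.inl rfl, Units.ext (by simpa using kr.trans h.symm)⟩
    · exact ⟨s, Or.inr rfl, Units.ext (by simpa using ks.trans h.symm)⟩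

theorem sl_normal_form (R : Subgroup G3) (h27 : Nat.card R = 27) (hexp : ∀ r ∈ R, r ^ 3 = 1)
    (hc : Nat.card (Subgroup.center R) = 3)
    (hirr : Cfsg.Geo.ActsAbsolutelyIrreducibly (Cfsg.Geo.matrixSet R)) (h3 : (3 : F) ≠ 0) :
    ∃ ω : F, ω ^ 2 + ω + 1 = 0 ∧ ∃ A : G3, R.map (MulAut.conj A).toMonoidHom = stdR ω := by
  obtain ⟨ω, hω, A, -, -, -, -, -, -, h⟩ := exists_normal_basis R h27 hexp hc hirr h3
  exact ⟨ω, hω, A, h⟩

end Normal

section Unitary

variable {p : ℕ} [Fact p.Prime] [CharP F p]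

lemma hermForm_mulVec (B : M3) (u v : Fin 3 → F) :
    Cfsg.hermForm 3 F p (B *ᵥ u) (B *ᵥ v) = u ⬝ᵥ ((Bᵀ * B.map (· ^ p)) *ᵥ fun j => v j ^ p) := by
  have e : (fun i => (B *ᵥ v) i ^ p) = B.map (· ^ p) *ᵥ fun j => v j ^ p := by
    funext i
    simp [mulVec, dotProduct, sum_pow_char, mul_pow]
  have h : Cfsg.hermForm 3 F p (B *ᵥ u) (B *ᵥ v) = (B *ᵥ u) ⬝ᵥ fun i => (B *ᵥ v) i ^ p := rfl
  rw [h, e, dotProduct_mulVec, vecMul_mulVec, ← dotProduct_mulVec]

lemma mem_GU_of_gram (g : G3) (h : (g : M3)ᵀ * (g : M3).map (· ^ p) = 1) :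
    g ∈ Cfsg.GU 3 F p := fun u v => by
  have := hermForm_mulVec (p := p) (g : M3) u v
  rw [h, one_mulVec] at this
  exact this

omit [Fact p.Prime] [CharP F p] in
/-- A similarity permutes the special isometries. -/
theorem map_su_eq {A : G3} (hA : A ∈ Cfsg.Geo.similarityGroup (Cfsg.hermForm 3 F p)) :
    (Cfsg.GU 3 F p ⊓ Cfsg.Geo.specialLinear (Fin 3) F).map (MulAut.conj A).toMonoidHom =
      Cfsg.GU 3 F p ⊓ Cfsg.Geo.specialLinear (Fin 3) F := by
  have key : ∀ B : G3, B ∈ Cfsg.Geo.similarityGroup (Cfsg.hermForm 3 F p) →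
      ∀ g ∈ Cfsg.GU 3 F p ⊓ Cfsg.Geo.specialLinear (Fin 3) F,
        B * g * B⁻¹ ∈ Cfsg.GU 3 F p ⊓ Cfsg.Geo.specialLinear (Fin 3) F := by
    rintro B hB g ⟨hg, hg'⟩
    refine ⟨?_, conj_mem_specialLinear B hg'⟩
    obtain ⟨c, hc⟩ := hB
    intro u v
    have hinv : ∀ w : Fin 3 → F, (B : M3) *ᵥ (((B⁻¹ : G3) : M3) *ᵥ w) = w := fun w => by
      rw [mulVec_mulVec, Units.mul_inv, one_mulVec]
    change Cfsg.hermForm 3 F p (((B * g * B⁻¹ : G3) : M3) *ᵥ u) (((B * g * B⁻¹ : G3) : M3) *ᵥ v) = _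
    have hg1 : ∀ a b, Cfsg.hermForm 3 F p ((g : M3) *ᵥ a) ((g : M3) *ᵥ b) =
      Cfsg.hermForm 3 F p a b := hg
    simp only [Units.val_mul, ← mulVec_mulVec]
    rw [hc, hg1, ← hc, hinv, hinv]
  ext g
  constructor
  · rintro ⟨x, hx, rfl⟩
    exact key A hA x hx
  · intro hg
    refine ⟨A⁻¹ * g * A, by simpa using key A⁻¹ (inv_mem hA) g hg, ?_⟩
    simp [mul_assoc]

variable [Fintype F]

theorem hasStdGens_su {ω : F} (hω : ω ^ 2 + ω + 1 = 0) (hF : Fintype.card F = p ^ 2)
    (hp : p % 3 = 2) :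
    HasStdGens ω (Cfsg.Geo.subgroupNormalizer (stdR ω) ⊓
      (Cfsg.GU 3 F p ⊓ Cfsg.Geo.specialLinear (Fin 3) F)) := by
  have h3 : (3 : F) ≠ 0 := fun h => by
    have : p ∣ 3 := (CharP.cast_eq_zero_iff F p 3).1 (by exact_mod_cast h)
    have := (Nat.prime_dvd_prime_iff_eq Fact.out Nat.prime_three).1 this
    omega
  have hw : ω ^ 3 = 1 := cube_root hω
  have hwp : ω ^ p = ω ^ 2 := by
    conv_lhs => rw [← Nat.div_add_mod p 3, hp, pow_add, pow_mul, hw, one_pow, one_mul]
  have hwp2 : (ω ^ 2) ^ p = ω ^ 4 := by rw [pow_right_comm, hwp]; ring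
  have h0 : (0 : F) ^ p = 0 := zero_pow (Fact.out : p.Prime).ne_zero
  have hm1 : (-1 : F) ^ p = -1 := by
    have := map_neg (frobenius F p) 1
    simpa [frobenius_def] using this
  have hs2 : (1 + 2 * ω : F) ^ p = 1 + 2 * ω ^ 2 := by
    have := map_add (frobenius F p) 1 (ω + ω)
    have h' := map_add (frobenius F p) ω ω
    simp [frobenius_def, hwp] at this h'
    rw [two_mul, this, h', ← two_mul]
  have hE : ∀ e : G3, (e : M3) = matE ω → e ∈ Cfsg.GU 3 F p := fun e he =>
    mem_GU_of_gram e (by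
      rw [he]
      ext i j
      fin_cases i <;> fin_cases j <;>
        simp [matE, Matrix.mul_apply, Fin.sum_univ_three, hwp, h0] <;> linear_combination hw)
  refine hasStdGens_of hω h3 _ (fun g hg => ⟨mem_GU_of_gram g ?_, mem_specialLinear_iff.2
      (by rw [hg, det_matD hω])⟩)
    (fun g hg => ⟨mem_GU_of_gram g ?_, mem_specialLinear_iff.2 (by rw [hg, det_matP])⟩)
    (fun g hg => ⟨mem_GU_of_gram g ?_, mem_specialLinear_iff.2 (by rw [hg, det_matZ])⟩)
    (fun g hg => ⟨mem_GU_of_gram g ?_, mem_specialLinear_iff.2 (by rw [hg, det_matF hω h3])⟩)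
    (fun e f he hf => ⟨Subgroup.mem_inf.2 ⟨mul_mem (mul_mem (hE e he) hf.1) (inv_mem (hE e he)),
        conj_mem_specialLinear e hf.2⟩,
      Subgroup.mem_inf.2 ⟨mul_mem (mul_mem (inv_mem (hE e he)) hf.1) (hE e he), by
        simpa using conj_mem_specialLinear e⁻¹ hf.2⟩⟩)
  · rw [hg]
    ext i j
    fin_cases i <;> fin_cases j <;>
      simp [matD, Matrix.mul_apply, Fin.sum_univ_three, hwp, hwp2, h0] <;>
      grind
  · rw [hg]
    ext i j
    fin_cases i <;> fin_cases j <;> simp [matP, Matrix.mul_apply, Fin.sum_univ_three, h0]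
  · rw [hg]
    ext i j
    fin_cases i <;> fin_cases j <;> simp [matZ, Matrix.mul_apply, Fin.sum_univ_three, h0, hm1]
  · rw [hg]
    have hs := one_add_two_ne hω h3
    have hs' : (1 + 2 * ω ^ 2 : F) ≠ 0 := fun h => hs (by linear_combination 2 * hω - h)
    ext i j
    fin_cases i <;> fin_cases j <;>
      simp [matF, Matrix.mul_apply, Fin.sum_univ_three, mul_pow, inv_pow, hwp, hwp2, hs2] <;>
      field_simp <;> grind

/-- The normal form in `GU₃`. -/
theorem su_normal_form (hF : Fintype.card F = p ^ 2) (hp : p % 3 = 2) (R : Subgroup G3)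
    (h27 : Nat.card R = 27) (hexp : ∀ r ∈ R, r ^ 3 = 1)
    (hc : Nat.card (Subgroup.center R) = 3)
    (hirr : Cfsg.Geo.ActsAbsolutelyIrreducibly (Cfsg.Geo.matrixSet R))
    (hR : R ≤ Cfsg.Geo.similarityGroup (Cfsg.hermForm 3 F p)) :
    ∃ ω : F, ω ^ 2 + ω + 1 = 0 ∧ ∃ A : G3, R.map (MulAut.conj A).toMonoidHom = stdR ω ∧
      (Cfsg.GU 3 F p ⊓ Cfsg.Geo.specialLinear (Fin 3) F).map (MulAut.conj A).toMonoidHom =
        Cfsg.GU 3 F p ⊓ Cfsg.Geo.specialLinear (Fin 3) F := by
  have h3 : (3 : F) ≠ 0 := fun h => by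
    have : p ∣ 3 := (CharP.cast_eq_zero_iff F p 3).1 (by exact_mod_cast h)
    have := (Nat.prime_dvd_prime_iff_eq Fact.out Nat.prime_three).1 this
    omega
  obtain ⟨ω, hω, A, x, y, hx, hy, hxA, hyA, hmap⟩ := exists_normal_basis R h27 hexp hc hirr h3
  refine ⟨ω, hω, A, hmap, map_su_eq ?_⟩
  have hw : ω ^ 3 = 1 := cube_root hω
  have hwp : ω ^ p = ω ^ 2 := by
    conv_lhs => rw [← Nat.div_add_mod p 3, hp, pow_add, pow_mul, hw, one_pow, one_mul]
  have hwp2 : (ω ^ 2) ^ p = ω ^ 4 := by rw [pow_right_comm, hwp]; ring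
  have hcard : ∀ a : F, (a ^ p) ^ p = a := fun a => by
    rw [← pow_mul, ← pow_two, ← hF, FiniteField.pow_card]
  have hfix : ∀ w, Cfsg.hermForm 3 F p w w ^ p = Cfsg.hermForm 3 F p w w := fun w => by
    rw [Cfsg.hermForm, sum_pow_char]
    exact Finset.sum_congr rfl fun i _ => by rw [mul_pow, hcard, mul_comm]
  -- elements of `R` are isometries
  have hiso : ∀ g ∈ R, ∀ u v, Cfsg.hermForm 3 F p ((g : M3) *ᵥ u) ((g : M3) *ᵥ v) =
      Cfsg.hermForm 3 F p u v := by
    intro g hg u v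
    obtain ⟨c, hc'⟩ := hR hg
    have h1 : Cfsg.hermForm 3 F p (Pi.single 0 1) (Pi.single 0 1) = 1 := by
      simp [Cfsg.hermForm, Fin.sum_univ_three, zero_pow (Fact.out : p.Prime).ne_zero]
    set e : Fin 3 → F := Pi.single 0 1
    have hcp : (c : F) ^ p = c := by
      have := hfix ((g : M3) *ᵥ e)
      rwa [hc', h1, mul_one] at this
    have hc3 : (c : F) ^ 3 = 1 := by
      have h2 : ((g : M3) ^ 3) = 1 := by rw [← Units.val_pow_eq_pow_val, hexp g hg, Units.val_one]
      have k1 := hc' e e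
      have k2 := hc' ((g : M3) *ᵥ e) ((g : M3) *ᵥ e)
      have k3 := hc' ((g : M3) *ᵥ ((g : M3) *ᵥ e)) ((g : M3) *ᵥ ((g : M3) *ᵥ e))
      rw [k2, k1, h1, mulVec_mulVec, mulVec_mulVec, ← pow_two, ← pow_succ, h2, one_mulVec,
        h1] at k3
      linear_combination -k3
    have hc1 : (c : F) = 1 := by
      have hc2 : (c : F) ^ 2 = c := by
        rw [← hcp]
        conv_rhs => rw [hcp, ← hcp, ← Nat.div_add_mod p 3, hp, pow_add, pow_mul, hc3, one_pow, one_mul]
        rw [hcp]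
      exact mul_left_cancel₀ c.ne_zero (by linear_combination hc2)
    rw [hc', hc1, one_mul]
  set B : G3 := A⁻¹ with hB
  have gram : ∀ g ∈ R, ∀ M : M3, (g : M3) * (B : M3) = (B : M3) * M →
      Mᵀ * ((B : M3)ᵀ * (B : M3).map (· ^ p)) * M.map (· ^ p) =
        (B : M3)ᵀ * (B : M3).map (· ^ p) := by
    intro g hg M hM
    have hmp : ∀ N N' : M3, (N * N').map (· ^ p) = N.map (· ^ p) * N'.map (· ^ p) := fun N N' => by
      change (N * N').map (frobenius F p) = N.map (frobenius F p) * N'.map (frobenius F p)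
      exact Matrix.map_mul
    have e1 : (g : M3)ᵀ * (g : M3).map (· ^ p) = 1 := by
      ext i j
      have := hiso g hg (Pi.single i 1) (Pi.single j 1)
      rw [hermForm_mulVec] at this
      have hpj : (fun k => (Pi.single j 1 : Fin 3 → F) k ^ p) = Pi.single j 1 := by
        funext k
        by_cases hk : k = j <;> simp [hk, zero_pow (Fact.out : p.Prime).ne_zero]
      rw [hpj] at this
      simp [Cfsg.hermForm, Pi.single_apply, zero_pow (Fact.out : p.Prime).ne_zero,
        Finset.sum_ite_eq'] at this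
      rw [this]
      simp [Matrix.one_apply, eq_comm]
    have e2 : ((g : M3) * (B : M3))ᵀ * ((g : M3) * (B : M3)).map (· ^ p) =
        (B : M3)ᵀ * (B : M3).map (· ^ p) := by
      rw [transpose_mul, hmp, mul_assoc, ← mul_assoc (g : M3)ᵀ, e1, one_mul]
    rw [hM, transpose_mul, hmp] at e2
    simpa [mul_assoc] using e2
  set Gm : M3 := (B : M3)ᵀ * (B : M3).map (· ^ p) with hGm
  have gD := gram x hx _ hxA
  have gP := gram y hy _ hyA
  have h0 : (0 : F) ^ p = 0 := zero_pow (Fact.out : p.Prime).ne_zero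
  have hne : ∀ i j : Fin 3, i ≠ j → Gm i j = 0 := by
    intro i j hij
    have hh := congrFun (congrFun gD i) j
    have hw1 := root_ne_one hω h3
    have hw2 : ω ^ 2 ≠ 1 := fun h => hw1 (by linear_combination -ω * h + hw)
    fin_cases i <;> fin_cases j <;> first | exact absurd rfl hij | skip
    all_goals
      simp [matD, Matrix.mul_apply, Fin.sum_univ_three, hwp, hwp2, h0] at hh ⊢
      grind
  have hdiag : ∀ i : Fin 3, Gm i i = Gm 0 0 := by
    intro i
    have q0 := congrFun (congrFun gP 0) 0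
    have q1 := congrFun (congrFun gP 1) 1
    simp [matP, Matrix.mul_apply, Fin.sum_univ_three, h0] at q0 q1
    fin_cases i
    · rfl
    · exact q0
    · exact q1.trans q0
  have hG : Gm = Gm 0 0 • (1 : M3) := by
    ext i j
    by_cases hij : i = j
    · subst hij; simp [hdiag i]
    · simp [hne i j hij, hij]
  have hc0 : Gm 0 0 ≠ 0 := fun h => by
    rw [h, zero_smul] at hG
    have hdet := congrArg Matrix.det hG
    rw [hGm, det_mul, det_transpose, det_zero] at hdet
    have hu : (B : M3).det ≠ 0 := (isUnit_iff_isUnit_det _).1 B.isUnit |>.ne_zero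
    have hu' : ((B : M3).map (· ^ p)).det = (B : M3).det ^ p := by
        change ((B : M3).map (frobenius F p)).det = _
        simpa [frobenius_def, RingHom.mapMatrix_apply] using (RingHom.map_det (frobenius F p) (B : M3)).symm
    rw [hu'] at hdet
    exact mul_ne_zero hu (pow_ne_zero _ hu) hdet
  have hBsim : B ∈ Cfsg.Geo.similarityGroup (Cfsg.hermForm 3 F p) := by
    refine ⟨Units.mk0 _ hc0, fun u v => ?_⟩
    rw [hermForm_mulVec, ← hGm, Units.val_mk0]
    conv_lhs => rw [hG]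
    rw [smul_mulVec, one_mulVec, dotProduct_smul]
    simp [Cfsg.hermForm, dotProduct]
  simpa [hB] using inv_mem hBsim

theorem su_strict {ω : F} (hω : ω ^ 2 + ω + 1 = 0) (hF : Fintype.card F = p ^ 2) (hp3 : 3 ≤ p) :
    Cfsg.Geo.subgroupNormalizer (stdR ω) ⊓ (Cfsg.GU 3 F p ⊓ Cfsg.Geo.specialLinear (Fin 3) F) <
      Cfsg.GU 3 F p ⊓ Cfsg.Geo.specialLinear (Fin 3) F := by
  refine lt_of_le_of_ne inf_le_right fun e => ?_
  obtain ⟨g, hg⟩ := IsCyclic.exists_ofOrder_eq_natCard (α := Fˣ)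
  rw [Nat.card_units, Nat.card_eq_fintype_card, hF,
    show p ^ 2 - 1 = (p + 1) * (p - 1) by simpa using Nat.sq_sub_sq p 1] at hg
  set al : F := ((g ^ (p - 1) : Fˣ) : F) with hal_def
  have hal : al ^ (p + 1) = 1 := by
    rw [hal_def, ← Units.val_pow_eq_pow_val, ← pow_mul, mul_comm, ← hg, pow_orderOf_eq_one, Units.val_one]
  have hal3 : al ^ 3 ≠ 1 := fun h => by
    rw [hal_def, ← Units.val_pow_eq_pow_val, Units.val_eq_one, ← pow_mul,
      ← orderOf_dvd_iff_pow_eq_one, hg, mul_comm (p - 1) 3] at h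
    have := Nat.le_of_dvd (by norm_num) (Nat.dvd_of_mul_dvd_mul_right (by omega) h)
    omega
  have hal0 : al ≠ 0 := Units.ne_zero _
  have hT : (!![al, 0, 0; 0, al⁻¹, 0; 0, 0, 1] : M3).det = 1 := by simp [det_fin_three, hal0]
  let t : G3 := GeneralLinearGroup.mkOfDetNeZero !![al, 0, 0; 0, al⁻¹, 0; 0, 0, 1]
    (by rw [hT]; exact one_ne_zero)
  have ht : t ∈ Cfsg.GU 3 F p ⊓ Cfsg.Geo.specialLinear (Fin 3) F := by
    refine ⟨mem_GU_of_gram t ?_, mem_specialLinear_iff.2 hT⟩
    have h0 : (0 : F) ^ p = 0 := zero_pow (Fact.out : p.Prime).ne_zero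
    have hinv : al⁻¹ * al⁻¹ ^ p = 1 := by
      rw [← pow_succ', inv_pow, hal, inv_one]
    ext i j
    fin_cases i <;> fin_cases j <;>
      simp [t, Matrix.mul_apply, Fin.sum_univ_three, h0, ← pow_succ', hal]
  rw [← e] at ht
  obtain ⟨d, hd⟩ := exists_unit_P (F := F)
  have hx := (Subgroup.mem_normalizer_iff.1 ht.1 d).1 (Subgroup.subset_closure (Or.inr hd))
  obtain ⟨c, hc⟩ := stdR_semicomm hω (Or.inr rfl) hx
  have hprod : ((t * d * t⁻¹ : G3) : M3) = !![0, 0, al; (al ^ 2)⁻¹, 0, 0; 0, al, 0] := by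
    have h1 : ((t * d * t⁻¹ : G3) : M3) * (t : M3) =
        !![0, 0, al; (al ^ 2)⁻¹, 0, 0; 0, al, 0] * (t : M3) := by
      rw [← Units.val_mul, inv_mul_cancel_right, Units.val_mul, hd]
      ext i j
      fin_cases i <;> fin_cases j <;> simp [t, matP, Matrix.mul_apply, Fin.sum_univ_three, hal0]
      field_simp
    exact (Units.mul_left_inj t).1 h1
  rw [hprod] at hc
  have h1 := congrFun (congrFun hc 1) 2
  have h2 := congrFun (congrFun hc 0) 1
  have h3 := congrFun (congrFun hc 2) 0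
  simp [matP, Matrix.mul_apply, Fin.sum_univ_three] at h1 h2 h3
  refine hal3 ?_
  field_simp at h1 h2 h3
  grind

end Unitary

end Cfsg.Agent.H48.C6Three
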