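import Cfsg.Agent.H48.C6Three.Fields

/-!
An odd normal subgroup of the centralizer of the involution commutes with the square of a rotation.
-/

set_option autoImplicit false
set_option linter.unusedSimpArgs false
set_option linter.unusedSectionVars false

namespace Cfsg.Agent.H48.C6Three

open Matrix

variable {F : Type*} [Field F] [Finite F] {ω : F} {M : Subgroup (GL (Fin 3) F)} (h : Overgroup ω M)

namespace Overgroup

include h

/-- The conjugate `M^B`. -/
theorem range_zimg :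
    ((M.map (MulAut.conj (unitB h.two_ne)⁻¹).toMonoidHom).subgroupOf (blkGroup F)).map pimg =
      (h.zimg).range := by
  ext x
  constructor
  · rintro ⟨y, hy, rfl⟩
    obtain ⟨g, hg, hgy⟩ := Subgroup.mem_map.1 (Subgroup.mem_subgroupOf.1 hy)
    have hval : ((y : GL (Fin 3) F) : Matrix (Fin 3) (Fin 3) F) = matB' * (g : Matrix (Fin 3) (Fin 3) F) * matB := by
      rw [← hgy]
      show (((MulAut.conj (unitB h.two_ne)⁻¹) g : GL (Fin 3) F) : Matrix (Fin 3) (Fin 3) F) = _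
      rw [MulAut.conj_apply, inv_inv]
      rfl
    have hz : (⟨g, hg⟩ : ↥M) ∈ h.zc := by
      rw [h.mem_zc]
      show (g : Matrix (Fin 3) (Fin 3) F) * matZ = matZ * (g : Matrix (Fin 3) (Fin 3) F)
      obtain ⟨b1, b2, b3, b4⟩ : IsBlk ((y : GL (Fin 3) F) : Matrix (Fin 3) (Fin 3) F) := y.2
      rw [hval] at b1 b2 b3 b4
      have hB := matB_mul (F := F) h.two_ne
      have hB' : (matB' : Matrix (Fin 3) (Fin 3) F) * matB = 1 := mul_eq_one_comm.1 hB
      have hg' : (g : Matrix (Fin 3) (Fin 3) F) = matB * (matB' * (g : Matrix (Fin 3) (Fin 3) F) * matB) * matB' := by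
        simp only [← mul_assoc, hB, one_mul]
        rw [mul_assoc, hB, mul_one]
      have hZ : (matZ : Matrix (Fin 3) (Fin 3) F) = matB * Matrix.diagonal ![1, -1, -1] * matB' := by
        have h22 : (2 : F)⁻¹ * 2 = 1 := inv_mul_cancel₀ h.two_ne
        ext i j
        fin_cases i <;> fin_cases j <;>
          simp [matB, matB', matZ, Matrix.mul_apply, Fin.sum_univ_three, Matrix.vecMul, dotProduct] <;> grind
      rw [hg', hZ]
      set N := matB' * (g : Matrix (Fin 3) (Fin 3) F) * matB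
      have hN : N * Matrix.diagonal ![1, -1, -1] = Matrix.diagonal ![1, -1, -1] * N := by
        ext i j
        rw [Matrix.mul_diagonal, Matrix.diagonal_mul]
        fin_cases i <;> fin_cases j <;> simp [b1, b2, b3, b4]
      calc matB * N * matB' * (matB * Matrix.diagonal ![1, -1, -1] * matB')
          = matB * N * (matB' * matB) * Matrix.diagonal ![1, -1, -1] * matB' := by simp only [mul_assoc]
        _ = matB * (N * Matrix.diagonal ![1, -1, -1]) * matB' := by rw [hB', mul_one]; simp only [mul_assoc]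
        _ = matB * (Matrix.diagonal ![1, -1, -1] * N) * matB' := by rw [hN]
        _ = matB * Matrix.diagonal ![1, -1, -1] * (matB' * matB) * N * matB' := by
          rw [hB', mul_one]; simp only [mul_assoc]
        _ = _ := by simp only [mul_assoc]
    refine ⟨⟨⟨g, hg⟩, hz⟩, ?_⟩
    show pimg (h.zblk ⟨⟨g, hg⟩, hz⟩) = pimg y
    congr 1
    exact Subtype.ext (Units.ext hval.symm)
  · rintro ⟨g, rfl⟩
    exact ⟨h.zblk g, Subgroup.mem_subgroupOf.2 ⟨((g : ↥M) : GL (Fin 3) F), (g : ↥M).2, rfl⟩, rfl⟩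

/-- The plane tests on the axis of the involution. -/
theorem zimg_tests :
    ∀ a ∈ (h.zimg).range, a ^ 4 = 1 → a ^ 2 ≠ 1 →
      ∀ O : Subgroup (Matrix.ProjGenLinGroup (Fin 2) F), O ≤ (h.zimg).range → Odd (Nat.card O) →
        (∀ g ∈ (h.zimg).range, ∀ y ∈ O, g * y * g⁻¹ ∈ O) → ∀ y ∈ O, Commute y (a ^ 2) := by
  rw [← h.range_zimg]
  refine (h.plane_tests _ ?_).2.1
  rintro g hg ht
  obtain ⟨g', hg', rfl⟩ := Subgroup.mem_map.1 hg
  refine h.nt g' hg' ?_
  have := isTransv_conj ht (unitB h.two_ne)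
  convert this using 1
  show g' = unitB h.two_ne * ((MulAut.conj (unitB h.two_ne)⁻¹) g') * (unitB h.two_ne)⁻¹
  rw [MulAut.conj_apply, inv_inv]
  group

theorem oddRot : ∀ a ∈ Subgroup.centralizer ({pr M h.eZ} : Set (↥M ⧸ scal M)), a ^ 4 = pr M h.eZ →
    ∀ O : Subgroup (↥M ⧸ scal M), O ≤ Subgroup.centralizer ({pr M h.eZ} : Set (↥M ⧸ scal M)) →
      Odd (Nat.card ↥O) →
      (∀ c ∈ Subgroup.centralizer ({pr M h.eZ} : Set (↥M ⧸ scal M)), ∀ y ∈ O, c * y * c⁻¹ ∈ O) →
      ∀ y ∈ O, y * a ^ 2 = a ^ 2 * y := by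
  intro a ha ha4 O hO hodd hnorm
  obtain ⟨A, rfl⟩ := pr_surjective a
  have hA : A ∈ h.zc := h.mem_zc_iff_pr.2 (Subgroup.mem_centralizer_singleton_iff.1 ha)
  let φ : ↥h.zc →* ↥M ⧸ scal M := (pr M).comp h.zc.subtype
  have hφ : ∀ g : ↥h.zc, φ g ∈ Subgroup.centralizer ({pr M h.eZ} : Set (↥M ⧸ scal M)) := fun g =>
    Subgroup.mem_centralizer_singleton_iff.2 (h.mem_zc_iff_pr.1 g.2)
  set P := O.comap φ with hP
  set O' := P.map h.zimg with hO'
  set A' : ↥h.zc := ⟨A, hA⟩ with hA'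
  obtain ⟨c, hc⟩ := pr_eq_iff.1 (show pr M (A ^ 4) = pr M h.eZ by rw [map_pow]; exact ha4)
  rw [h.mat_Z] at hc
  have h4 : h.zimg A' ^ 4 = 1 := by
    rw [← map_pow, h.zimg_eq_one]
    exact ⟨0, c, by rw [zero_smul, zero_add, Subgroup.coe_pow]; exact hc⟩
  have hc0 : c ≠ 0 := fun e => mat_ne_zero (A ^ 4) (by rw [hc, e, zero_smul])
  have h2 : h.zimg A' ^ 2 ≠ 1 := by
    rw [← map_pow, Ne, h.zimg_eq_one]
    rintro ⟨α, β, hab⟩
    rw [Subgroup.coe_pow] at hab
    change mat (A ^ 2) = _ at hab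
    have e := h.mat_sq_of hab
    rw [← pow_add, show 2 + 2 = 4 from rfl, hc] at e
    have e' := congrFun (congrFun e 1) 1
    simp [matZ] at e'
    exact h.no_quarter hab (by linear_combination -2 * e')
  have hodd' : Odd (Nat.card ↥O') := by
    rw [Nat.odd_iff]
    by_contra hev
    obtain ⟨⟨x, hx⟩, hxo⟩ := exists_prime_orderOf_dvd_card' 2
      (show 2 ∣ Nat.card ↥O' from Nat.dvd_of_mod_eq_zero (by omega))
    rw [Subgroup.orderOf_mk] at hxo
    obtain ⟨y, hy, rfl⟩ := Subgroup.mem_map.1 hx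
    set n := orderOf (φ y) with hn
    have hno : Odd n := hodd.of_dvd_nat (Subgroup.orderOf_dvd_natCard O hy)
    obtain ⟨d, hd⟩ := pr_eq_one.1 (show pr M ((y : ↥M) ^ n) = 1 by
      rw [map_pow]; exact pow_orderOf_eq_one (φ y))
    have hd' : h.zimg y ^ n = 1 := by
      rw [← map_pow, h.zimg_eq_one]
      exact ⟨d, 0, by rw [zero_smul, add_zero, Subgroup.coe_pow]; exact hd⟩
    have h2n := orderOf_dvd_of_pow_eq_one hd'
    rw [hxo] at h2n
    exact (Nat.not_even_iff_odd.2 hno) (even_iff_two_dvd.2 h2n)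
  have hle : O' ≤ (h.zimg).range := Subgroup.map_le_range _ _
  have hnorm' : ∀ g ∈ (h.zimg).range, ∀ y ∈ O', g * y * g⁻¹ ∈ O' := by
    rintro _ ⟨g, rfl⟩ y hy
    obtain ⟨y0, hy0, rfl⟩ := Subgroup.mem_map.1 hy
    refine Subgroup.mem_map.2 ⟨g * y0 * g⁻¹, ?_, by rw [map_mul, map_mul, map_inv]⟩
    rw [hP, Subgroup.mem_comap] at hy0 ⊢
    rw [map_mul, map_mul, map_inv]
    exact hnorm _ (hφ g) _ hy0
  have key : ∀ y ∈ O, y * (pr M A) ^ 2 * y⁻¹ = (pr M A) ^ 2 ∨
      y * (pr M A) ^ 2 * y⁻¹ = pr M h.eZ * (pr M A) ^ 2 := by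
    intro y hy
    obtain ⟨Y, rfl⟩ := pr_surjective y
    have hY : Y ∈ h.zc := h.mem_zc_iff_pr.2 (Subgroup.mem_centralizer_singleton_iff.1 (hO hy))
    set Y' : ↥h.zc := ⟨Y, hY⟩
    have hcm : Commute (h.zimg Y') (h.zimg A' ^ 2) :=
      h.zimg_tests _ ⟨A', rfl⟩ h4 h2 O' hle hodd' hnorm' _ (Subgroup.mem_map_of_mem _ hy)
    set K : ↥h.zc := Y' * A' ^ 2 * Y'⁻¹ * (A' ^ 2)⁻¹ with hK
    obtain ⟨α, β, hab⟩ := h.zimg_eq_one.1 (show h.zimg K = 1 by
      rw [hK, map_mul, map_mul, map_mul, map_inv, map_inv, map_pow, hcm.eq, mul_inv_cancel_right,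
        mul_inv_cancel])
    have hcor : cornerHom (h.zblk K) = 1 := by
      have e : ∀ u : ↥(blkGroup F), cornerHom u ≠ 0 := fun u h0 => by
        have e1 : cornerHom u * cornerHom u⁻¹ = 1 := by rw [← map_mul, mul_inv_cancel, map_one]
        rw [h0, zero_mul] at e1
        exact zero_ne_one e1
      rw [hK]
      simp only [map_mul, map_inv, map_pow]
      have := e (h.zblk Y'); have := e (h.zblk A')
      field_simp
    have h22 : (2 : F)⁻¹ * 2 = 1 := inv_mul_cancel₀ h.two_ne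
    have hsum : α + β = 1 := by
      rw [← hcor]
      show _ = (matB' * mat (K : ↥M) * matB : Matrix (Fin 3) (Fin 3) F) 0 0
      rw [hab]
      simp [matB, matB', matZ, Matrix.mul_apply, Fin.sum_univ_three, Matrix.vecMul, dotProduct]
      grind
    have hdet := h.mat_det (K : ↥M)
    rw [hab, Matrix.det_fin_three] at hdet
    simp [matZ] at hdet
    have hor : α = 0 ∨ β = 0 := by
      have e4 : (4 : F) * (α * β) = 0 := by grind
      rcases mul_eq_zero.1 e4 with e5 | e5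
      · exact absurd (show (2 : F) * 2 = 0 by linear_combination e5) (mul_ne_zero h.two_ne h.two_ne)
      · exact mul_eq_zero.1 e5
    have hKG : pr M (K : ↥M) = pr M Y * pr M A ^ 2 * (pr M Y)⁻¹ * (pr M A ^ 2)⁻¹ := by
      simp only [hK, Subgroup.coe_mul, Subgroup.coe_inv, Subgroup.coe_pow, map_mul, map_inv, map_pow, hA']
      rfl
    rcases hor with rfl | rfl
    · right
      have : pr M (K : ↥M) = pr M h.eZ := by
        rw [zero_add] at hsum
        rw [pr_eq_iff]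
        exact ⟨1, by rw [hab, hsum, h.mat_Z, zero_smul, zero_add]⟩
      rw [hKG] at this
      rw [← this, inv_mul_cancel_right]
    · left
      have : pr M (K : ↥M) = 1 := pr_eq_one.2 ⟨α, by rw [hab, zero_smul, add_zero]⟩
      rw [hKG, mul_inv_eq_one] at this
      exact this
  intro y hy
  obtain ⟨y', hy', hsq⟩ : ∃ y' ∈ O, y' * y' = y := by
    obtain ⟨m, hm⟩ := hodd.of_dvd_nat (Subgroup.orderOf_dvd_natCard O hy)
    refine ⟨y ^ (m + 1), O.pow_mem hy _, ?_⟩
    rw [← pow_add, show m + 1 + (m + 1) = (2 * m + 1) + 1 by ring, pow_succ, ← hm, pow_orderOf_eq_one, one_mul]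
  have hzy : y' * pr M h.eZ = pr M h.eZ * y' := Subgroup.mem_centralizer_singleton_iff.1 (hO hy')
  have hz2 : pr M h.eZ * pr M h.eZ = 1 := by rw [← map_mul, h.eZ_sq, map_one]
  set b := pr M A ^ 2
  have e2 : y * b * y⁻¹ = b := by
    rw [← hsq]
    rcases key y' hy' with e | e
    · calc y' * y' * b * (y' * y')⁻¹ = y' * (y' * b * y'⁻¹) * y'⁻¹ := by group
        _ = b := by rw [e, e]
    · calc y' * y' * b * (y' * y')⁻¹ = y' * (y' * b * y'⁻¹) * y'⁻¹ := by group
        _ = (y' * pr M h.eZ) * b * y'⁻¹ := by rw [e]; group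
        _ = pr M h.eZ * (y' * b * y'⁻¹) := by rw [hzy]; group
        _ = b := by rw [e, ← mul_assoc, hz2, one_mul]
  exact mul_inv_eq_iff_eq_mul.1 e2

end Overgroup

end Cfsg.Agent.H48.C6Three
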