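import Cfsg.Agent.H48.C6Three.Gens

/-!
Without transvections, the projective image on an invariant plane is prime to the characteristic.
-/

set_option autoImplicit false
set_option linter.unusedSimpArgs false
set_option linter.unusedVariables false

namespace Cfsg.Agent.H48.C6Three

open Matrix

variable {F : Type*} [Field F]

/-- Block matrices for the splitting `⟨e₀⟩ ⊕ ⟨e₁, e₂⟩`. -/
def IsBlk (m : Matrix (Fin 3) (Fin 3) F) : Prop :=
  m 0 1 = 0 ∧ m 0 2 = 0 ∧ m 1 0 = 0 ∧ m 2 0 = 0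

/-- The lower `2 × 2` block. -/
def sub2 (m : Matrix (Fin 3) (Fin 3) F) : Matrix (Fin 2) (Fin 2) F :=
  !![m 1 1, m 1 2; m 2 1, m 2 2]

theorem isBlk_one : IsBlk (1 : Matrix (Fin 3) (Fin 3) F) := ⟨rfl, rfl, rfl, rfl⟩

theorem IsBlk.mul {a b : Matrix (Fin 3) (Fin 3) F} (ha : IsBlk a) (hb : IsBlk b) : IsBlk (a * b) := by
  obtain ⟨a1, a2, a3, a4⟩ := ha
  obtain ⟨b1, b2, b3, b4⟩ := hb
  refine ⟨?_, ?_, ?_, ?_⟩ <;> simp [Matrix.mul_apply, Fin.sum_univ_three, a1, a2, a3, a4, b1, b2, b3, b4]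

theorem sub2_mul {a b : Matrix (Fin 3) (Fin 3) F} (ha : IsBlk a) (hb : IsBlk b) :
    sub2 (a * b) = sub2 a * sub2 b := by
  obtain ⟨a1, a2, a3, a4⟩ := ha
  obtain ⟨b1, b2, b3, b4⟩ := hb
  ext i j
  fin_cases i <;> fin_cases j <;>
    simp [sub2, Matrix.mul_apply, Fin.sum_univ_three, Fin.sum_univ_two, a1, a2, a3, a4, b1, b2, b3, b4]

theorem corner_mul {a b : Matrix (Fin 3) (Fin 3) F} (ha : IsBlk a) :
    (a * b) 0 0 = a 0 0 * b 0 0 := by
  obtain ⟨a1, a2, -, -⟩ := ha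
  simp [Matrix.mul_apply, Fin.sum_univ_three, a1, a2]

theorem sub2_one : sub2 (1 : Matrix (Fin 3) (Fin 3) F) = 1 := by
  ext i j; fin_cases i <;> fin_cases j <;> simp [sub2]

theorem isBlk_inv (g : GL (Fin 3) F) (hg : IsBlk (g : Matrix (Fin 3) (Fin 3) F)) :
    IsBlk ((g⁻¹ : GL (Fin 3) F) : Matrix (Fin 3) (Fin 3) F) := by
  have h1 : ((g⁻¹ : GL (Fin 3) F) : Matrix (Fin 3) (Fin 3) F) * g = 1 := g.inv_mul
  have h2 : (g : Matrix (Fin 3) (Fin 3) F) * ((g⁻¹ : GL (Fin 3) F) : Matrix (Fin 3) (Fin 3) F) = 1 :=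
    g.mul_inv
  obtain ⟨a1, a2, a3, a4⟩ := hg
  generalize ((g⁻¹ : GL (Fin 3) F) : Matrix (Fin 3) (Fin 3) F) = b at h1 h2 ⊢
  generalize (g : Matrix (Fin 3) (Fin 3) F) = a at h1 h2 a1 a2 a3 a4
  have e00 := congrFun (congrFun h2 0) 0
  have h00 : a 0 0 ≠ 0 := by
    intro h
    simp [Matrix.mul_apply, Fin.sum_univ_three, a1, a2, h] at e00
  refine ⟨?_, ?_, ?_, ?_⟩
  · have := congrFun (congrFun h2 0) 1
    simpa [Matrix.mul_apply, Fin.sum_univ_three, a1, a2, h00] using this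
  · have := congrFun (congrFun h2 0) 2
    simpa [Matrix.mul_apply, Fin.sum_univ_three, a1, a2, h00] using this
  · have := congrFun (congrFun h1 1) 0
    simpa [Matrix.mul_apply, Fin.sum_univ_three, a3, a4, h00] using this
  · have := congrFun (congrFun h1 2) 0
    simpa [Matrix.mul_apply, Fin.sum_univ_three, a3, a4, h00] using this

/-- The block subgroup. -/
def blkGroup (F : Type*) [Field F] : Subgroup (GL (Fin 3) F) where
  carrier := {g | IsBlk (g : Matrix (Fin 3) (Fin 3) F)}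
  one_mem' := isBlk_one
  mul_mem' := fun ha hb => IsBlk.mul ha hb
  inv_mem' := fun {g} hg => isBlk_inv g hg

theorem mem_blkGroup {g : GL (Fin 3) F} : g ∈ blkGroup F ↔ IsBlk (g : Matrix (Fin 3) (Fin 3) F) := Iff.rfl

/-- The block as a monoid homomorphism. -/
def sub2Hom : ↥(blkGroup F) →* Matrix (Fin 2) (Fin 2) F where
  toFun g := sub2 ((g : GL (Fin 3) F) : Matrix (Fin 3) (Fin 3) F)
  map_one' := sub2_one
  map_mul' g h := sub2_mul g.2 h.2

/-- The corner as a monoid homomorphism. -/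
def cornerHom : ↥(blkGroup F) →* F where
  toFun g := ((g : GL (Fin 3) F) : Matrix (Fin 3) (Fin 3) F) 0 0
  map_one' := rfl
  map_mul' g h := corner_mul g.2

/-- The block, as an invertible matrix. -/
def toGL2 : ↥(blkGroup F) →* GL (Fin 2) F := (sub2Hom (F := F)).toHomUnits

theorem toGL2_val (g : ↥(blkGroup F)) :
    (toGL2 g : Matrix (Fin 2) (Fin 2) F) = sub2 ((g : GL (Fin 3) F) : Matrix (Fin 3) (Fin 3) F) := rfl

/-- The projective image on the plane. -/
def pimg : ↥(blkGroup F) →* Matrix.ProjGenLinGroup (Fin 2) F :=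
  Matrix.ProjGenLinGroup.mk.comp toGL2

theorem pimg_eq_one {g : ↥(blkGroup F)} :
    pimg g = 1 ↔ ∃ c : F, sub2 ((g : GL (Fin 3) F) : Matrix (Fin 3) (Fin 3) F) = c • 1 := by
  rw [pimg, MonoidHom.comp_apply, Matrix.ProjGenLinGroup.mk_eq_one, GeneralLinearGroup.center_eq_range_scalar,
    MonoidHom.mem_range, ← toGL2_val]
  constructor
  · rintro ⟨u, hu⟩
    refine ⟨u, ?_⟩
    rw [← hu, GeneralLinearGroup.coe_scalar]
    simp [Matrix.smul_one_eq_diagonal]
  · rintro ⟨c, hc⟩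
    have hc0 : c ≠ 0 := by
      intro h
      have h1 := (toGL2 g).isUnit
      rw [hc, h, zero_smul] at h1
      exact not_isUnit_zero h1
    refine ⟨Units.mk0 c hc0, Units.ext ?_⟩
    rw [GeneralLinearGroup.coe_scalar, hc]
    simp [Matrix.smul_one_eq_diagonal]

/-- Two elements have the same image iff their blocks are proportional. -/
theorem pimg_eq_iff {g h : ↥(blkGroup F)} :
    pimg g = pimg h ↔ ∃ c : F, sub2 ((g : GL (Fin 3) F) : Matrix (Fin 3) (Fin 3) F) =
      c • sub2 ((h : GL (Fin 3) F) : Matrix (Fin 3) (Fin 3) F) := by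
  rw [← mul_inv_eq_one, ← map_inv, ← map_mul, pimg_eq_one]
  have hh : sub2 (((h⁻¹ : ↥(blkGroup F)) : GL (Fin 3) F) : Matrix (Fin 3) (Fin 3) F) *
      sub2 ((h : GL (Fin 3) F) : Matrix (Fin 3) (Fin 3) F) = 1 := by
    rw [← sub2_mul (h⁻¹).2 h.2, ← Units.val_mul, ← Subgroup.coe_mul, inv_mul_cancel]
    exact sub2_one
  have hh' : sub2 ((h : GL (Fin 3) F) : Matrix (Fin 3) (Fin 3) F) *
      sub2 (((h⁻¹ : ↥(blkGroup F)) : GL (Fin 3) F) : Matrix (Fin 3) (Fin 3) F) = 1 := by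
    rw [← sub2_mul h.2 (h⁻¹).2, ← Units.val_mul, ← Subgroup.coe_mul, mul_inv_cancel]
    exact sub2_one
  rw [Subgroup.coe_mul, Units.val_mul, sub2_mul g.2 (h⁻¹).2]
  constructor
  · rintro ⟨c, hc⟩
    refine ⟨c, ?_⟩
    rw [← one_mul (sub2 ((h : GL (Fin 3) F) : Matrix (Fin 3) (Fin 3) F)), ← smul_mul_assoc, ← hc,
      mul_assoc, hh, mul_one]
  · rintro ⟨c, hc⟩
    exact ⟨c, by rw [hc, smul_mul_assoc, hh']⟩

theorem isTransv_conj {g : GL (Fin 3) F} (hg : IsTransv g) (h : GL (Fin 3) F) :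
    IsTransv (h * g * h⁻¹) := by
  obtain ⟨hne, v, φ, hφ, hm⟩ := hg
  refine ⟨fun e => hne ?_, (h : Matrix (Fin 3) (Fin 3) F) *ᵥ v,
    φ ᵥ* ((h⁻¹ : GL (Fin 3) F) : Matrix (Fin 3) (Fin 3) F), ?_, ?_⟩
  · calc g = h⁻¹ * (h * g * h⁻¹) * h := by group
      _ = 1 := by rw [e]; group
  · rw [← dotProduct_mulVec, mulVec_mulVec, Units.inv_mul, one_mulVec, hφ]
  · rw [Units.val_mul, Units.val_mul, hm, mul_add, mul_one, add_mul, Units.mul_inv, mul_vecMulVec,
      vecMulVec_mul]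

variable [Finite F]

instance : Finite (Matrix.ProjGenLinGroup (Fin 2) F) :=
  Finite.of_surjective _ Matrix.ProjGenLinGroup.mk_surjective

variable {p : ℕ} [Fact p.Prime] [CharP F p]

/-- Without transvections the projective image is prime to `p`. -/
theorem not_dvd_card_pimg (M : Subgroup (GL (Fin 3) F)) (hnt : ∀ g ∈ M, ¬ IsTransv g) :
    ¬ p ∣ Nat.card ((M.subgroupOf (blkGroup F)).map pimg) := by
  intro hd
  obtain ⟨⟨x, hx⟩, hxo⟩ := exists_prime_orderOf_dvd_card' p hd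
  rw [Subgroup.orderOf_mk] at hxo
  obtain ⟨g, hgM, rfl⟩ := Subgroup.mem_map.1 hx
  set A := sub2 ((g : GL (Fin 3) F) : Matrix (Fin 3) (Fin 3) F) with hA
  have hnsc : ∀ c : F, A ≠ c • 1 := fun c hc => by
    rw [pimg_eq_one.2 ⟨c, hc⟩, orderOf_one] at hxo
    exact (Fact.out : p.Prime).ne_one hxo.symm
  obtain ⟨s, hs⟩ : ∃ s : F, A ^ p = s • 1 := by
    have h1 : pimg (g ^ p) = 1 := by rw [map_pow, ← hxo, pow_orderOf_eq_one]
    obtain ⟨s, hs⟩ := pimg_eq_one.1 h1
    exact ⟨s, by rw [hA, ← hs]; exact (map_pow sub2Hom g p).symm⟩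
  have := Fintype.ofFinite F
  obtain ⟨n, -, hcard⟩ := FiniteField.card F p
  set r : F := s ^ (p ^ ((n : ℕ) - 1)) with hr
  have hrp : r ^ p = s := by
    rw [hr, ← pow_mul, ← pow_succ, Nat.sub_add_cancel n.pos, ← hcard, FiniteField.pow_card]
  set N := A - r • (1 : Matrix (Fin 2) (Fin 2) F) with hN
  have hNp : N ^ p = 0 := by
    rw [hN, sub_pow_char_of_commute (p := p) ((Commute.one_right A).smul_right r), hs, smul_pow, one_pow, hrp,
      sub_self]
  have hp0 : p ≠ 0 := (Fact.out : p.Prime).ne_zero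
  have hdet : N.det = 0 := by
    have h := congrArg Matrix.det hNp
    rw [Matrix.det_pow, Matrix.det_zero] at h
    · exact eq_zero_of_pow_eq_zero h
  have hN2 : N * N = N.trace • N := by
    rw [Matrix.det_fin_two] at hdet
    ext i j
    fin_cases i <;> fin_cases j <;>
      simp [Matrix.mul_apply, Fin.sum_univ_two, Matrix.trace_fin_two] <;>
      first | ring1 | linear_combination hdet | linear_combination -hdet
  have hN0 : N ≠ 0 := fun h => hnsc r (by rw [hN, sub_eq_zero] at h; exact h)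
  have htr : N.trace = 0 := by
    have hpow : ∀ k : ℕ, N ^ (k + 1) = N.trace ^ k • N := by
      intro k
      induction k with
      | zero => simp
      | succ k ih => rw [pow_succ, ih, smul_mul_assoc, hN2, smul_smul, ← pow_succ]
    obtain ⟨k, hk⟩ : ∃ k, p = k + 1 := ⟨p - 1, by omega⟩
    rw [hk, hpow, smul_eq_zero] at hNp
    exact eq_zero_of_pow_eq_zero (hNp.resolve_right hN0)
  rw [htr, zero_smul] at hN2
  have hAu : IsUnit A := (toGL2 g).isUnit
  have hr0 : r ≠ 0 := by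
    intro h
    rw [h, zero_smul, sub_zero] at hN
    have h3 := hN ▸ hN2
    exact (hAu.mul hAu).ne_zero h3
  have hApow : ∀ m : ℕ, A ^ (m + 1) = r ^ (m + 1) • 1 + ((m + 1 : ℕ) * r ^ m) • N := by
    intro m
    induction m with
    | zero => simp [hN]
    | succ m ih =>
      rw [pow_succ, ih, show A = r • 1 + N by rw [hN]; abel]
      simp only [add_mul, mul_add, smul_mul_assoc, one_mul, mul_one, mul_smul_comm, hN2, smul_zero, add_zero]
      push_cast
      module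
  obtain ⟨m, hm⟩ : ∃ m, Fintype.card F - 1 = m + 1 :=
    ⟨Fintype.card F - 2, by have := Fintype.one_lt_card (α := F); omega⟩
  have hr1 : r ^ (m + 1) = 1 := by rw [← hm]; exact FiniteField.pow_card_sub_one_eq_one r hr0
  have hc1 : ((m + 1 : ℕ) : F) = -1 := by
    rw [← hm, Nat.cast_sub Fintype.card_pos, FiniteField.cast_card_eq_zero]
    simp
  set c : F := -r ^ m with hc
  have hAm : A ^ (m + 1) = 1 + c • N := by
    rw [hApow, hr1, one_smul, hc1, neg_one_mul]
  have hc0 : c ≠ 0 := neg_ne_zero.2 (pow_ne_zero _ hr0)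
  set g' : GL (Fin 3) F := ((g ^ (m + 1) : ↥(blkGroup F)) : GL (Fin 3) F) with hg'
  have hsub : sub2 (g' : Matrix (Fin 3) (Fin 3) F) = 1 + c • N := by
    rw [← hAm]; exact map_pow sub2Hom g (m + 1)
  have hcor : (g' : Matrix (Fin 3) (Fin 3) F) 0 0 = 1 := by
    have h : cornerHom (g ^ (m + 1)) = (cornerHom g) ^ (m + 1) := map_pow cornerHom g (m + 1)
    have hne : cornerHom g ≠ 0 := by
      intro h0
      have hu := congrArg cornerHom (inv_mul_cancel g)
      rw [map_mul, map_one, h0, mul_zero] at hu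
      exact zero_ne_one hu
    calc _ = (cornerHom g) ^ (m + 1) := h
      _ = 1 := by rw [← hm]; exact FiniteField.pow_card_sub_one_eq_one _ hne
  obtain ⟨b1, b2, b3, b4⟩ := (g ^ (m + 1)).2
  rw [← hg'] at b1 b2 b3 b4
  obtain ⟨v, φ, hφ, hNv⟩ : ∃ v φ : Fin 2 → F, φ ⬝ᵥ v = 0 ∧ N = vecMulVec v φ := by
    have h00 : N 1 1 = -N 0 0 := by
      rw [Matrix.trace_fin_two] at htr; linear_combination htr
    have hsq : N 0 0 * N 0 0 + N 0 1 * N 1 0 = 0 := by
      simpa [Matrix.mul_apply, Fin.sum_univ_two] using congrFun (congrFun hN2 0) 0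
    by_cases hb : N 0 1 = 0
    · have h0 : N 0 0 = 0 := by
        rw [hb, zero_mul, add_zero] at hsq
        exact mul_self_eq_zero.1 hsq
      refine ⟨![0, N 1 0], ![1, 0], by simp [dotProduct, Fin.sum_univ_two], ?_⟩
      ext i j
      fin_cases i <;> fin_cases j <;> simp [vecMulVec_apply, h0, hb, h00]
    · refine ⟨![N 0 1, -N 0 0], ![N 0 0 / N 0 1, 1], ?_, ?_⟩
      · simp [dotProduct, Fin.sum_univ_two]; field_simp; ring
      · ext i j
        fin_cases i <;> fin_cases j <;> simp [vecMulVec_apply, h00]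
        · field_simp
        · field_simp; linear_combination hsq
  refine hnt g' (M.pow_mem hgM _) ⟨fun h1 => ?_, c • ![0, v 0, v 1], ![0, φ 0, φ 1], ?_, ?_⟩
  · rw [h1, Units.val_one, sub2_one] at hsub
    exact smul_ne_zero hc0 hN0 (by simpa using hsub)
  · rw [dotProduct_smul, smul_eq_mul]
    simp only [dotProduct, Fin.sum_univ_two] at hφ
    simp [dotProduct, Fin.sum_univ_three, hφ]
  · have e := fun i j => congrFun (congrFun hsub i) j
    have e00 := e 0 0; have e01 := e 0 1; have e10 := e 1 0; have e11 := e 1 1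
    simp [sub2, hNv, vecMulVec_apply] at e00 e01 e10 e11
    ext i j
    fin_cases i <;> fin_cases j <;>
      simp [vecMulVec_apply, b1, b2, b3, b4, hcor, e00, e01, e10, e11, mul_assoc]

end Cfsg.Agent.H48.C6Three
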