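import Cfsg.Agent.H6.Dickson
import Cfsg.Agent.H6.SubfieldMaps

/-!
Subgroups of `PGL₂(K)` of order prime to the characteristic: the three tests used for the
plane case of the `C6` conjunct.
-/

set_option autoImplicit false

open Matrix MatrixGroups

namespace Cfsg.Agent.H48.C6Three

open Cfsg.Agent.H6

/-- The three tests. -/
def PlaneTests (G : Type*) [Group G] : Prop :=
  (∀ a g : G, a ^ 4 = 1 → Commute (g * a ^ 2 * g⁻¹) (a ^ 2)) ∧
  (∀ a : G, a ^ 4 = 1 → a ^ 2 ≠ 1 → ∀ O : Subgroup G, Odd (Nat.card O) →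
    (∀ h : G, ∀ y ∈ O, h * y * h⁻¹ ∈ O) → ∀ y ∈ O, Commute y (a ^ 2)) ∧
  (∀ a b : G, a ^ 3 = 1 → b ^ 3 = 1 →
    a * b = b * a ∨ (a * b) ^ 2 = 1 ∨ (a * b) ^ 3 = 1 ∨ (a * b) ^ 5 = 1)

/-- The tests hold when the non-involutions commute pairwise. -/
lemma planeTests_of_core {G : Type*} [Group G]
    (h : ∀ x y : G, x * x ≠ 1 → y * y ≠ 1 → Commute x y) : PlaneTests G := by
  refine ⟨fun a g ha => ?_, fun a ha ha2 O hO hn y hy => ?_, fun a b ha hb => ?_⟩
  · by_cases h2 : a ^ 2 = 1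
    · simp [h2]
    have h2' : a * a ≠ 1 := by rwa [← sq]
    have h3 : (g * a * g⁻¹) * (g * a * g⁻¹) ≠ 1 := fun e => h2' (by
      have e' : g * (a * a) * g⁻¹ = 1 := by rw [← e]; group
      exact conj_eq_one_iff.mp e')
    have h4 := (h _ _ h3 h2').pow_pow 2 2
    rwa [conj_pow] at h4
  · by_cases hy1 : y * y = 1
    · have h5 : y = 1 := by
        have h6 : orderOf y ∣ 2 := orderOf_dvd_of_pow_eq_one (by rw [sq]; exact hy1)
        have h7 : orderOf y ∣ Nat.card O := Subgroup.orderOf_dvd_natCard O hy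
        rw [← orderOf_eq_one_iff]
        rcases (Nat.dvd_prime Nat.prime_two).mp h6 with h8 | h8
        · exact h8
        · rw [h8] at h7
          exact absurd (even_iff_two_dvd.mpr h7) (Nat.not_even_iff_odd.mpr hO)
      simp [h5]
    exact (h y a hy1 (by rwa [← sq])).pow_right 2
  · by_cases ha1 : a = 1
    · left; simp [ha1]
    by_cases hb1 : b = 1
    · left; simp [hb1]
    refine Or.inl (h a b (fun e => ha1 ?_) (fun e => hb1 ?_))
    · have e3 : a * a * a = 1 := by rw [← ha]; simp [pow_succ, mul_assoc]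
      rwa [e, one_mul] at e3
    · have e3 : b * b * b = 1 := by rw [← hb]; simp [pow_succ, mul_assoc]
      rwa [e, one_mul] at e3

/-- The tests are invariant under isomorphism. -/
lemma planeTests_congr {G H : Type*} [Group G] [Group H] (e : G ≃* H) (h : PlaneTests H) :
    PlaneTests G := by
  obtain ⟨h1, h2, h3⟩ := h
  refine ⟨fun a g ha => ?_, fun a ha ha2 O hO hn y hy => ?_, fun a b ha hb => ?_⟩
  · apply e.injective
    simpa using (h1 (e a) (e g) (by rw [← map_pow, ha, map_one])).eq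
  · apply e.injective
    have := h2 (e a) (by rw [← map_pow, ha, map_one])
      (by rw [← map_pow]; exact fun e' => ha2 (e.injective (by rw [e', map_one])))
      (O.map e.toMonoidHom) (by rwa [Subgroup.card_map_of_injective e.injective])
      (fun k z hz => by
        obtain ⟨x, hx, rfl⟩ := hz
        exact ⟨e.symm k * x * (e.symm k)⁻¹, hn _ _ hx, by simp⟩) (e y) ⟨y, hy, rfl⟩
    simpa using this.eq
  · have := h3 (e a) (e b) (by rw [← map_pow, ha, map_one]) (by rw [← map_pow, hb, map_one])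
    rcases this with h4 | h4 | h4 | h4
    · exact Or.inl (e.injective (by simpa using h4))
    · exact Or.inr (Or.inl (e.injective (by simpa using h4)))
    · exact Or.inr (Or.inr (Or.inl (e.injective (by simpa using h4))))
    · exact Or.inr (Or.inr (Or.inr (e.injective (by simpa using h4))))

/-- A normal odd subgroup is trivial once each candidate element produces an involution. -/
lemma planeTests_of_checks {G : Type*} [Group G]
    (h1 : ∀ a g : G, a ^ 4 = 1 → g * a ^ 2 * g⁻¹ * a ^ 2 = a ^ 2 * (g * a ^ 2 * g⁻¹))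
    (h2 : ∀ y : G, y = 1 ∨ y * y = 1 ∨
      ∃ h : G, (y * (h * y * h⁻¹)) ^ 2 = 1 ∧ y * (h * y * h⁻¹) ≠ 1)
    (h3 : ∀ a b : G, a ^ 3 = 1 → b ^ 3 = 1 →
      a * b = b * a ∨ (a * b) ^ 2 = 1 ∨ (a * b) ^ 3 = 1 ∨ (a * b) ^ 5 = 1) : PlaneTests G := by
  have hkey : ∀ O : Subgroup G, Odd (Nat.card O) → ∀ z ∈ O, z ^ 2 = 1 → z = 1 := by
    intro O hO z hz hz2
    have h7 : orderOf z ∣ Nat.card O := Subgroup.orderOf_dvd_natCard O hz
    rw [← orderOf_eq_one_iff]
    rcases (Nat.dvd_prime Nat.prime_two).mp (orderOf_dvd_of_pow_eq_one hz2) with h8 | h8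
    · exact h8
    · rw [h8] at h7
      exact absurd (even_iff_two_dvd.mpr h7) (Nat.not_even_iff_odd.mpr hO)
  refine ⟨h1, fun a ha ha2 O hO hc y hy => ?_, h3⟩
  by_cases hy1 : y = 1
  · simp [hy1]
  rcases h2 y with h | h | ⟨h, hh, hh1⟩
  · exact absurd h hy1
  · exact absurd (hkey O hO y hy (by rw [sq]; exact h)) hy1
  · exact absurd (hkey O hO _ (O.mul_mem hy (hc h y hy)) hh) hh1

/-- The tests hold when every element has order dividing `2`, `3` or `5`. -/
lemma planeTests_of_orders {G : Type*} [Group G]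
    (h : ∀ x : G, x ^ 2 = 1 ∨ x ^ 3 = 1 ∨ x ^ 5 = 1) : PlaneTests G := by
  have h4 : ∀ a : G, a ^ 4 = 1 → a ^ 2 = 1 := by
    intro a ha
    rcases h a with h2 | h3 | h5
    · exact h2
    · have h1 : a = 1 := by rw [show (4 : ℕ) = 3 + 1 from rfl, pow_succ, h3, one_mul] at ha; exact ha
      simp [h1]
    · have h1 : a = 1 := by rw [show (5 : ℕ) = 4 + 1 from rfl, pow_succ, ha, one_mul] at h5; exact h5
      simp [h1]
  refine ⟨fun a g ha => by simp [h4 a ha], fun a ha ha2 => absurd (h4 a ha) ha2,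
    fun a b _ _ => Or.inr (h (a * b))⟩

lemma planeTests_perm4 : PlaneTests (Equiv.Perm (Fin 4)) :=
  planeTests_of_checks (by decide +kernel) (by decide +kernel) (by decide +kernel)

lemma planeTests_alt4 : PlaneTests (alternatingGroup (Fin 4)) :=
  planeTests_of_orders (by decide +kernel)

lemma planeTests_alt5 : PlaneTests (alternatingGroup (Fin 5)) :=
  planeTests_of_orders (by decide +kernel)

/-- The tests for subgroups of `PSL₂(F)` of order prime to the characteristic. -/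
lemma planeTests_psl {F : Type*} [Field F] [Fintype F] (p : ℕ) [Fact p.Prime] [CharP F p]
    (H : Subgroup PSL(2, F)) (hH : ¬ p ∣ Nat.card H) : PlaneTests H := by
  obtain ⟨c, hc⟩ := exists_outcome p H
  obtain ⟨e⟩ : Nonempty (H ≃* cj c H) :=
    ⟨Subgroup.equivMapOfInjective H (MulAut.conj c).toMonoidHom (MulEquiv.injective _)⟩
  rw [← card_cj c] at hH
  refine planeTests_congr e ?_
  generalize cj c H = K at hc hH
  cases hc with
  | triv h =>
    have : Subsingleton K := (Nat.card_eq_one_iff_unique.1 h).1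
    exact planeTests_of_core fun x y _ _ => Subsingleton.elim _ _
  | dih h =>
    obtain ⟨g, ht, hle⟩ := h
    have := tor_cyclic ht
    refine planeTests_of_core fun x y hx hy => Subtype.ext ?_
    have hxt : (x : PSL(2, F)) ∈ tor g := by
      by_contra hn
      exact hx (Subtype.ext (outside_torDih ht (hle x.2) hn).1)
    have hyt : (y : PSL(2, F)) ∈ tor g := by
      by_contra hn
      exact hy (Subtype.ext (outside_torDih ht (hle y.2) hn).1)
    obtain ⟨t, hgen⟩ := IsCyclic.exists_generator (α := tor g)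
    obtain ⟨i, hi⟩ := Subgroup.mem_zpowers_iff.mp (hgen ⟨x, hxt⟩)
    obtain ⟨j, hj⟩ := Subgroup.mem_zpowers_iff.mp (hgen ⟨y, hyt⟩)
    have hc : Commute (⟨x, hxt⟩ : tor g) ⟨y, hyt⟩ := hi ▸ hj ▸ (Commute.refl t).zpow_zpow i j
    simpa using congrArg Subtype.val hc.eq
  | bor h =>
    obtain ⟨d, hd⟩ := h
    obtain ⟨f⟩ : Nonempty (K ≃* cj d K) :=
      ⟨Subgroup.equivMapOfInjective K (MulAut.conj d).toMonoidHom (MulEquiv.injective _)⟩
    rw [← card_cj d] at hH
    refine planeTests_congr f ?_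
    generalize cj d K = B at hd hH
    refine planeTests_of_core fun x y _ _ => ?_
    obtain ⟨g, hg, hgx⟩ := hd x.2
    obtain ⟨h, hh, hhy⟩ := hd y.2
    let k : upperSL F := ⟨g, hg⟩ * ⟨h, hh⟩ * ⟨g, hg⟩⁻¹ * ⟨h, hh⟩⁻¹
    have hk : (k.1 0 0) ^ 2 = 1 := by
      have h1 : chiSL k = 1 := by
        simp only [k, map_mul, map_inv]
        rw [mul_comm (chiSL _) (chiSL _), mul_inv_cancel_right, mul_inv_cancel]
      rw [← chiSL_val, h1, Units.val_one]
    have hU : π k.1 ∈ Uinf F := π_eq_up_of_chi k.2 hk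
    have hkx : π k.1 = ((x * y * x⁻¹ * y⁻¹ : B) : PSL(2, F)) := by
      simp [k, hgx, hhy]
    obtain ⟨a, ha⟩ := mem_Uinf.1 hU
    have hpow : (π k.1) ^ p = 1 := by
      rw [← ha]
      show (upHom (F := F) (Multiplicative.ofAdd a)) ^ p = 1
      rw [← map_pow, ← ofAdd_nsmul, nsmul_eq_mul, CharP.cast_eq_zero, zero_mul, ofAdd_zero,
        map_one]
    have hxy : x * y * x⁻¹ * y⁻¹ = 1 := by
      have h1 : orderOf (x * y * x⁻¹ * y⁻¹) ∣ p := by
        rw [← Subgroup.orderOf_coe, ← hkx]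
        exact orderOf_dvd_of_pow_eq_one hpow
      rw [← orderOf_eq_one_iff]
      rcases (Nat.dvd_prime (Fact.out : p.Prime)).mp h1 with h2 | h2
      · exact h2
      · exact absurd (h2 ▸ orderOf_dvd_natCard _) hH
    exact commutatorElement_eq_one_iff_commute.mp hxy
  | a4 _ h => obtain ⟨f⟩ := h; exact planeTests_congr f planeTests_alt4
  | s4 _ h _ => obtain ⟨f⟩ := h; exact planeTests_congr f planeTests_perm4
  | a5 _ h _ => obtain ⟨f⟩ := h; exact planeTests_congr f planeTests_alt5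
  | gen h =>
    exfalso
    obtain ⟨r, k, -, hm, -, hk, hr, -⟩ := h
    have hrH : r ∣ Nat.card K := hm ▸ Subgroup.card_dvd_of_le inf_le_right
    have hrU : r ∣ Nat.card (Uinf F) := hm ▸ Subgroup.card_dvd_of_le inf_le_left
    obtain ⟨n, hp, hn⟩ := FiniteField.card F p
    rw [card_Uinf, hn] at hrU
    obtain ⟨i, -, hi⟩ := (Nat.dvd_prime_pow hp).mp hrU
    rcases i with _ | i
    · rw [pow_zero] at hi; omega
    · exact hH ((hi ▸ dvd_pow_self p (Nat.succ_ne_zero i)).trans hrH)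

/-- The three tests inside `PGL₂(K)` for subgroups of order prime to the characteristic. -/
theorem plane_group_tests {K : Type*} [Field K] [Fintype K] {p : ℕ} [Fact p.Prime] [CharP K p]
    (hp : p ≠ 2) (H : Subgroup (Matrix.ProjGenLinGroup (Fin 2) K)) (hH : ¬ p ∣ Nat.card H) :
    (∀ a ∈ H, a ^ 4 = 1 → ∀ g ∈ H, Commute (g * a ^ 2 * g⁻¹) (a ^ 2)) ∧
    (∀ a ∈ H, a ^ 4 = 1 → a ^ 2 ≠ 1 → ∀ O : Subgroup (Matrix.ProjGenLinGroup (Fin 2) K),
      O ≤ H → Odd (Nat.card O) → (∀ h ∈ H, ∀ y ∈ O, h * y * h⁻¹ ∈ O) →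
      ∀ y ∈ O, Commute y (a ^ 2)) ∧
    (∀ a ∈ H, ∀ b ∈ H, a ^ 3 = 1 → b ^ 3 = 1 →
      a * b = b * a ∨ (a * b) ^ 2 = 1 ∨ (a * b) ^ 3 = 1 ∨ (a * b) ^ 5 = 1) := by
  classical
  let F := FiniteField.Extension K p 2
  letI : Fintype F := Fintype.ofFinite F
  haveI : CharP F p := charP_of_injective_algebraMap (algebraMap K F).injective p
  have hcard : Fintype.card F = Fintype.card K ^ 2 := by
    rw [← Nat.card_eq_fintype_card, ← Nat.card_eq_fintype_card]
    exact FiniteField.natCard_extension K p 2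
  have hsq : ∀ x : K, IsSquare (algebraMap K F x) := by
    intro x
    by_cases hx : x = 0
    · simp [hx]
    have hchar : ringChar F ≠ 2 := by rwa [ringChar.eq F p]
    rw [FiniteField.isSquare_iff hchar (by simpa using hx), ← map_pow, hcard]
    obtain ⟨u, hu⟩ : ∃ u, Fintype.card K = 2 * u + 1 := by
      obtain ⟨n, hp', hn⟩ := FiniteField.card K p
      exact hn ▸ (hp'.odd_of_ne_two hp).pow
    have he : Fintype.card K ^ 2 / 2 = (Fintype.card K - 1) * (u + 1) := by
      have : Fintype.card K ^ 2 = 2 * ((2 * u) * (u + 1)) + 1 := by rw [hu]; ring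
      rw [this, hu, Nat.add_sub_cancel]; omega
    rw [he, pow_mul, FiniteField.pow_card_sub_one_eq_one x hx, one_pow, map_one]
  let θ := pglMap (algebraMap K F) hsq
  obtain ⟨e⟩ : Nonempty (H ≃* H.map θ) :=
    ⟨Subgroup.equivMapOfInjective H θ (pglMap_injective _ _)⟩
  obtain ⟨t1, t2, t3⟩ := planeTests_congr e (planeTests_psl p (H.map θ)
    (by rwa [Subgroup.card_map_of_injective (pglMap_injective _ _)]))
  refine ⟨fun a ha h4 g hg => ?_, fun a ha h4 h2 O hOH hO hn y hy => ?_, fun a ha b hb h1 h2 => ?_⟩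
  · exact congrArg Subtype.val (t1 ⟨a, ha⟩ ⟨g, hg⟩ (Subtype.ext (by simpa using h4))).eq
  · exact congrArg Subtype.val (t2 ⟨a, ha⟩ (Subtype.ext (by simpa using h4))
      (fun e' => h2 (by simpa using congrArg Subtype.val e')) (O.subgroupOf H)
      (by rwa [Nat.card_congr (Subgroup.subgroupOfEquivOfLe hOH).toEquiv])
      (fun h z hz => hn _ h.2 _ hz) ⟨y, hOH hy⟩ hy).eq
  · rcases t3 ⟨a, ha⟩ ⟨b, hb⟩ (Subtype.ext (by simpa using h1)) (Subtype.ext (by simpa using h2))
      with h | h | h | h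
    · exact Or.inl (congrArg Subtype.val h)
    · exact Or.inr (Or.inl (by simpa using congrArg Subtype.val h))
    · exact Or.inr (Or.inr (Or.inl (by simpa using congrArg Subtype.val h)))
    · exact Or.inr (Or.inr (Or.inr (by simpa using congrArg Subtype.val h)))

end Cfsg.Agent.H48.C6Three
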