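import Mathlib

/-!
A quaternion group of order `8` from two generators.
-/

set_option autoImplicit false

namespace Cfsg.Agent.H48.C6Three

variable {G : Type*} [Group G]

/-- `i ↦ a ^ i` on `ZMod 4`. -/
def powFour (a : G) (i : ZMod (2 * 2)) : G := a ^ i.val

theorem pow_mod_four {a : G} (ha : a ^ 4 = 1) (n : ℕ) : a ^ (n % (2 * 2)) = a ^ n := by
  conv_rhs => rw [← Nat.mod_add_div n (2 * 2)]
  rw [pow_add, pow_mul, show (2 * 2) = 4 from rfl, ha, one_pow, mul_one]

theorem powFour_add {a : G} (ha : a ^ 4 = 1) (i j : ZMod (2 * 2)) :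
    powFour a (i + j) = powFour a i * powFour a j := by
  rw [powFour, powFour, powFour, ← pow_add, ZMod.val_add, pow_mod_four ha]

theorem powFour_neg {a : G} (ha : a ^ 4 = 1) (i : ZMod (2 * 2)) : powFour a (-i) = (powFour a i)⁻¹ := by
  refine eq_inv_of_mul_eq_one_left ?_
  rw [← powFour_add ha, neg_add_cancel, powFour, ZMod.val_zero, pow_zero]

/-- The quaternion relations give a homomorphism. -/
def quatHom (a b : G) (ha : a ^ 4 = 1) (hb : b * b = a ^ 2) (hab : b * a * b⁻¹ = a⁻¹) :
    QuaternionGroup 2 →* G :=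
  have hconj : ∀ i, powFour a i * b = b * powFour a (-i) := fun i => by
    have h1 : b * powFour a (-i) * b⁻¹ = powFour a i := by
      rw [powFour, ← conj_pow, hab, inv_pow, ← powFour, powFour_neg ha, inv_inv]
    rw [← h1, inv_mul_cancel_right]
  MonoidHom.mk'
    (fun x => match x with
      | .a i => powFour a i
      | .xa i => b * powFour a i)
    (by
      rintro (i | i) (j | j)
      · exact powFour_add ha i j
      · change b * powFour a (j - i) = powFour a i * (b * powFour a j)
        rw [← mul_assoc, hconj, mul_assoc, ← powFour_add ha, sub_eq_neg_add]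
      · change b * powFour a (i + j) = b * powFour a i * powFour a j
        rw [powFour_add ha, mul_assoc]
      · change powFour a ((2 : ℕ) + j - i) = b * powFour a i * (b * powFour a j)
        have h2 : powFour a ((2 : ℕ) : ZMod (2 * 2)) = b * b := by rw [hb]; rfl
        rw [mul_assoc, ← mul_assoc (powFour a i), hconj, mul_assoc b, ← powFour_add ha, ← mul_assoc, ← h2,
          ← powFour_add ha]
        congr 1
        abel)

theorem quatHom_a (a b : G) (ha : a ^ 4 = 1) (hb : b * b = a ^ 2) (hab : b * a * b⁻¹ = a⁻¹)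
    (i : ZMod (2 * 2)) : quatHom a b ha hb hab (.a i) = powFour a i := rfl

theorem quatHom_xa (a b : G) (ha : a ^ 4 = 1) (hb : b * b = a ^ 2) (hab : b * a * b⁻¹ = a⁻¹)
    (i : ZMod (2 * 2)) : quatHom a b ha hb hab (.xa i) = b * powFour a i := rfl

end Cfsg.Agent.H48.C6Three
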