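import Cfsg.Agent.H48.C6Three.Setup

/-!
The elementary abelian group of order `9` in the quotient by scalars.
-/

set_option autoImplicit false
set_option linter.unusedSimpArgs false

namespace Cfsg.Agent.H48.C6Three

open Matrix

variable {F : Type*} [Field F] {ω : F} {M : Subgroup (GL (Fin 3) F)} (h : Overgroup ω M)

namespace Overgroup

/-- A chosen element of `M` with a given matrix. -/
noncomputable def pick (m : Matrix (Fin 3) (Fin 3) F)
    (hm : ∃ g ∈ M, (g : Matrix (Fin 3) (Fin 3) F) = m) : ↥M :=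
  ⟨hm.choose, hm.choose_spec.1⟩

theorem mat_pick (m : Matrix (Fin 3) (Fin 3) F)
    (hm : ∃ g ∈ M, (g : Matrix (Fin 3) (Fin 3) F) = m) : mat (pick m hm) = m :=
  hm.choose_spec.2

/-- The element `diag (1, ω, ω²)` of `M`. -/
noncomputable def eD : ↥M := pick _ h.gens.hD
/-- The cyclic shift in `M`. -/
noncomputable def eP : ↥M := pick _ h.gens.hP
/-- The involution in `M`. -/
noncomputable def eZ : ↥M := pick _ h.gens.hZ
/-- The Fourier matrix in `M`. -/
noncomputable def eF : ↥M := pick _ h.gens.hF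
/-- Its first conjugate in `M`. -/
noncomputable def eG : ↥M := pick _ h.gens.hG
/-- Its second conjugate in `M`. -/
noncomputable def eH : ↥M := pick _ h.gens.hH

theorem mat_D : mat h.eD = matD ω := mat_pick _ _
theorem mat_P : mat h.eP = matP := mat_pick _ _
theorem mat_Z : mat h.eZ = matZ := mat_pick _ _
theorem mat_F : mat h.eF = matF ω := mat_pick _ _
theorem mat_G : mat h.eG = matG ω := mat_pick _ _
theorem mat_H : mat h.eH = matH ω := mat_pick _ _

theorem eZ_sq : h.eZ * h.eZ = 1 :=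
  mat_injective (by rw [mat_mul, h.mat_Z, mat_one, h.root.matZ_sq])

theorem eD_cube : h.eD ^ 3 = 1 :=
  mat_injective (by rw [mat_pow, h.mat_D, mat_one, h.root.matD_cube])

theorem eP_cube : h.eP ^ 3 = 1 :=
  mat_injective (by rw [mat_pow, h.mat_P, mat_one, h.root.matP_cube])

theorem eF_sq : h.eF * h.eF = h.eZ :=
  mat_injective (by rw [mat_mul, h.mat_F, h.mat_Z, h.root.matF_sq])

theorem eG_sq : h.eG * h.eG = h.eZ :=
  mat_injective (by rw [mat_mul, h.mat_G, h.mat_Z, h.root.matG_sq])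

theorem eH_eq : h.eF * h.eG = h.eH :=
  mat_injective (by rw [mat_mul, h.mat_F, h.mat_G, h.mat_H, h.root.matF_matG])

theorem eF_eG : h.eF * h.eG = h.eZ * (h.eG * h.eF) :=
  mat_injective (by rw [mat_mul, mat_mul, mat_mul, h.mat_F, h.mat_G, h.mat_Z, h.root.matF_matG'])

local notation "d" => pr M h.eD
local notation "q" => pr M h.eP
local notation "z" => pr M h.eZ
local notation "f" => pr M h.eF

theorem dq_comm : q * d = d * q := by
  rw [pr_commute_iff]
  exact ⟨ω ^ 2, by rw [h.mat_P, h.mat_D, h.root.matD_mul_matP]⟩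

theorem f_d : f * d = q ^ 2 * f := by
  rw [← map_pow, ← map_mul, ← map_mul]
  congr 1
  exact mat_injective (by rw [mat_mul, mat_mul, mat_pow, h.mat_F, h.mat_D, h.mat_P, h.root.matF_matD])

theorem f_q : f * q = d * f := by
  rw [← map_mul, ← map_mul]
  congr 1
  exact mat_injective (by rw [mat_mul, mat_mul, h.mat_F, h.mat_D, h.mat_P, h.root.matF_matP])

theorem g_d : pr M h.eG * d = d * q ^ 2 * pr M h.eG := by
  rw [← map_pow, ← map_mul, ← map_mul, ← map_mul, pr_eq_iff]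
  exact ⟨ω ^ 2, by rw [mat_mul, mat_mul, mat_mul, mat_pow, h.mat_G, h.mat_D, h.mat_P, h.root.matG_matD,
    smul_mul_assoc]⟩

theorem g_q : pr M h.eG * q = d ^ 2 * q ^ 2 * pr M h.eG := by
  rw [← map_pow, ← map_pow, ← map_mul, ← map_mul, ← map_mul, pr_eq_iff]
  exact ⟨ω, by rw [mat_mul, mat_mul, mat_mul, mat_pow, mat_pow, h.mat_G, h.mat_D, h.mat_P, h.root.matG_matP,
    smul_mul_assoc]⟩

theorem z_d : z * d = d ^ 2 * z := by
  rw [← map_pow, ← map_mul, ← map_mul]
  congr 1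
  exact mat_injective (by rw [mat_mul, mat_mul, mat_pow, h.mat_Z, h.mat_D, h.root.matZ_matD])

theorem z_q : z * q = q ^ 2 * z := by
  rw [← map_pow, ← map_mul, ← map_mul]
  congr 1
  exact mat_injective (by rw [mat_mul, mat_mul, mat_pow, h.mat_Z, h.mat_P, h.root.matZ_matP])

theorem d_cube : d ^ 3 = 1 := by rw [← map_pow, h.eD_cube, map_one]
theorem q_cube : q ^ 3 = 1 := by rw [← map_pow, h.eP_cube, map_one]

/-- A monomial `D^a P^b` is scalar only when trivial. -/
theorem mono_injective {a b : Fin 3} (e : d ^ (a : ℕ) * q ^ (b : ℕ) = 1) : a = 0 ∧ b = 0 := by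
  rw [← map_pow, ← map_pow, ← map_mul, pr_eq_one] at e
  obtain ⟨c, hc⟩ := e
  rw [mat_mul, mat_pow, mat_pow, h.mat_D, h.mat_P] at hc
  have e := fun i j => congrFun (congrFun hc i) j
  have e0 := e 0 0; have e1 := e 1 1; have e2 := e 0 1; have e3 := e 0 2
  have h0 := h.root.ne_zero; have h1 := h.root.ne_one; have h2 := h.root.sq_ne_one
  have h3 := h.root.pow_three
  fin_cases a <;> fin_cases b <;>
    simp [matD, matP, pow_two, Matrix.mul_apply, Fin.sum_univ_three] at e0 e1 e2 e3 ⊢ <;> grind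

/-- `R` modulo scalars: the products `d^a q^b`. -/
def rbar : Subgroup (↥M ⧸ scal M) := Subgroup.closure {pr M h.eD, pr M h.eP}

theorem d_mem : d ∈ h.rbar := Subgroup.subset_closure (Or.inl rfl)
theorem q_mem : q ∈ h.rbar := Subgroup.subset_closure (Or.inr rfl)

theorem mem_rbar {x : ↥M ⧸ scal M} :
    x ∈ h.rbar ↔ ∃ a b : Fin 3, x = d ^ (a : ℕ) * q ^ (b : ℕ) := by
  have hc : ∀ m n : ℕ, Commute (d ^ m) (q ^ n) := fun m n => (Commute.pow_pow h.dq_comm.symm m n)
  have hred : ∀ m n : ℕ, ∃ a b : Fin 3, d ^ m * q ^ n = d ^ (a : ℕ) * q ^ (b : ℕ) := fun m n =>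
    ⟨⟨m % 3, Nat.mod_lt _ (by norm_num)⟩, ⟨n % 3, Nat.mod_lt _ (by norm_num)⟩, by
      rw [pow_eq_pow_mod m h.d_cube, pow_eq_pow_mod n h.q_cube]⟩
  constructor
  · intro hx
    induction hx using Subgroup.closure_induction with
    | mem x hx =>
      rcases hx with rfl | rfl
      · exact ⟨1, 0, by simp⟩
      · exact ⟨0, 1, by simp⟩
    | one => exact ⟨0, 0, by simp⟩
    | mul x y _ _ hx hy =>
      obtain ⟨a, b, rfl⟩ := hx
      obtain ⟨a', b', rfl⟩ := hy
      rw [mul_assoc, ← mul_assoc (q ^ (b : ℕ)), ← (hc a' b).eq, mul_assoc, ← mul_assoc, ← pow_add, ← pow_add]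
      exact hred _ _
    | inv x _ hx =>
      obtain ⟨a, b, rfl⟩ := hx
      have e : (d ^ (a : ℕ) * q ^ (b : ℕ))⁻¹ = d ^ (2 * (a : ℕ)) * q ^ (2 * (b : ℕ)) := by
        refine inv_eq_of_mul_eq_one_right ?_
        rw [mul_assoc, ← mul_assoc (q ^ (b : ℕ)), ← (hc (2 * (a : ℕ)) b).eq, mul_assoc, ← mul_assoc,
          ← pow_add, ← pow_add, show (a : ℕ) + 2 * a = 3 * a by ring, show (b : ℕ) + 2 * b = 3 * b by ring,
          pow_mul, pow_mul, h.d_cube, h.q_cube, one_pow, one_pow, one_mul]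
      rw [e]
      exact hred _ _
  · rintro ⟨a, b, rfl⟩
    exact mul_mem (pow_mem h.d_mem _) (pow_mem h.q_mem _)

theorem rbar_comm {x y : ↥M ⧸ scal M} (hx : x ∈ h.rbar) (hy : y ∈ h.rbar) : x * y = y * x := by
  obtain ⟨a, b, rfl⟩ := h.mem_rbar.1 hx
  obtain ⟨a', b', rfl⟩ := h.mem_rbar.1 hy
  exact ((((Commute.refl d).pow_pow _ _).mul_left (Commute.pow_pow h.dq_comm _ _)).mul_right
    (((Commute.pow_pow h.dq_comm.symm _ _)).mul_left ((Commute.refl q).pow_pow _ _))).eq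

theorem rbar_pow_three {x : ↥M ⧸ scal M} (hx : x ∈ h.rbar) : x ^ 3 = 1 := by
  obtain ⟨a, b, rfl⟩ := h.mem_rbar.1 hx
  rw [(Commute.pow_pow h.dq_comm.symm _ _).mul_pow, ← pow_mul, ← pow_mul, mul_comm (a : ℕ), mul_comm (b : ℕ),
    pow_mul, pow_mul, h.d_cube, h.q_cube, one_pow, one_pow, one_mul]

theorem card_rbar : Nat.card ↥h.rbar = 9 := by
  let e : Fin 3 × Fin 3 → ↥h.rbar := fun x =>
    ⟨d ^ (x.1 : ℕ) * q ^ (x.2 : ℕ), h.mem_rbar.2 ⟨_, _, rfl⟩⟩
  have hb : Function.Bijective e := by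
    refine ⟨?_, fun x => ?_⟩
    · rintro ⟨a, b⟩ ⟨a', b'⟩ he
      have he' : d ^ (a : ℕ) * q ^ (b : ℕ) = d ^ (a' : ℕ) * q ^ (b' : ℕ) := congrArg Subtype.val he
      have hz : d ^ ((a - a' : Fin 3) : ℕ) * q ^ ((b - b' : Fin 3) : ℕ) = 1 := by
        have hd : ∀ u v : Fin 3, d ^ ((u - v : Fin 3) : ℕ) * d ^ (v : ℕ) = d ^ (u : ℕ) := fun u v => by
          rw [← pow_add, pow_eq_pow_mod _ h.d_cube]
          congr 1
          fin_cases u <;> fin_cases v <;> rfl
        have hq : ∀ u v : Fin 3, q ^ ((u - v : Fin 3) : ℕ) * q ^ (v : ℕ) = q ^ (u : ℕ) := fun u v => by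
          rw [← pow_add, pow_eq_pow_mod _ h.q_cube]
          congr 1
          fin_cases u <;> fin_cases v <;> rfl
        rw [← hd a a', ← hq b b', mul_assoc, ← mul_assoc (d ^ (a' : ℕ)),
          (Commute.pow_pow h.dq_comm.symm (a' : ℕ) ((b - b' : Fin 3) : ℕ)).eq, mul_assoc,
          ← mul_assoc] at he'
        exact mul_eq_right.1 he'
      obtain ⟨h1, h2⟩ := h.mono_injective hz
      rw [sub_eq_zero] at h1 h2
      rw [h1, h2]
    · obtain ⟨a, b, hab⟩ := h.mem_rbar.1 x.2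
      exact ⟨(a, b), Subtype.ext hab.symm⟩
  rw [← Nat.card_eq_of_bijective e hb]
  simp

/-- The centralizer of `R` modulo scalars is `R`. -/
theorem centralizer_rbar {x : ↥M ⧸ scal M} (h1 : x * d = d * x) (h2 : x * q = q * x) : x ∈ h.rbar := by
  obtain ⟨g, rfl⟩ := pr_surjective x
  obtain ⟨c, hc⟩ := pr_commute_iff.1 h1
  obtain ⟨e, he⟩ := pr_commute_iff.1 h2
  have hc3 : c ^ 3 = 1 := h.smul_cube (g := g * h.eD) (k := h.eD * g) (by rw [mat_mul, mat_mul, hc])
  have he3 : e ^ 3 = 1 := h.smul_cube (g := g * h.eP) (k := h.eP * g) (by rw [mat_mul, mat_mul, he])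
  rw [h.mat_D] at hc
  rw [h.mat_P] at he
  have hroot : ∀ x : F, x ^ 3 = 1 → ∃ k : Fin 3, x = ω ^ (k : ℕ) := by
    intro x hx
    have : (x - 1) * ((x - ω) * (x - ω ^ 2)) = 0 := by
      linear_combination hx + (-(x ^ 2) + x) * h.root.eq + (x - 1) * h.root.pow_three
    rcases mul_eq_zero.1 this with h' | h'
    · exact ⟨0, by simpa [sub_eq_zero] using h'⟩
    rcases mul_eq_zero.1 h' with h' | h'
    · exact ⟨1, by simpa [sub_eq_zero] using h'⟩
    · exact ⟨2, by simpa [sub_eq_zero] using h'⟩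
  obtain ⟨k, rfl⟩ := hroot c hc3
  obtain ⟨l, rfl⟩ := hroot e he3
  refine h.mem_rbar.2 ⟨l, -k, ?_⟩
  rw [← map_pow, ← map_pow, ← map_mul, pr_eq_iff]
  refine ⟨mat g 0 k, ?_⟩
  rw [mat_mul, mat_pow, mat_pow, h.mat_D, h.mat_P]
  generalize mat g = X at hc he ⊢
  have hdiag : matD ω = Matrix.diagonal (fun i : Fin 3 => ω ^ (i : ℕ)) := by
    ext i j; fin_cases i <;> fin_cases j <;> simp [matD]
  rw [hdiag] at hc ⊢
  have hinj : ∀ u v : Fin 3, ω ^ (u : ℕ) = ω ^ (v : ℕ) → u = v := by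
    intro u v
    have h0 := h.root.ne_zero; have h1 := h.root.ne_one; have h2 := h.root.sq_ne_one
    have h4 := h.root.sq_ne_self
    fin_cases u <;> fin_cases v <;> simp <;> grind
  have hadd : ∀ u v : Fin 3, ω ^ ((u + v : Fin 3) : ℕ) = ω ^ (u : ℕ) * ω ^ (v : ℕ) := by
    intro u v
    rw [← pow_add, pow_eq_pow_mod ((u : ℕ) + v) h.root.pow_three, Fin.val_add]
  have hA : ∀ i j : Fin 3, j ≠ i + k → X i j = 0 := by
    intro i j hij
    have e := congrFun (congrFun hc i) j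
    rw [Matrix.mul_diagonal, Matrix.smul_apply, Matrix.diagonal_mul, smul_eq_mul, ← mul_assoc, ← hadd,
      add_comm k i, mul_comm (ω ^ ((i + k : Fin 3) : ℕ))] at e
    by_contra hne
    exact hij (hinj _ _ (mul_left_cancel₀ hne e))
  have hB : ∀ i j : Fin 3, X i (j + 1) = ω ^ (l : ℕ) * X (i - 1) j := by
    intro i j
    have e := congrFun (congrFun he i) j
    fin_cases i <;> fin_cases j <;>
      simpa [matP, Matrix.mul_apply, Fin.sum_univ_three, Matrix.vecMul, dotProduct,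
        show (-1 : Fin 3) = 2 from rfl] using e
  have hC : ∀ i : Fin 3, X i (i + k) = (ω ^ (i : ℕ)) ^ (l : ℕ) * X 0 k := by
    intro i
    have s1 := hB 1 k
    have s2 := hB 2 (k + 1)
    rw [show (1 : Fin 3) - 1 = 0 from rfl] at s1
    rw [show (2 : Fin 3) - 1 = 1 from rfl, show k + 1 + 1 = 2 + k by fin_cases k <;> rfl,
      s1] at s2
    rw [show k + 1 = 1 + k from add_comm _ _] at s1
    fin_cases i <;> simp
    · exact s1
    · rw [← pow_mul, two_mul, pow_add]; linear_combination s2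
  have hP : ∀ i j : Fin 3, ((matP : Matrix (Fin 3) (Fin 3) F) ^ ((-k : Fin 3) : ℕ)) i j =
      if j = i + k then 1 else 0 := by
    intro i j
    fin_cases k <;> fin_cases i <;> fin_cases j <;>
      simp [matP, pow_two, Matrix.mul_apply, Fin.sum_univ_three, Matrix.vecMul, dotProduct,
        show (-1 : Fin 3) = 2 from rfl, show (-2 : Fin 3) = 1 from rfl]
  ext i j
  rw [Matrix.smul_apply, Matrix.diagonal_pow, Matrix.diagonal_mul, hP, smul_eq_mul, Pi.pow_apply]
  split_ifs with hij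
  · rw [hij, hC, mul_one, mul_comm]
  · rw [hA i j hij, mul_zero, mul_zero]

end Overgroup

end Cfsg.Agent.H48.C6Three
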