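import Cfsg.Agent.H48.C6Three.Gens

/-!
Relations between the standard generators of `3^(1+2) : Q₈`.
-/

set_option autoImplicit false
set_option linter.unusedSimpArgs false

namespace Cfsg.Agent.H48.C6Three

open Matrix

variable {F : Type*} [Field F] {ω : F}

/-- `ω` is a primitive cube root of unity and `6 ≠ 0`. -/
structure CubeRoot (ω : F) : Prop where
  eq : ω ^ 2 + ω + 1 = 0
  three : (3 : F) ≠ 0
  two : (2 : F) ≠ 0

namespace CubeRoot

variable (h : CubeRoot ω)
include h

theorem pow_three : ω ^ 3 = 1 := by linear_combination (ω - 1) * h.eq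

theorem sq_eq : ω ^ 2 = -1 - ω := by linear_combination h.eq

theorem ne_one : ω ≠ 1 := fun e => h.three (by rw [← h.eq, e]; norm_num)

theorem ne_zero : ω ≠ 0 := fun e => one_ne_zero (α := F) (by simpa [e] using h.eq)

theorem sq_ne_one : ω ^ 2 ≠ 1 := fun e => h.ne_one (by linear_combination h.pow_three - ω * e)

theorem sq_ne_self : ω ^ 2 ≠ ω := fun e =>
  h.ne_one (mul_left_cancel₀ h.ne_zero (by linear_combination e))

theorem sqrt_ne : (1 : F) + 2 * ω ≠ 0 := fun e =>
  h.three (by linear_combination 4 * h.eq - (1 + 2 * ω) * e)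

/-- The normalising factor of the Fourier matrix. -/
theorem inv_eq : (1 + 2 * ω)⁻¹ = -(1 + 2 * ω) / 3 := by
  refine inv_eq_of_mul_eq_one_right ?_
  field_simp [h.three]
  linear_combination -4 * h.eq

theorem matD_mul_matP : matP * matD ω = ω ^ 2 • (matD ω * (matP : Matrix (Fin 3) (Fin 3) F)) := by
  have := h.pow_three
  ext i j; fin_cases i <;> fin_cases j <;>
    simp [matD, matP, Matrix.mul_apply, Fin.sum_univ_three] <;> grind

theorem matD_cube : matD ω ^ 3 = 1 := by
  have := h.pow_three
  rw [pow_succ, pow_two]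
  ext i j; fin_cases i <;> fin_cases j <;>
    simp [matD, Matrix.mul_apply, Fin.sum_univ_three] <;> grind

theorem matP_cube : (matP : Matrix (Fin 3) (Fin 3) F) ^ 3 = 1 := by
  rw [pow_succ, pow_two]
  ext i j; fin_cases i <;> fin_cases j <;> simp [matP, Matrix.mul_apply, Fin.sum_univ_three]

theorem matZ_sq : (matZ : Matrix (Fin 3) (Fin 3) F) * matZ = 1 := by
  ext i j; fin_cases i <;> fin_cases j <;> simp [matZ, Matrix.mul_apply, Fin.sum_univ_three]

theorem matZ_matD : matZ * matD ω = matD ω ^ 2 * matZ := by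
  have := h.pow_three
  rw [pow_two]
  ext i j; fin_cases i <;> fin_cases j <;>
    simp [matD, matZ, Matrix.mul_apply, Fin.sum_univ_three] <;> grind

theorem matZ_matP : matZ * matP = (matP : Matrix (Fin 3) (Fin 3) F) ^ 2 * matZ := by
  rw [pow_two]
  ext i j; fin_cases i <;> fin_cases j <;> simp [matP, matZ, Matrix.mul_apply, Fin.sum_univ_three]

theorem matG_eq : matG ω = (1 + 2 * ω)⁻¹ •
    !![1, ω ^ 2, ω ^ 2; ω, ω, ω ^ 2; ω, ω ^ 2, ω] := by
  have := h.pow_three
  ext i j; fin_cases i <;> fin_cases j <;>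
    simp [matG, matE, matF, Matrix.mul_apply, Fin.sum_univ_three] <;> grind

theorem matH_eq : matH ω = (1 + 2 * ω)⁻¹ •
    !![1, ω, ω; ω ^ 2, ω, ω ^ 2; ω ^ 2, ω ^ 2, ω] := by
  have := h.pow_three
  ext i j; fin_cases i <;> fin_cases j <;>
    simp [matH, matE, matF, Matrix.mul_apply, Fin.sum_univ_three] <;> grind

theorem matF_sq : matF ω * matF ω = matZ := by
  have := h.eq; have := h.three
  rw [matF, h.inv_eq]
  ext i j; fin_cases i <;> fin_cases j <;>
    simp [matZ, Matrix.mul_apply, Fin.sum_univ_three] <;> grind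

theorem matG_sq : matG ω * matG ω = matZ := by
  have := h.eq; have := h.three
  rw [h.matG_eq, h.inv_eq]
  ext i j; fin_cases i <;> fin_cases j <;>
    simp [matZ, Matrix.mul_apply, Fin.sum_univ_three] <;> grind

theorem matH_sq : matH ω * matH ω = matZ := by
  have := h.eq; have := h.three
  rw [h.matH_eq, h.inv_eq]
  ext i j; fin_cases i <;> fin_cases j <;>
    simp [matZ, Matrix.mul_apply, Fin.sum_univ_three] <;> grind

theorem matF_matG : matF ω * matG ω = matH ω := by
  have := h.eq; have := h.three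
  rw [matF, h.matH_eq, h.matG_eq, h.inv_eq]
  ext i j; fin_cases i <;> fin_cases j <;>
    simp [Matrix.mul_apply, Fin.sum_univ_three] <;> grind

theorem matF_matG' : matF ω * matG ω = matZ * (matG ω * matF ω) := by
  have := h.eq; have := h.three
  rw [matF, h.matG_eq, h.inv_eq]
  ext i j; fin_cases i <;> fin_cases j <;>
    simp [matZ, Matrix.mul_apply, Fin.sum_univ_three] <;> grind

theorem matF_matD : matF ω * matD ω = matP ^ 2 * matF ω := by
  have := h.pow_three
  rw [pow_two]
  ext i j; fin_cases i <;> fin_cases j <;>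
    simp [matF, matD, matP, Matrix.mul_apply, Fin.sum_univ_three] <;> grind

theorem matF_matP : matF ω * matP = matD ω * matF ω := by
  have := h.pow_three
  ext i j; fin_cases i <;> fin_cases j <;>
    simp [matF, matD, matP, Matrix.mul_apply, Fin.sum_univ_three] <;> grind

theorem matG_matD : matG ω * matD ω = ω ^ 2 • (matD ω * matP ^ 2) * matG ω := by
  have := h.pow_three
  rw [h.matG_eq, pow_two (matP : Matrix (Fin 3) (Fin 3) F)]
  ext i j; fin_cases i <;> fin_cases j <;>
    simp [matD, matP, Matrix.mul_apply, Fin.sum_univ_three] <;> grind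

theorem matG_matP : matG ω * matP = ω • (matD ω ^ 2 * matP ^ 2) * matG ω := by
  have := h.pow_three
  rw [h.matG_eq, pow_two (matP : Matrix (Fin 3) (Fin 3) F), pow_two (matD ω)]
  ext i j; fin_cases i <;> fin_cases j <;>
    simp [matD, matP, Matrix.mul_apply, Fin.sum_univ_three] <;> grind

theorem matH_matD : matH ω * matD ω = ω • (matD ω ^ 2 * matP ^ 2) * matH ω := by
  have := h.pow_three
  rw [h.matH_eq, pow_two (matP : Matrix (Fin 3) (Fin 3) F), pow_two (matD ω)]
  ext i j; fin_cases i <;> fin_cases j <;>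
    simp [matD, matP, Matrix.mul_apply, Fin.sum_univ_three] <;> grind

theorem matH_matP : matH ω * matP = ω ^ 2 • (matD ω ^ 2 * matP) * matH ω := by
  have := h.pow_three
  rw [h.matH_eq, pow_two (matD ω)]
  ext i j; fin_cases i <;> fin_cases j <;>
    simp [matD, matP, Matrix.mul_apply, Fin.sum_univ_three] <;> grind

end CubeRoot

end Cfsg.Agent.H48.C6Three
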