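import Cfsg.Agent.H48.C6Three.Gens

/-!
The standard extraspecial subgroup of order `27` of `GL₃`.
-/

set_option autoImplicit false

namespace Cfsg.Agent.H48.C6Three

variable {F : Type*} [Field F]

/-- The subgroup generated by `diag (1, ω, ω²)` and the cyclic shift. -/
def stdR (ω : F) : Subgroup (GL (Fin 3) F) :=
  Subgroup.closure {g | (g : Matrix (Fin 3) (Fin 3) F) = matD ω ∨ (g : Matrix (Fin 3) (Fin 3) F) = matP}

end Cfsg.Agent.H48.C6Three
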