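import Cfsg.Agent.H48.C6Three.Rels
import Cfsg.Agent.H48.C6Three.StdR
import Cfsg.Agent.H48.C6Three.Plane

/-!
A putative overgroup of the extraspecial normaliser and its quotient by scalars.
-/

set_option autoImplicit false

namespace Cfsg.Agent.H48.C6Three

open Matrix

variable {F : Type*} [Field F]

/-- A subgroup of `SL₃` with the standard generators and without transvections. -/
structure Overgroup (ω : F) (M : Subgroup (GL (Fin 3) F)) : Prop where
  root : CubeRoot ω
  five : (5 : F) ≠ 0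
  det : M ≤ Cfsg.Geo.specialLinear (Fin 3) F
  gens : HasStdGens ω M
  nt : ∀ g ∈ M, ¬ IsTransv g

variable {ω : F} {M : Subgroup (GL (Fin 3) F)}

/-- The matrix of an element of `M`. -/
abbrev mat (g : ↥M) : Matrix (Fin 3) (Fin 3) F := ((g : GL (Fin 3) F) : Matrix (Fin 3) (Fin 3) F)

theorem mat_mul (g h : ↥M) : mat (g * h) = mat g * mat h := by
  simp [mat]

theorem mat_one : mat (1 : ↥M) = 1 := rfl

theorem mat_pow (g : ↥M) (n : ℕ) : mat (g ^ n) = mat g ^ n := by
  simp [mat]

theorem mat_injective : Function.Injective (mat : ↥M → Matrix (Fin 3) (Fin 3) F) :=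
  fun _ _ h => Subtype.ext (Units.ext h)

theorem mat_inv_mul (g : ↥M) : mat g⁻¹ * mat g = 1 := by
  rw [← mat_mul, inv_mul_cancel, mat_one]

theorem mat_mul_inv (g : ↥M) : mat g * mat g⁻¹ = 1 := by
  rw [← mat_mul, mul_inv_cancel, mat_one]

theorem mat_ne_zero (g : ↥M) : mat g ≠ 0 := (Units.isUnit (g : GL (Fin 3) F)).ne_zero

/-- The scalars in `M`. -/
abbrev scal (M : Subgroup (GL (Fin 3) F)) : Subgroup ↥M := (Cfsg.Geo.scalars (Fin 3) F).subgroupOf M

/-- The projection modulo scalars. -/
abbrev pr (M : Subgroup (GL (Fin 3) F)) : ↥M →* ↥M ⧸ scal M := QuotientGroup.mk' (scal M)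

theorem pr_surjective : Function.Surjective (pr M) := QuotientGroup.mk'_surjective _

theorem mem_scal {g : ↥M} : g ∈ scal M ↔ ∃ c : F, mat g = c • 1 := by
  rw [Subgroup.mem_subgroupOf, Cfsg.Geo.mem_scalars_iff]
  constructor
  · rintro ⟨c, hc⟩
    exact ⟨c, hc⟩
  · rintro ⟨c, hc⟩
    have h0 : c ≠ 0 := fun e => mat_ne_zero g (by rw [hc, e, zero_smul])
    exact ⟨Units.mk0 c h0, hc⟩

theorem pr_eq_one {g : ↥M} : pr M g = 1 ↔ ∃ c : F, mat g = c • 1 := by
  rw [QuotientGroup.mk'_apply, QuotientGroup.eq_one_iff, mem_scal]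

theorem pr_eq_iff {g h : ↥M} : pr M g = pr M h ↔ ∃ c : F, mat g = c • mat h := by
  rw [← mul_inv_eq_one, ← map_inv, ← map_mul, pr_eq_one]
  constructor
  · rintro ⟨c, hc⟩
    refine ⟨c, ?_⟩
    rw [← mul_one (mat g), ← mat_inv_mul h, ← mul_assoc, ← mat_mul, hc, smul_mul_assoc, one_mul]
  · rintro ⟨c, hc⟩
    exact ⟨c, by rw [mat_mul, hc, smul_mul_assoc, mat_mul_inv]⟩

theorem pr_commute_iff {g h : ↥M} :
    pr M g * pr M h = pr M h * pr M g ↔ ∃ c : F, mat g * mat h = c • (mat h * mat g) := by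
  rw [← map_mul, ← map_mul, pr_eq_iff, mat_mul, mat_mul]

variable (h : Overgroup ω M)
include h

theorem Overgroup.mat_det (g : ↥M) : (mat g).det = 1 :=
  congrArg Units.val (MonoidHom.mem_ker.mp (h.det g.2))

/-- A scalar between two elements of `M` is a cube root of unity. -/
theorem Overgroup.smul_cube {g k : ↥M} {c : F} (hc : mat g = c • mat k) : c ^ 3 = 1 := by
  have := congrArg Matrix.det hc
  rw [Matrix.det_smul, h.mat_det, h.mat_det, Fintype.card_fin, mul_one] at this
  exact this.symm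

/-- A scalar between two involutive elements is `1`. -/
theorem Overgroup.smul_eq_one {g k : ↥M} {c : F} (hc : mat g = c • mat k) (hg : g * g = 1)
    (hk : k * k = 1) : c = 1 := by
  have h2 : c * c = 1 := by
    have e := congrArg mat hg
    rw [mat_mul, mat_one, hc, smul_mul_smul_comm, ← mat_mul, hk, mat_one] at e
    simpa using congrFun (congrFun e 0) 0
  have h3 := h.smul_cube hc
  linear_combination h3 - c * h2

/-- `pr` is injective on involutive elements. -/
theorem Overgroup.eq_of_pr_eq {g k : ↥M} (hg : g * g = 1) (hk : k * k = 1) (e : pr M g = pr M k) :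
    g = k := by
  obtain ⟨c, hc⟩ := pr_eq_iff.1 e
  apply mat_injective
  rw [hc, h.smul_eq_one hc hg hk, one_smul]

/-- Conjugation of an involution is exact. -/
theorem Overgroup.commute_of_pr {g k : ↥M} (hk : k * k = 1)
    (e : pr M g * pr M k = pr M k * pr M g) : g * k = k * g := by
  have e' : pr M (g * k * g⁻¹) = pr M k := by rw [map_mul, map_mul, e, map_inv, mul_inv_cancel_right]
  have := h.eq_of_pr_eq (g := g * k * g⁻¹) (by rw [show g * k * g⁻¹ * (g * k * g⁻¹) = g * (k * k) * g⁻¹ by group,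
    hk, mul_one, mul_inv_cancel]) hk e'
  calc g * k = g * k * g⁻¹ * g := by group
    _ = k * g := by rw [this]

/-- Every element of the quotient of order dividing `2` lifts to an involutive element. -/
theorem Overgroup.exists_lift_two {x : ↥M ⧸ scal M} (hx : x * x = 1) :
    ∃ g : ↥M, g * g = 1 ∧ pr M g = x := by
  obtain ⟨g, rfl⟩ := pr_surjective x
  rw [← map_mul] at hx
  obtain ⟨c, hc⟩ := pr_eq_one.1 hx
  have hc' : mat (g * g) = c • mat (1 : ↥M) := by rw [mat_one, hc]
  refine ⟨g * (g * g), mat_injective ?_, by rw [map_mul, hx, mul_one]⟩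
  have h3 := h.smul_cube hc'
  rw [show g * (g * g) * (g * (g * g)) = (g * g) * (g * g) * (g * g) by group, mat_mul, mat_mul, hc, mat_one]
  simp only [smul_mul_smul_comm, mul_one]
  rw [show c * c * c = c ^ 3 by ring, h3, one_smul]

end Cfsg.Agent.H48.C6Three
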