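import Cfsg.Agent.H48.C6Three.Quot

/-!
A solvable normal subgroup of the quotient by scalars contains the elementary abelian group `R`,
and normality of `R` puts `M` in the normaliser of the extraspecial group.
-/

set_option autoImplicit false
set_option linter.unusedSimpArgs false

namespace Cfsg.Agent.H48.C6Three

open Matrix

variable {F : Type*} [Field F] {ω : F}

/-- A monomial matrix for a three-cycle has scalar cube. -/
theorem band_cube (X : Matrix (Fin 3) (Fin 3) F) (k : Fin 3) (hk : k ≠ 0)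
    (hX : ∀ i j : Fin 3, j ≠ i + k → X i j = 0) : ∃ c : F, X ^ 3 = c • 1 := by
  refine ⟨X 0 k * X k (k + k) * X (k + k) 0, ?_⟩
  fin_cases k
  · exact absurd rfl hk
  · have := hX 0 0 (by decide); have := hX 0 2 (by decide); have := hX 1 0 (by decide)
    have := hX 1 1 (by decide); have := hX 2 1 (by decide); have := hX 2 2 (by decide)
    rw [pow_succ, pow_two]
    ext i j; fin_cases i <;> fin_cases j <;>
      simp [Matrix.mul_apply, Fin.sum_univ_three, *] <;> ring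
  · have := hX 0 0 (by decide); have := hX 0 1 (by decide); have := hX 1 1 (by decide)
    have := hX 1 2 (by decide); have := hX 2 0 (by decide); have := hX 2 2 (by decide)
    rw [pow_succ, pow_two]
    ext i j; fin_cases i <;> fin_cases j <;>
      simp [Matrix.mul_apply, Fin.sum_univ_three, *] <;> ring

/-- A diagonal matrix commuting with a circulant is scalar, or the circulant is scalar. -/
theorem diag_circ {X Y : Matrix (Fin 3) (Fin 3) F} (hX : ∀ i j, i ≠ j → X i j = 0)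
    (hY : Y * matP = matP * Y) (hXY : X * Y = Y * X) :
    (∃ c : F, X = c • 1) ∨ ∃ c : F, Y = c • 1 := by
  have x01 := hX 0 1 (by decide); have x02 := hX 0 2 (by decide); have x10 := hX 1 0 (by decide)
  have x12 := hX 1 2 (by decide); have x20 := hX 2 0 (by decide); have x21 := hX 2 1 (by decide)
  have c00 := congrFun (congrFun hY 0) 0; have c01 := congrFun (congrFun hY 0) 1
  have c02 := congrFun (congrFun hY 0) 2; have c10 := congrFun (congrFun hY 1) 0
  have c11 := congrFun (congrFun hY 1) 1; have c12 := congrFun (congrFun hY 1) 2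
  have c20 := congrFun (congrFun hY 2) 0; have c21 := congrFun (congrFun hY 2) 1
  have c22 := congrFun (congrFun hY 2) 2
  have e01 := congrFun (congrFun hXY 0) 1; have e02 := congrFun (congrFun hXY 0) 2
  have e12 := congrFun (congrFun hXY 1) 2; have e10 := congrFun (congrFun hXY 1) 0
  have e20 := congrFun (congrFun hXY 2) 0; have e21 := congrFun (congrFun hXY 2) 1
  simp [matP, Matrix.mul_apply, Fin.sum_univ_three, Matrix.vecMul, dotProduct] at c00 c01 c02 c10 c11 c12 c20 c21 c22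
  simp [Matrix.mul_apply, Fin.sum_univ_three, x01, x02, x10, x12, x20, x21] at e01 e02 e10 e12 e20 e21
  by_cases h : Y 0 1 = 0 ∧ Y 0 2 = 0
  · refine Or.inr ⟨Y 0 0, ?_⟩
    ext i j; fin_cases i <;> fin_cases j <;> simp <;> grind
  · refine Or.inl ⟨X 0 0, ?_⟩
    ext i j; fin_cases i <;> fin_cases j <;> simp [x01, x02, x10, x12, x20, x21] <;> grind

/-- The cancellation of the four norms against the full norm. -/
theorem four_norms {A : Type*} [CommGroup A] {a b₁ b₂ c₁ c₂ e₁ e₂ f₁ f₂ : A}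
    (h1 : a * b₁ * b₂ = 1) (h2 : a * c₁ * c₂ = 1) (h3 : a * e₁ * e₂ = 1) (h4 : a * f₁ * f₂ = 1)
    (g1 : b₁ * e₁ * f₁ = 1) (g2 : b₂ * f₂ * e₂ = 1) : a ^ 3 = 1 := by
  have e : a ^ 3 * ((a * c₁ * c₂) * (b₁ * e₁ * f₁) * (b₂ * f₂ * e₂)) =
      (a * b₁ * b₂) * (a * c₁ * c₂) * (a * e₁ * e₂) * (a * f₁ * f₂) := by
    simp only [pow_succ, pow_zero, one_mul]
    ac_rfl
  rw [h1, h2, h3, h4, g1, g2] at e
  simpa using e

variable {M : Subgroup (GL (Fin 3) F)} (h : Overgroup ω M)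

namespace Overgroup

include h

local notation "d" => pr M h.eD
local notation "q" => pr M h.eP
local notation "f" => pr M h.eF

theorem root_cases {x : F} (hx : x ^ 3 = 1) : ∃ k : Fin 3, x = ω ^ (k : ℕ) := by
  have : (x - 1) * ((x - ω) * (x - ω ^ 2)) = 0 := by
    linear_combination hx + (-(x ^ 2) + x) * h.root.eq + (x - 1) * h.root.pow_three
  rcases mul_eq_zero.1 this with h' | h'
  · exact ⟨0, by simpa [sub_eq_zero] using h'⟩
  rcases mul_eq_zero.1 h' with h' | h'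
  · exact ⟨1, by simpa [sub_eq_zero] using h'⟩
  · exact ⟨2, by simpa [sub_eq_zero] using h'⟩

/-- An element commuting with `D` modulo scalars is diagonal, or has scalar cube. -/
theorem diag_or_cube {g : ↥M} (hg : pr M g * d = d * pr M g) :
    (g * h.eD = h.eD * g ∧ ∀ i j, i ≠ j → mat g i j = 0) ∨ pr M g ^ 3 = 1 := by
  obtain ⟨c, hc⟩ := pr_commute_iff.1 hg
  have hc3 : c ^ 3 = 1 := h.smul_cube (g := g * h.eD) (k := h.eD * g) (by rw [mat_mul, mat_mul, hc])
  obtain ⟨k, rfl⟩ := h.root_cases hc3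
  have hdiag : matD ω = Matrix.diagonal (fun i : Fin 3 => ω ^ (i : ℕ)) := by
    ext i j; fin_cases i <;> fin_cases j <;> simp [matD]
  rw [h.mat_D] at hc
  have hinj : ∀ u v : Fin 3, ω ^ (u : ℕ) = ω ^ (v : ℕ) → u = v := by
    intro u v
    have h0 := h.root.ne_zero; have h1 := h.root.ne_one; have h2 := h.root.sq_ne_one
    have h4 := h.root.sq_ne_self
    fin_cases u <;> fin_cases v <;> simp <;> grind
  have hadd : ∀ u v : Fin 3, ω ^ ((u + v : Fin 3) : ℕ) = ω ^ (u : ℕ) * ω ^ (v : ℕ) := by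
    intro u v
    rw [← pow_add, pow_eq_pow_mod ((u : ℕ) + v) h.root.pow_three, Fin.val_add]
  have hA : ∀ i j : Fin 3, j ≠ i + k → mat g i j = 0 := by
    intro i j hij
    have e := congrFun (congrFun hc i) j
    rw [hdiag, Matrix.mul_diagonal, Matrix.smul_apply, Matrix.diagonal_mul, smul_eq_mul, ← mul_assoc, ← hadd,
      add_comm k i, mul_comm (ω ^ ((i + k : Fin 3) : ℕ))] at e
    by_contra hne
    exact hij (hinj _ _ (mul_left_cancel₀ hne e))
  by_cases hk : k = 0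
  · subst hk
    refine Or.inl ⟨mat_injective ?_, fun i j hij => hA i j (by simpa using Ne.symm hij)⟩
    simpa [mat_mul, h.mat_D] using hc
  · right
    rw [← map_pow, pr_eq_one]
    simpa only [mat_pow] using band_cube _ k hk hA

theorem f_conj_d : f * d * f⁻¹ = q ^ 2 := by rw [h.f_d, mul_inv_cancel_right]

theorem f_conj_q : f * q * f⁻¹ = d := by rw [h.f_q, mul_inv_cancel_right]

/-- A normal abelian subgroup without `3`-torsion meets the centralizer of `D` trivially. -/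
theorem cent_d_trivial [Finite F] {A : Subgroup (↥M ⧸ scal M)} (hn : A.Normal)
    (hab : ∀ a ∈ A, ∀ b ∈ A, a * b = b * a) (h3 : ∀ a ∈ A, a ^ 3 = 1 → a = 1)
    {a : ↥M ⧸ scal M} (ha : a ∈ A) (hd : a * d = d * a) : a = 1 := by
  obtain ⟨g, rfl⟩ := pr_surjective a
  rcases h.diag_or_cube hd with ⟨hcomm, hdiag⟩ | hcube
  swap
  · exact h3 _ ha hcube
  obtain ⟨g', hg'⟩ : ∃ g' : ↥M, g' = h.eF * g * h.eF⁻¹ := ⟨_, rfl⟩
  have ha' : pr M g' ∈ A := by
    simp only [hg', map_mul, map_inv]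
    exact hn.conj_mem _ ha _
  have hFD : h.eF * h.eD * h.eF⁻¹ = h.eP ^ 2 := by
    rw [mul_inv_eq_iff_eq_mul]
    exact mat_injective (by rw [mat_mul, mat_mul, mat_pow, h.mat_F, h.mat_D, h.mat_P, h.root.matF_matD])
  have hP2 : Commute g' (h.eP ^ 2) := by
    rw [← hFD, hg']
    exact Commute.conj hcomm h.eF
  have hP : g' * h.eP = h.eP * g' := by
    have e := (hP2.pow_right 2).eq
    rwa [← pow_mul, show h.eP ^ (2 * 2) = h.eP by
      rw [show 2 * 2 = 3 + 1 from rfl, pow_succ, h.eP_cube, one_mul]] at e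
  obtain ⟨e, he⟩ := pr_commute_iff.1 (hab _ ha _ ha')
  have he3 : e ^ 3 = 1 := h.smul_cube (g := g * g') (k := g' * g) (by rw [mat_mul, mat_mul, he])
  have hiter : ∀ n : ℕ, mat (g ^ n) * mat g' = e ^ n • (mat g' * mat (g ^ n)) := by
    intro n
    induction n with
    | zero => simp [mat_one]
    | succ n ih =>
      rw [pow_succ, mat_mul, mul_assoc, he, mul_smul_comm, ← mul_assoc, ih, smul_mul_assoc, smul_smul,
        mul_assoc, pow_succ, mul_comm e]
  set n := orderOf (pr M g) with hn'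
  obtain ⟨s, hs⟩ := pr_eq_one.1 (by rw [map_pow, hn', pow_orderOf_eq_one] : pr M (g ^ n) = 1)
  have hs0 : s ≠ 0 := fun h0 => mat_ne_zero (g ^ n) (by rw [hs, h0, zero_smul])
  have hen : e ^ n = 1 := by
    have h1 := hiter n
    rw [hs, smul_mul_assoc, one_mul, mul_smul_comm, mul_one, smul_comm] at h1
    have h2 : e ^ n • mat g' = mat g' := (smul_right_injective _ hs0 h1).symm
    obtain ⟨i, j, hij⟩ : ∃ i j, mat g' i j ≠ 0 := by
      by_contra hall
      push Not at hall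
      exact mat_ne_zero g' (by ext i j; exact hall i j)
    exact mul_right_cancel₀ hij (by simpa using congrFun (congrFun h2 i) j)
  have hn3 : Nat.Coprime 3 n := by
    refine (Nat.prime_three.coprime_iff_not_dvd).2 fun hdv => ?_
    have h1 : orderOf (pr M g ^ (n / 3)) = 3 := by
      refine orderOf_pow_orderOf_div ?_ hdv
      exact (orderOf_pos _).ne'
    have h2 := h3 _ (pow_mem ha (n / 3)) (orderOf_dvd_iff_pow_eq_one.1 h1.dvd)
    rw [h2, orderOf_one] at h1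
    omega
  have he1 : e = 1 := by
    have := pow_gcd_eq_one.2 ⟨he3, hen⟩
    rwa [hn3.gcd_eq_one, pow_one] at this
  rw [he1, one_smul] at he
  have hPm : mat g' * matP = matP * mat g' := by rw [← h.mat_P, ← mat_mul, hP, mat_mul]
  rcases diag_circ hdiag hPm he with hX | hY
  · exact pr_eq_one.2 hX
  · have h1 : pr M g' = 1 := pr_eq_one.2 hY
    simp only [hg', map_mul, map_inv] at h1
    exact conj_eq_one_iff.1 h1

/-- A normal abelian subgroup has an element of order `3` unless it is trivial. -/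
theorem exists_three_torsion [Finite F] {A : Subgroup (↥M ⧸ scal M)} (hn : A.Normal)
    (hab : ∀ a ∈ A, ∀ b ∈ A, a * b = b * a) (hA : A ≠ ⊥) : ∃ a ∈ A, a ≠ 1 ∧ a ^ 3 = 1 := by
  by_contra hcon
  push Not at hcon
  have h3 : ∀ a ∈ A, a ^ 3 = 1 → a = 1 := fun a ha h' => by
    by_contra hne
    exact hcon a ha hne h'
  refine hA ((Subgroup.eq_bot_iff_forall _).2 fun a ha => h3 a ha ?_)
  have hnd : ∀ b ∈ A, b * (d * b * d⁻¹) * (d ^ 2 * b * (d ^ 2)⁻¹) = 1 := by
    intro b hb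
    have m1 : d * b * d⁻¹ ∈ A := hn.conj_mem _ hb _
    have m2 : d ^ 2 * b * (d ^ 2)⁻¹ ∈ A := hn.conj_mem _ hb _
    refine h.cent_d_trivial hn hab h3 (mul_mem (mul_mem hb m1) m2) ?_
    have hd3 : d ^ 2 = d⁻¹ := eq_inv_of_mul_eq_one_left (by rw [← pow_succ, h.d_cube])
    have e : d * (b * (d * b * d⁻¹) * (d ^ 2 * b * (d ^ 2)⁻¹)) * d⁻¹ =
        (d * b * d⁻¹) * (d ^ 2 * b * (d ^ 2)⁻¹) * b := by
      rw [hd3]
      have e2 : d * d = d⁻¹ := by rw [← sq, hd3]
      calc d * (b * (d * b * d⁻¹) * (d⁻¹ * b * d⁻¹⁻¹)) * d⁻¹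
          = (d * b * d⁻¹) * ((d * d) * b * (d * d)⁻¹) * b := by group
        _ = _ := by rw [e2]
    have e' : (d * b * d⁻¹) * (d ^ 2 * b * (d ^ 2)⁻¹) * b = b * (d * b * d⁻¹) * (d ^ 2 * b * (d ^ 2)⁻¹) := by
      rw [hab _ (mul_mem m1 m2) _ hb, ← mul_assoc]
    rw [e', mul_inv_eq_iff_eq_mul] at e
    exact e.symm
  have hconj : ∀ w x : ↥M ⧸ scal M, x = w * d * w⁻¹ → ∀ b ∈ A,
      b * (x * b * x⁻¹) * (x ^ 2 * b * (x ^ 2)⁻¹) = 1 := by
    intro w x hx b hb
    have e := congrArg (fun y => w * y * w⁻¹) (hnd (w⁻¹ * b * w⁻¹⁻¹) (hn.conj_mem _ hb _))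
    simp only [mul_one, mul_inv_cancel] at e
    rw [← e, hx, conj_pow]
    group
  have hd2 : (d ^ 2) ^ 2 = d := by rw [← pow_mul, pow_succ, h.d_cube, one_mul]
  have hq2 : (q ^ 2) ^ 2 = q := by rw [← pow_mul, pow_succ, h.q_cube, one_mul]
  have hN : ∀ x : ↥M ⧸ scal M, ∀ b ∈ A, b * ((x ^ 2) * b * (x ^ 2)⁻¹) * ((x ^ 2) ^ 2 * b * ((x ^ 2) ^ 2)⁻¹) = 1 →
      (x ^ 2) ^ 2 = x → b * (x * b * x⁻¹) * (x ^ 2 * b * (x ^ 2)⁻¹) = 1 := by
    intro x b hb e hx
    rw [hx] at e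
    rw [mul_assoc, hab _ (hn.conj_mem _ hb _) _ (hn.conj_mem _ hb _), ← mul_assoc]
    exact e
  have nq : ∀ b ∈ A, b * (q * b * q⁻¹) * (q ^ 2 * b * (q ^ 2)⁻¹) = 1 := fun b hb =>
    hN q b hb (hconj f (q ^ 2) h.f_conj_d.symm b hb) hq2
  have ndq2 : ∀ b ∈ A, b * (d * q ^ 2 * b * (d * q ^ 2)⁻¹) * ((d * q ^ 2) ^ 2 * b * ((d * q ^ 2) ^ 2)⁻¹) = 1 :=
    hconj (pr M h.eG) _ (by rw [h.g_d, mul_inv_cancel_right])
  have hc := h.dq_comm.symm
  have s1 : (d * q ^ 2) ^ 2 = d ^ 2 * q := by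
    rw [(Commute.pow_right hc 2).mul_pow, hq2]
  have s2 : (d * q) ^ 2 = d ^ 2 * q ^ 2 := (show Commute d q from hc).mul_pow 2
  have ndq : ∀ b ∈ A, b * (d * q * b * (d * q)⁻¹) * ((d * q) ^ 2 * b * ((d * q) ^ 2)⁻¹) = 1 := fun b hb =>
    hN (d * q) b hb (hconj (pr M h.eG * f⁻¹) ((d * q) ^ 2) (by
      rw [s2, _root_.mul_inv_rev, inv_inv, ← mul_assoc,
        show pr M h.eG * f⁻¹ * d * f = pr M h.eG * (f⁻¹ * d * f) by group,
        show f⁻¹ * d * f = q by rw [mul_assoc, ← h.f_q, inv_mul_cancel_left],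
        h.g_q, mul_inv_cancel_right]) b hb) (by
      rw [← pow_mul, pow_succ, (show Commute d q from hc).mul_pow, h.d_cube, h.q_cube, one_mul, one_mul])
  let a' : A := ⟨a, ha⟩
  letI : CommGroup A := { (inferInstance : Group A) with mul_comm := fun x y => Subtype.ext (hab _ x.2 _ y.2) }
  let u : ↥M ⧸ scal M → A := fun x => ⟨x * a * x⁻¹, hn.conj_mem _ ha _⟩
  have key := four_norms (a := a') (b₁ := u d) (b₂ := u (d ^ 2)) (c₁ := u q) (c₂ := u (q ^ 2))
    (e₁ := u (d * q)) (e₂ := u ((d * q) ^ 2)) (f₁ := u (d * q ^ 2)) (f₂ := u ((d * q ^ 2) ^ 2))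
    (Subtype.ext (hnd a ha)) (Subtype.ext (nq a ha)) (Subtype.ext (ndq a ha)) (Subtype.ext (ndq2 a ha))
    (Subtype.ext (by
      show (d * a * d⁻¹) * ((d * q) * a * (d * q)⁻¹) * ((d * q ^ 2) * a * (d * q ^ 2)⁻¹) = 1
      calc (d * a * d⁻¹) * ((d * q) * a * (d * q)⁻¹) * ((d * q ^ 2) * a * (d * q ^ 2)⁻¹)
          = d * (a * (q * a * q⁻¹) * (q ^ 2 * a * (q ^ 2)⁻¹)) * d⁻¹ := by group
        _ = 1 := by rw [nq a ha, mul_one, mul_inv_cancel]))
    (Subtype.ext (by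
      show (d ^ 2 * a * (d ^ 2)⁻¹) * ((d * q ^ 2) ^ 2 * a * ((d * q ^ 2) ^ 2)⁻¹) *
        ((d * q) ^ 2 * a * ((d * q) ^ 2)⁻¹) = 1
      rw [s1, s2]
      calc (d ^ 2 * a * (d ^ 2)⁻¹) * ((d ^ 2 * q) * a * (d ^ 2 * q)⁻¹) * ((d ^ 2 * q ^ 2) * a * (d ^ 2 * q ^ 2)⁻¹)
          = d ^ 2 * (a * (q * a * q⁻¹) * (q ^ 2 * a * (q ^ 2)⁻¹)) * (d ^ 2)⁻¹ := by group
        _ = 1 := by rw [nq a ha, mul_one, mul_inv_cancel]))
  exact congrArg Subtype.val key

/-- A subgroup containing `R` and a non-trivial element of `R` moved by `f` is all of `R`. -/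
theorem rbar_le_of_normal {A : Subgroup (↥M ⧸ scal M)} (hn : A.Normal) {r : ↥M ⧸ scal M}
    (hr : r ∈ A) (hr' : r ∈ h.rbar) (h1 : r ≠ 1) : h.rbar ≤ A := by
  obtain ⟨a, b, rfl⟩ := h.mem_rbar.1 hr'
  have hc : Commute d q := h.dq_comm.symm
  have hconj : f * (d ^ (a : ℕ) * q ^ (b : ℕ)) * f⁻¹ = (q ^ 2) ^ (a : ℕ) * d ^ (b : ℕ) := by
    rw [← conj_mul, ← conj_pow, ← conj_pow, h.f_conj_d, h.f_conj_q]
  have m2 : (q ^ 2) ^ (a : ℕ) * d ^ (b : ℕ) ∈ A := hconj ▸ hn.conj_mem _ hr f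
  set n : ℕ := (a : ℕ) * a + (b : ℕ) * b with hn'
  have hsq : ∀ x : ↥M ⧸ scal M, x ^ 3 = 1 → x ^ n ∈ A → x ∈ A := by
    intro x hx hm
    have h2 : n * n % 3 = 1 := by
      have hab : a ≠ 0 ∨ b ≠ 0 := by
        by_contra hh
        push Not at hh
        exact h1 (by simp [hh.1, hh.2])
      rw [hn']
      fin_cases a <;> fin_cases b <;> simp_all
    have := pow_mem hm n
    rwa [← pow_mul, pow_eq_pow_mod _ hx, h2, pow_one] at this
  have hd : d ^ n ∈ A := by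
    have e : (d ^ (a : ℕ) * q ^ (b : ℕ)) ^ (a : ℕ) * ((q ^ 2) ^ (a : ℕ) * d ^ (b : ℕ)) ^ (b : ℕ) = d ^ n := by
      rw [(hc.pow_pow _ _).mul_pow, (hc.symm.pow_left 2 |>.pow_pow _ _).mul_pow, hn', pow_add,
        ← pow_mul, ← pow_mul, ← pow_mul, ← pow_mul, ← pow_mul, mul_assoc, ← mul_assoc (q ^ _), ← pow_add,
        show (b : ℕ) * a + 2 * ((a : ℕ) * b) = 3 * ((a : ℕ) * b) by ring, pow_mul q 3, h.q_cube, one_pow, one_mul]
    rw [← e]
    exact mul_mem (pow_mem hr _) (pow_mem m2 _)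
  have hq : q ^ n ∈ A := by
    have e : (d ^ (a : ℕ) * q ^ (b : ℕ)) ^ (b : ℕ) * ((q ^ 2) ^ (a : ℕ) * d ^ (b : ℕ)) ^ (2 * (a : ℕ)) = q ^ n := by
      rw [(hc.pow_pow _ _).mul_pow, (hc.symm.pow_left 2 |>.pow_pow _ _).mul_pow, hn',
        ← pow_mul, ← pow_mul, ← pow_mul, ← pow_mul, ← pow_mul, mul_assoc, ← mul_assoc (q ^ _), ← pow_add,
        ← ((hc.pow_pow ((b : ℕ) * (2 * a)) _).eq), ← mul_assoc, ← pow_add,
        show (a : ℕ) * b + (b : ℕ) * (2 * a) = 3 * ((a : ℕ) * b) by ring, pow_mul d 3, h.d_cube, one_pow, one_mul,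
        show (b : ℕ) * b + 2 * ((a : ℕ) * (2 * a)) = ((a : ℕ) * a + b * b) + 3 * ((a : ℕ) * a) by ring,
        pow_add, pow_mul q 3, h.q_cube, one_pow, mul_one]
    rw [← e]
    exact mul_mem (pow_mem hr _) (pow_mem m2 _)
  rw [rbar, Subgroup.closure_le]
  rintro x (rfl | rfl)
  · exact hsq _ h.d_cube hd
  · exact hsq _ h.q_cube hq

/-- A non-trivial normal abelian subgroup shows that `R` is normal. -/
theorem rbar_normal_of_abelian [Finite F] {A : Subgroup (↥M ⧸ scal M)} (hn : A.Normal)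
    (hab : ∀ a ∈ A, ∀ b ∈ A, a * b = b * a) (hA : A ≠ ⊥) : h.rbar.Normal := by
  obtain ⟨a₀, ha₀, ha₁, ha₃⟩ := h.exists_three_torsion hn hab hA
  let A3 : Subgroup (↥M ⧸ scal M) :=
    { carrier := {a | a ∈ A ∧ a ^ 3 = 1}
      one_mem' := ⟨A.one_mem, one_pow 3⟩
      mul_mem' := fun {x y} hx hy => ⟨mul_mem hx.1 hy.1, by
        rw [(show Commute x y from hab _ hx.1 _ hy.1).mul_pow, hx.2, hy.2, one_mul]⟩
      inv_mem' := fun {x} hx => ⟨inv_mem hx.1, by rw [inv_pow, hx.2, inv_one]⟩ }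
  have hn3 : A3.Normal :=
    ⟨fun x hx w => ⟨hn.conj_mem x hx.1 w, by rw [conj_pow, hx.2, mul_one, mul_inv_cancel]⟩⟩
  haveI : Fact (Nat.Prime 3) := ⟨Nat.prime_three⟩
  have hp : IsPGroup 3 A3 := fun x => ⟨1, Subtype.ext (by simpa using x.2.2)⟩
  have hpR : IsPGroup 3 h.rbar := fun x => ⟨1, Subtype.ext (by simpa using h.rbar_pow_three x.2)⟩
  letI : MulAction h.rbar A3 :=
    { smul := fun r x => ⟨(r : ↥M ⧸ scal M) * x * (r : ↥M ⧸ scal M)⁻¹, hn3.conj_mem _ x.2 _⟩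
      one_smul := fun x => Subtype.ext (by show (1 : ↥M ⧸ scal M) * x * 1⁻¹ = x; group)
      mul_smul := fun r s x => Subtype.ext (by
        show ((r : ↥M ⧸ scal M) * s) * x * ((r : ↥M ⧸ scal M) * s)⁻¹ =
          r * (s * x * (s : ↥M ⧸ scal M)⁻¹) * (r : ↥M ⧸ scal M)⁻¹
        group) }
  have hdvd : 3 ∣ Nat.card A3 := by
    have h1 : orderOf (⟨a₀, ha₀, ha₃⟩ : A3) = 3 :=
      orderOf_eq_prime (Subtype.ext (by simpa using ha₃)) (fun e => ha₁ (congrArg Subtype.val e))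
    have h2 := orderOf_dvd_natCard (⟨a₀, ha₀, ha₃⟩ : A3)
    rwa [h1] at h2
  obtain ⟨r, hr, hr1⟩ := hpR.exists_fixed_point_of_prime_dvd_card_of_fixed_point A3 hdvd
    (a := 1) (fun r => Subtype.ext (by show (r : ↥M ⧸ scal M) * 1 * (r : ↥M ⧸ scal M)⁻¹ = 1; group))
  have hfix : ∀ x ∈ h.rbar, (r : ↥M ⧸ scal M) * x = x * r := by
    intro x hx
    have e : x * r * x⁻¹ = r := congrArg Subtype.val (hr ⟨x, hx⟩)
    exact (mul_inv_eq_iff_eq_mul.1 e).symm
  have hrR : (r : ↥M ⧸ scal M) ∈ h.rbar :=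
    h.centralizer_rbar (hfix _ h.d_mem) (hfix _ h.q_mem)
  have hle : h.rbar ≤ A3 :=
    h.rbar_le_of_normal hn3 r.2 hrR (fun e => hr1 (Subtype.ext e).symm)
  have heq : A3 = h.rbar := le_antisymm (fun x hx => h.centralizer_rbar
    (hab _ hx.1 _ (hle h.d_mem).1) (hab _ hx.1 _ (hle h.q_mem).1)) hle
  exact heq ▸ hn3

/-- A non-trivial solvable normal subgroup of `M` modulo scalars shows that `R` is normal. -/
theorem rbar_normal_of_solvable [Finite F] (N : Subgroup (↥M ⧸ scal M)) (hn : N.Normal)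
    (hs : Group.IsSolvable ↥N) (hN : N ≠ ⊥) : h.rbar.Normal := by
  let L : ℕ → Subgroup (↥M ⧸ scal M) := fun n => (derivedSeries N n).map N.subtype
  obtain ⟨m, hm⟩ := hs.solvable
  have hex : ∃ n, L n = ⊥ := ⟨m, by simp only [L, hm, Subgroup.map_bot]⟩
  classical
  have h0 : Nat.find hex ≠ 0 := fun e => hN (by
    have := Nat.find_spec hex
    rw [e] at this
    simpa [L, derivedSeries_zero, ← MonoidHom.range_eq_map] using this)
  obtain ⟨k, hk⟩ : ∃ k, Nat.find hex = k + 1 := ⟨Nat.find hex - 1, by omega⟩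
  have hk1 : L (k + 1) = ⊥ := by rw [← hk]; exact Nat.find_spec hex
  have hk0 : L k ≠ ⊥ := Nat.find_min hex (by omega)
  have hLn : (L k).Normal := ConjAct.normal_of_characteristic_of_normal
  refine h.rbar_normal_of_abelian hLn (fun a ha b hb => ?_) hk0
  have hc : ⁅L k, L k⁆ = ⊥ := by
    rw [← hk1]
    simp only [L, derivedSeries_succ, Subgroup.map_commutator]
  have := Subgroup.commutator_mem_commutator ha hb
  rw [hc, Subgroup.mem_bot] at this
  exact commutatorElement_eq_one_iff_mul_comm.1 this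

/-- An abelian subgroup containing `R` has at most nine elements. -/
theorem card_le_nine_of_abelian [Finite F] (A : Subgroup (↥M ⧸ scal M)) (hA : h.rbar ≤ A)
    (hc : ∀ a ∈ A, ∀ b ∈ A, a * b = b * a) : Nat.card ↥A ≤ 9 := by
  rw [← h.card_rbar]
  exact Subgroup.card_le_of_le fun x hx =>
    h.centralizer_rbar (hc _ hx _ (hA h.d_mem)) (hc _ hx _ (hA h.q_mem))

/-- Normality of `R` modulo scalars puts `M` into the normaliser of `stdR`. -/
theorem le_normalizer_of_rbar_normal (hR : h.rbar.Normal) :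
    M ≤ Cfsg.Geo.subgroupNormalizer (stdR ω) := by
  have hD : (h.eD : GL (Fin 3) F) ∈ stdR ω := Subgroup.subset_closure (Or.inl h.mat_D)
  have hP : (h.eP : GL (Fin 3) F) ∈ stdR ω := Subgroup.subset_closure (Or.inr h.mat_P)
  have hscal : ∀ g : ↥M, (∃ c : F, mat g = c • 1) → (g : GL (Fin 3) F) ∈ stdR ω := by
    rintro g ⟨c, hc⟩
    obtain ⟨k, rfl⟩ := h.root_cases (h.smul_cube (g := g) (k := 1) (by rw [hc, mat_one]))
    let w : ↥M := h.eP * h.eD * (h.eD * h.eP)⁻¹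
    have hw : mat w = ω ^ 2 • 1 := by
      simp only [w]
      rw [mat_mul, mat_mul, h.mat_P, h.mat_D, h.root.matD_mul_matP, smul_mul_assoc, ← h.mat_D, ← h.mat_P,
        ← mat_mul h.eD, mat_mul_inv]
    have hwm : (w : GL (Fin 3) F) ∈ stdR ω := by
      simp only [w, Subgroup.coe_mul, Subgroup.coe_inv]
      exact mul_mem (mul_mem hP hD) (inv_mem (mul_mem hD hP))
    have e : g = w ^ (2 * (k : ℕ)) := mat_injective (by
      rw [hc, mat_pow, hw, smul_pow, one_pow, ← pow_mul,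
        show 2 * (2 * (k : ℕ)) = (k : ℕ) + 3 * k by ring, pow_add, pow_mul ω 3, h.root.pow_three, one_pow, mul_one])
    rw [e, Subgroup.coe_pow]
    exact pow_mem hwm _
  have hmem : ∀ g : ↥M, pr M g ∈ h.rbar → (g : GL (Fin 3) F) ∈ stdR ω := by
    intro g hg
    obtain ⟨a, b, e⟩ := h.mem_rbar.1 hg
    rw [← map_pow, ← map_pow, ← map_mul] at e
    have h1 := hscal (g * (h.eD ^ (a : ℕ) * h.eP ^ (b : ℕ))⁻¹)
      (pr_eq_one.1 (by rw [map_mul, map_inv, e, mul_inv_cancel]))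
    have h2 := mul_mem h1 (mul_mem (pow_mem hD (a : ℕ)) (pow_mem hP (b : ℕ)))
    convert h2 using 1
    simp only [Subgroup.coe_mul, Subgroup.coe_inv, Subgroup.coe_pow]
    group
  have hfwd : ∀ m : ↥M, ∀ x ∈ stdR ω,
      (m : GL (Fin 3) F) * x * (m : GL (Fin 3) F)⁻¹ ∈ stdR ω := by
    intro m x hx
    induction hx using Subgroup.closure_induction with
    | mem x hx =>
      rcases hx with hx | hx
      · rw [show x = (h.eD : GL (Fin 3) F) from Units.ext (hx.trans h.mat_D.symm)]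
        exact hmem (m * h.eD * m⁻¹) (by rw [map_mul, map_mul, map_inv]; exact hR.conj_mem _ h.d_mem _)
      · rw [show x = (h.eP : GL (Fin 3) F) from Units.ext (hx.trans h.mat_P.symm)]
        exact hmem (m * h.eP * m⁻¹) (by rw [map_mul, map_mul, map_inv]; exact hR.conj_mem _ h.q_mem _)
    | one => rw [mul_one, mul_inv_cancel]; exact one_mem _
    | mul x y _ _ hx hy => rw [← conj_mul]; exact mul_mem hx hy
    | inv x _ hx => rw [← conj_inv]; exact inv_mem hx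
  intro m hm
  refine Subgroup.mem_normalizer_iff.2 fun x => ⟨hfwd ⟨m, hm⟩ x, fun hx => ?_⟩
  have := hfwd ⟨m, hm⟩⁻¹ _ hx
  simpa [mul_assoc] using this

end Overgroup

end Cfsg.Agent.H48.C6Three
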