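import Cfsg.Agent.H48.C6Three.Quot
import Cfsg.Agent.H48.C6Three.QuatHom
import Cfsg.Agent.H48.C6Three.PlaneGroup

/-!
The plane of the involution `z`, the quaternion group, and the absence of homologies of order `4`.
-/

set_option autoImplicit false
set_option linter.unusedSimpArgs false

namespace Cfsg.Agent.H48.C6Three

open Matrix

variable {F : Type*} [Field F] {ω : F} {M : Subgroup (GL (Fin 3) F)}

/-- Centre and axis basis of `matZ`. -/
def matB : Matrix (Fin 3) (Fin 3) F := !![0, 1, 0; 1, 0, 1; -1, 0, 1]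

/-- The inverse of `matB`. -/
def matB' : Matrix (Fin 3) (Fin 3) F := !![0, 2⁻¹, -2⁻¹; 1, 0, 0; 0, 2⁻¹, 2⁻¹]

theorem matB_mul (h2 : (2 : F) ≠ 0) : matB * (matB' : Matrix (Fin 3) (Fin 3) F) = 1 := by
  ext i j; fin_cases i <;> fin_cases j <;>
    simp [matB, matB', Matrix.mul_apply, Fin.sum_univ_three] <;> field_simp <;> ring

/-- The change of basis. -/
def unitB (h2 : (2 : F) ≠ 0) : GL (Fin 3) F :=
  ⟨matB, matB', matB_mul h2, mul_eq_one_comm.1 (matB_mul h2)⟩

theorem isBlk_of_commute_matZ (h2 : (2 : F) ≠ 0) {g : Matrix (Fin 3) (Fin 3) F}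
    (hg : g * matZ = matZ * g) : IsBlk (matB' * g * matB) := by
  have e := fun i j => congrFun (congrFun hg i) j
  have e00 := e 0 0; have e01 := e 0 1; have e02 := e 0 2
  have e10 := e 1 0; have e11 := e 1 1; have e12 := e 1 2
  have e20 := e 2 0; have e21 := e 2 1; have e22 := e 2 2
  simp [matZ, Matrix.mul_apply, Fin.sum_univ_three, Matrix.vecMul, dotProduct] at e00 e01 e02 e10 e11 e12 e20 e21 e22
  refine ⟨?_, ?_, ?_, ?_⟩ <;>
    simp [matB, matB', Matrix.mul_apply, Fin.sum_univ_three, Matrix.vecMul, dotProduct] <;> grind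

theorem commute_matZ_of_smul {g : Matrix (Fin 3) (Fin 3) F} {α β : F}
    (hg : g = α • 1 + β • matZ) : g * matZ = matZ * g := by
  rw [hg]
  simp [add_mul, mul_add]

variable (h : Overgroup ω M)

namespace Overgroup

/-- The centralizer of the involution in `M`. -/
abbrev zc : Subgroup ↥M := Subgroup.centralizer ({h.eZ} : Set ↥M)

include h in
theorem two_ne : (2 : F) ≠ 0 := h.root.two

theorem mem_zc {g : ↥M} : g ∈ h.zc ↔ mat g * matZ = matZ * mat g := by
  rw [Subgroup.mem_centralizer_singleton_iff]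
  constructor
  · intro e; rw [← h.mat_Z, ← mat_mul, ← mat_mul, e]
  · intro e; exact mat_injective (by rw [mat_mul, mat_mul, h.mat_Z, e])

theorem mem_zc_iff_pr {g : ↥M} : g ∈ h.zc ↔ pr M g * pr M h.eZ = pr M h.eZ * pr M g := by
  rw [Subgroup.mem_centralizer_singleton_iff]
  exact ⟨fun e => by rw [← map_mul, ← map_mul, e], h.commute_of_pr h.eZ_sq⟩

/-- `g ↦ B⁻¹ g B` on the centralizer of the involution. -/
def zblk : ↥h.zc →* ↥(blkGroup F) :=
  (((MulAut.conj (unitB h.two_ne)⁻¹).toMonoidHom.comp M.subtype).comp h.zc.subtype).codRestrict _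
    (fun g => by
      have hm : (((MulAut.conj (unitB h.two_ne)⁻¹) ((g : ↥M) : GL (Fin 3) F) : GL (Fin 3) F) :
          Matrix (Fin 3) (Fin 3) F) = matB' * mat (g : ↥M) * matB := by
        rw [MulAut.conj_apply, inv_inv]
        rfl
      change IsBlk _
      rw [show ((((MulAut.conj (unitB h.two_ne)⁻¹).toMonoidHom.comp M.subtype).comp h.zc.subtype) g) =
        (MulAut.conj (unitB h.two_ne)⁻¹) ((g : ↥M) : GL (Fin 3) F) from rfl, hm]
      exact isBlk_of_commute_matZ h.two_ne (h.mem_zc.1 g.2))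

theorem zblk_val (g : ↥h.zc) :
    (((h.zblk g : ↥(blkGroup F)) : GL (Fin 3) F) : Matrix (Fin 3) (Fin 3) F) =
      matB' * mat (g : ↥M) * matB := rfl

/-- The projective image on the axis of the involution. -/
def zimg : ↥h.zc →* Matrix.ProjGenLinGroup (Fin 2) F := pimg.comp h.zblk

theorem zimg_eq_one {g : ↥h.zc} :
    h.zimg g = 1 ↔ ∃ α β : F, mat (g : ↥M) = α • 1 + β • matZ := by
  rw [zimg, MonoidHom.comp_apply, pimg_eq_one, zblk_val]
  have hB := matB_mul h.two_ne
  have h2 := h.two_ne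
  constructor
  · rintro ⟨c, hc⟩
    set N := matB' * mat (g : ↥M) * matB with hN
    obtain ⟨b1, b2, b3, b4⟩ : IsBlk N := isBlk_of_commute_matZ h.two_ne (h.mem_zc.1 g.2)
    have hg : mat (g : ↥M) = matB * N * matB' := by
      rw [hN]; simp only [← mul_assoc, hB, one_mul]; rw [mul_assoc, hB, mul_one]
    refine ⟨(N 0 0 + c) / 2, (N 0 0 - c) / 2, ?_⟩
    have e := fun i j => congrFun (congrFun hc i) j
    have e00 := e 0 0; have e01 := e 0 1; have e10 := e 1 0; have e11 := e 1 1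
    simp [sub2] at e00 e01 e10 e11
    have h22 : (2 : F)⁻¹ * 2 = 1 := inv_mul_cancel₀ h2
    have hN' : N = !![N 0 0, 0, 0; 0, c, 0; 0, 0, c] := by
      ext i j
      fin_cases i <;> fin_cases j <;> simp [b1, b2, b3, b4, e00, e01, e10, e11]
    rw [hg, hN']
    ext i j
    fin_cases i <;> fin_cases j <;>
      simp [matB, matB', matZ, Matrix.mul_apply, Fin.sum_univ_three, Matrix.vecMul, dotProduct] <;> grind
  · rintro ⟨α, β, hg⟩
    refine ⟨α - β, ?_⟩
    have h22 : (2 : F)⁻¹ * 2 = 1 := inv_mul_cancel₀ h2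
    rw [hg]
    ext i j
    fin_cases i <;> fin_cases j <;>
      simp [sub2, matB, matB', matZ, Matrix.mul_apply, Fin.sum_univ_three, Matrix.vecMul, dotProduct] <;> grind

/-- The quaternion group in `G`. -/
noncomputable def qHom : QuaternionGroup 2 →* ↥M ⧸ scal M :=
  (pr M).comp (quatHom h.eF h.eG
    (by rw [show (4 : ℕ) = 2 * 2 from rfl, pow_mul, sq, sq, h.eF_sq, h.eZ_sq])
    (by rw [h.eG_sq, sq, h.eF_sq])
    (by
      rw [mul_inv_eq_iff_eq_mul, eq_inv_mul_iff_mul_eq]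
      have h4 : h.eG * h.eG * (h.eG * h.eG) = 1 := by rw [h.eG_sq, h.eZ_sq]
      calc h.eF * (h.eG * h.eF) = (h.eF * h.eG) * h.eF := (mul_assoc _ _ _).symm
        _ = (h.eZ * (h.eG * h.eF)) * h.eF := by rw [h.eF_eG]
        _ = h.eZ * h.eG * h.eZ := by rw [mul_assoc, mul_assoc, h.eF_sq, ← mul_assoc]
        _ = h.eG := by rw [← h.eG_sq]; simp only [← mul_assoc] at h4 ⊢; rw [h4, one_mul]))

/-- The quaternion subgroup. -/
noncomputable def qbar : Subgroup (↥M ⧸ scal M) := h.qHom.range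

theorem mem_qbar {x : ↥M ⧸ scal M} : x ∈ h.qbar ↔
    x ∈ ({1, pr M h.eZ, pr M h.eF, pr M h.eF * pr M h.eZ, pr M h.eG, pr M h.eG * pr M h.eZ,
      pr M h.eH, pr M h.eH * pr M h.eZ} : Set (↥M ⧸ scal M)) := by
  have hFZ : h.eF ^ 2 = h.eZ := by rw [sq, h.eF_sq]
  have hF3 : h.eF ^ 3 = h.eF * h.eZ := by rw [pow_succ', hFZ]
  have hGF : h.eG * h.eF = h.eH * h.eZ := by
    rw [← h.eH_eq, h.eF_eG]
    have hzc : h.eZ * (h.eG * h.eF) = (h.eG * h.eF) * h.eZ := by
      have a : h.eZ * h.eG = h.eG * h.eZ := by rw [← h.eG_sq, mul_assoc]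
      have b : h.eZ * h.eF = h.eF * h.eZ := by rw [← h.eF_sq, mul_assoc]
      rw [← mul_assoc, a, mul_assoc, b, ← mul_assoc]
    rw [hzc, mul_assoc, h.eZ_sq, mul_one]
  have hGF3 : h.eG * (h.eF * h.eZ) = h.eH := by
    rw [← mul_assoc, hGF, mul_assoc, h.eZ_sq, mul_one]
  have ka : ∀ i, h.qHom (.a i) = pr M (h.eF ^ i.val) := fun i => rfl
  have kx : ∀ i, h.qHom (.xa i) = pr M (h.eG * h.eF ^ i.val) := fun i => rfl
  constructor
  · rintro ⟨y, rfl⟩
    rcases y with i | i
    · rw [ka]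
      fin_cases i
      · left; exact map_one _
      · right; right; left; exact congrArg (pr M) (pow_one _)
      · right; left; exact congrArg (pr M) hFZ
      · right; right; right; left; rw [← map_mul]; exact congrArg (pr M) hF3
    · rw [kx]
      fin_cases i
      · right; right; right; right; left; exact congrArg (pr M) (mul_one _)
      · right; right; right; right; right; right; right
        rw [Set.mem_singleton_iff, ← map_mul]
        exact congrArg (pr M) ((congrArg (h.eG * ·) (pow_one _)).trans hGF)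
      · right; right; right; right; right; left; rw [← map_mul]
        exact congrArg (pr M) (congrArg (h.eG * ·) hFZ)
      · right; right; right; right; right; right; left
        exact congrArg (pr M) ((congrArg (h.eG * ·) hF3).trans hGF3)
  · intro hx
    rcases hx with rfl | rfl | rfl | rfl | rfl | rfl | rfl | rfl
    · exact one_mem _
    · exact ⟨.a 2, by rw [ka]; exact congrArg (pr M) hFZ⟩
    · exact ⟨.a 1, by rw [ka]; exact congrArg (pr M) (pow_one _)⟩
    · exact ⟨.a 3, by rw [ka, ← map_mul]; exact congrArg (pr M) hF3⟩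
    · exact ⟨.xa 0, by rw [kx]; exact congrArg (pr M) (mul_one _)⟩
    · exact ⟨.xa 2, by
        rw [kx, ← map_mul]; exact congrArg (pr M) (congrArg (h.eG * ·) hFZ)⟩
    · exact ⟨.xa 3, by
        rw [kx]; exact congrArg (pr M) ((congrArg (h.eG * ·) hF3).trans hGF3)⟩
    · exact ⟨.xa 1, by
        rw [kx, ← map_mul]
        exact congrArg (pr M) ((congrArg (h.eG * ·) (pow_one _)).trans hGF)⟩

variable [Finite F]

include h in
/-- The characteristic is at least `7`, and the plane tests apply. -/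
theorem plane_tests (K : Subgroup (GL (Fin 3) F)) (hK : ∀ g ∈ K, ¬ IsTransv g) :
    let H := (K.subgroupOf (blkGroup F)).map pimg
    (∀ a ∈ H, a ^ 4 = 1 → ∀ g ∈ H, Commute (g * a ^ 2 * g⁻¹) (a ^ 2)) ∧
    (∀ a ∈ H, a ^ 4 = 1 → a ^ 2 ≠ 1 → ∀ O : Subgroup (Matrix.ProjGenLinGroup (Fin 2) F),
      O ≤ H → Odd (Nat.card O) → (∀ g ∈ H, ∀ y ∈ O, g * y * g⁻¹ ∈ O) → ∀ y ∈ O, Commute y (a ^ 2)) ∧
    (∀ a ∈ H, ∀ b ∈ H, a ^ 3 = 1 → b ^ 3 = 1 →
      a * b = b * a ∨ (a * b) ^ 2 = 1 ∨ (a * b) ^ 3 = 1 ∨ (a * b) ^ 5 = 1) := by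
  have := Fintype.ofFinite F
  obtain ⟨p, hp⟩ := CharP.exists F
  have : Fact p.Prime := ⟨CharP.char_is_prime F p⟩
  have hp2 : p ≠ 2 := fun e => h.two_ne (by subst e; exact_mod_cast CharP.cast_eq_zero F 2)
  exact plane_group_tests hp2 _ (not_dvd_card_pimg K hK)

include h in
/-- No element of `M` acts as a homology of order `4` on the splitting of the involution. -/
theorem no_quarter {a : ↥M} {α β : F} (ha : mat a = α • 1 + β • matZ)
    (hq : (α + β) ^ 2 + (α - β) ^ 2 = 0) : False := by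
  have hb : ∀ m : Matrix (Fin 3) (Fin 3) F, (m = matZ ∨ m = matD ω) → IsBlk m := by
    rintro m (rfl | rfl) <;> exact ⟨rfl, rfl, rfl, rfl⟩
  have hza : IsBlk (mat a) := by
    obtain ⟨z1, z2, z3, z4⟩ := hb matZ (Or.inl rfl)
    rw [ha]
    refine ⟨?_, ?_, ?_, ?_⟩ <;> simp [z1, z2, z3, z4]
  let A : ↥(blkGroup F) := ⟨(a : GL (Fin 3) F), hza⟩
  let Dd : ↥(blkGroup F) := ⟨(h.eD : GL (Fin 3) F), by
    show IsBlk (mat h.eD); rw [h.mat_D]; exact hb _ (Or.inr rfl)⟩
  let Zz : ↥(blkGroup F) := ⟨(h.eZ : GL (Fin 3) F), by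
    show IsBlk (mat h.eZ); rw [h.mat_Z]; exact hb _ (Or.inl rfl)⟩
  have hAH : pimg A ∈ (M.subgroupOf (blkGroup F)).map pimg := Subgroup.mem_map_of_mem _ a.2
  have hDH : pimg Dd ∈ (M.subgroupOf (blkGroup F)).map pimg := Subgroup.mem_map_of_mem _ h.eD.2
  have h2 := h.two_ne
  have hA2 : pimg A ^ 2 = pimg Zz := by
    rw [← map_pow, pimg_eq_iff]
    refine ⟨2 * α * β, ?_⟩
    have e : mat a * mat a = (2 * α * β) • matZ := by
      rw [ha, add_mul, mul_add, mul_add]
      simp only [smul_mul_smul_comm, one_mul, mul_one, h.root.matZ_sq]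
      have hs : α * α + β * β = 0 := by
        have h4 : (2 : F) * (α * α + β * β) = 0 := by linear_combination hq
        exact (mul_eq_zero.1 h4).resolve_left h2
      rw [show (α * α) • (1 : Matrix (Fin 3) (Fin 3) F) + (α * β) • matZ +
        ((β * α) • matZ + (β * β) • 1) = (α * α + β * β) • 1 + (2 * α * β) • matZ by module, hs,
        zero_smul, zero_add]
    show sub2 (((A ^ 2 : ↥(blkGroup F)) : GL (Fin 3) F) : Matrix (Fin 3) (Fin 3) F) = _
    rw [sq, Subgroup.coe_mul, Units.val_mul]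
    show sub2 (mat a * mat a) = _
    rw [e]
    show _ = (2 * α * β) • sub2 (mat h.eZ)
    rw [h.mat_Z]
    ext i j; fin_cases i <;> fin_cases j <;> simp [sub2]
  have hZ2 : pimg Zz * pimg Zz = 1 := by
    rw [← map_mul, show Zz * Zz = 1 from Subtype.ext
      (show (h.eZ : GL (Fin 3) F) * (h.eZ : GL (Fin 3) F) = 1 from congrArg Subtype.val h.eZ_sq), map_one]
  have hA4 : pimg A ^ 4 = 1 := by
    rw [show (4 : ℕ) = 2 * 2 from rfl, pow_mul, hA2, sq, hZ2]
  have hc := (h.plane_tests M h.nt).1 _ hAH hA4 _ hDH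
  rw [hA2] at hc
  have hzd : Zz * Dd = Dd ^ 2 * Zz :=
    Subtype.ext (Units.ext (by
      show mat h.eZ * mat h.eD = _
      rw [h.mat_Z, h.mat_D, h.root.matZ_matD, ← h.mat_D, ← h.mat_Z, ← mat_pow, ← mat_mul]
      rfl))
  have hd3 : Dd ^ 3 = 1 := Subtype.ext (by
    rw [Subgroup.coe_pow]
    exact congrArg Subtype.val h.eD_cube)
  have key : pimg Dd = 1 := by
    have hd3' : pimg Dd ^ 3 = 1 := by rw [← map_pow, hd3, map_one]
    have hzd' : pimg Zz * pimg Dd = pimg Dd ^ 2 * pimg Zz := by rw [← map_pow, ← map_mul, ← map_mul, hzd]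
    generalize pimg Dd = d at hc hd3' hzd' ⊢
    generalize pimg Zz = y at hc hZ2 hzd'
    have hinv : d⁻¹ = d ^ 2 := inv_eq_of_mul_eq_one_right (by rw [← pow_succ', hd3'])
    have e1 : d * y * d⁻¹ = d ^ 2 * y := by
      rw [hinv, sq, ← mul_assoc (d * y), mul_assoc d y d, hzd', ← mul_assoc, ← pow_succ', hd3', one_mul,
        hzd', sq]
    have e2 : d ^ 2 * y * y = y * (d ^ 2 * y) := by rw [← e1]; exact hc.eq
    rw [mul_assoc, hZ2, mul_one, sq, ← mul_assoc, ← mul_assoc, hzd', mul_assoc (d ^ 2), hzd', ← mul_assoc,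
      mul_assoc _ y y, hZ2, mul_one, ← pow_add] at e2
    rw [show (2 + 2 : ℕ) = 3 + 1 from rfl, pow_succ d 3, hd3', one_mul] at e2
    exact mul_eq_right.1 e2
  obtain ⟨c, hc'⟩ := pimg_eq_one.1 key
  change sub2 (mat h.eD) = _ at hc'
  rw [h.mat_D] at hc'
  have e11 := congrFun (congrFun hc' 0) 0
  have e22 := congrFun (congrFun hc' 1) 1
  simp [sub2, matD] at e11 e22
  exact h.root.sq_ne_self (e22.trans e11.symm)

end Overgroup

end Cfsg.Agent.H48.C6Three
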